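import Cfsg.Agent.Lib.Geometric.SLNine.Model
import Cfsg.Agent.Lib.ClassicalLinear.Simple

/-!
The ambient facts for the special linear groups: the blocks and the Pauli normaliser generate the
nine-dimensional group, and non-scalar subgroups normalised by the three-dimensional group contain
it.
-/

set_option autoImplicit false

namespace CfsgLib.Geometric.SLNine

open Matrix
open scoped commutatorElement

namespace Big

variable {F : Type*} [Field F] {ι : Type} [Fintype ι] [DecidableEq ι]

lemma toGL_mem (s : Matrix.SpecialLinearGroup ι F) :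
    Matrix.SpecialLinearGroup.toGL s ∈ Cfsg.Geo.specialLinear ι F := by
  refine Units.ext ?_
  rw [GeneralLinearGroup.val_det_apply, Units.val_one]
  exact s.2

lemma exists_toGL {g : GL ι F} (hg : g ∈ Cfsg.Geo.specialLinear ι F) :
    ∃ s : Matrix.SpecialLinearGroup ι F, Matrix.SpecialLinearGroup.toGL s = g := by
  refine ⟨⟨(g : Matrix ι ι F), ?_⟩, Units.ext rfl⟩
  have h : GeneralLinearGroup.det g = 1 := hg
  rw [← GeneralLinearGroup.val_det_apply, h, Units.val_one]

/-- A non-scalar subgroup normalised by the special linear group contains it. -/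
theorem specialLinear_le_of_normalized (h3 : 3 ≤ Fintype.card ι) (K : Subgroup (GL ι F))
    (hK : ∀ h ∈ Cfsg.Geo.specialLinear ι F, ∀ k ∈ K, h * k * h⁻¹ ∈ K)
    (hns : ∃ k ∈ K, k ∉ Cfsg.Geo.scalars ι F) : Cfsg.Geo.specialLinear ι F ≤ K := by
  set N : Subgroup (Matrix.SpecialLinearGroup ι F) := K.comap Matrix.SpecialLinearGroup.toGL with hN
  have hNn : N.Normal := by
    refine ⟨fun n hn g => ?_⟩
    show Matrix.SpecialLinearGroup.toGL (g * n * g⁻¹) ∈ K
    rw [map_mul, map_mul, map_inv]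
    exact hK _ (toGL_mem g) _ hn
  have hperf : commutator (Matrix.SpecialLinearGroup ι F) = ⊤ :=
    CfsgLib.ClassicalLinear.commutator_sl_eq_top (Or.inl h3)
  have := CfsgLib.ClassicalLinear.isSimpleGroup_psl_of_three_le (F := F) h3
  have hmap : (N.map (QuotientGroup.mk' (Subgroup.center (Matrix.SpecialLinearGroup ι F)))).Normal :=
    hNn.map _ (QuotientGroup.mk'_surjective _)
  rcases hmap.eq_bot_or_eq_top with hbot | htop
  · exfalso
    have hNc : N ≤ Subgroup.center (Matrix.SpecialLinearGroup ι F) := by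
      rw [Subgroup.map_eq_bot_iff, QuotientGroup.ker_mk'] at hbot
      exact hbot
    obtain ⟨k, hk, hks⟩ := hns
    -- the commutator with `k` is a central homomorphism
    have hc : ∀ s : Matrix.SpecialLinearGroup ι F, ∃ z ∈ Subgroup.center (Matrix.SpecialLinearGroup ι F),
        Matrix.SpecialLinearGroup.toGL s * k * (Matrix.SpecialLinearGroup.toGL s)⁻¹ * k⁻¹ =
          Matrix.SpecialLinearGroup.toGL z := by
      intro s
      have hmem : Matrix.SpecialLinearGroup.toGL s * k * (Matrix.SpecialLinearGroup.toGL s)⁻¹ * k⁻¹ ∈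
          Cfsg.Geo.specialLinear ι F := by
        show GeneralLinearGroup.det _ = 1
        simp only [map_mul, map_inv]
        simp [mul_comm]
      obtain ⟨z, hz⟩ := exists_toGL hmem
      refine ⟨z, hNc ?_, hz.symm⟩
      show Matrix.SpecialLinearGroup.toGL z ∈ K
      rw [hz]
      exact K.mul_mem (hK _ (toGL_mem s) _ hk) (K.inv_mem hk)
    have hzc : ∀ z ∈ Subgroup.center (Matrix.SpecialLinearGroup ι F), ∀ g : GL ι F,
        g * Matrix.SpecialLinearGroup.toGL z = Matrix.SpecialLinearGroup.toGL z * g := by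
      intro z hz g
      obtain ⟨r, -, hr⟩ := Matrix.SpecialLinearGroup.mem_center_iff.mp hz
      refine Units.ext ?_
      show (g : Matrix ι ι F) * (z : Matrix ι ι F) = (z : Matrix ι ι F) * (g : Matrix ι ι F)
      rw [← hr]
      exact ((scalar_commute r (Commute.all r) _).eq).symm
    set S : Subgroup (Matrix.SpecialLinearGroup ι F) :=
      (Subgroup.centralizer {k}).comap Matrix.SpecialLinearGroup.toGL with hS
    have hcomm : commutator (Matrix.SpecialLinearGroup ι F) ≤ S := by
      rw [commutator_eq_closure, Subgroup.closure_le]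
      rintro x ⟨a, b, rfl⟩
      show Matrix.SpecialLinearGroup.toGL ⁅a, b⁆ ∈ Subgroup.centralizer {k}
      rw [Subgroup.mem_centralizer_singleton_iff, commutatorElement_def]
      obtain ⟨za, hza, ea⟩ := hc a
      obtain ⟨zb, hzb, eb⟩ := hc b
      set A := Matrix.SpecialLinearGroup.toGL a
      set B := Matrix.SpecialLinearGroup.toGL b
      set P := Matrix.SpecialLinearGroup.toGL za
      set Q := Matrix.SpecialLinearGroup.toGL zb
      have ca : A * k = P * (k * A) := by rw [← ea]; group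
      have cb : B * k = Q * (k * B) := by rw [← eb]; group
      have hP : ∀ g : GL ι F, g * P = P * g := hzc za hza
      have hQ : ∀ g : GL ι F, g * Q = Q * g := hzc zb hzb
      have e1 : A⁻¹ * k = P⁻¹ * (k * A⁻¹) := by
        have hPA : A⁻¹ * P = P * A⁻¹ := hP _
        calc A⁻¹ * k = P⁻¹ * (P * A⁻¹) * k := by group
          _ = P⁻¹ * (A⁻¹ * (P * (k * A)) * A⁻¹) := by rw [← hPA]; group
          _ = P⁻¹ * (k * A⁻¹) := by rw [← ca]; group
      have e2 : B⁻¹ * k = Q⁻¹ * (k * B⁻¹) := by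
        have hQB : B⁻¹ * Q = Q * B⁻¹ := hQ _
        calc B⁻¹ * k = Q⁻¹ * (Q * B⁻¹) * k := by group
          _ = Q⁻¹ * (B⁻¹ * (Q * (k * B)) * B⁻¹) := by rw [← hQB]; group
          _ = Q⁻¹ * (k * B⁻¹) := by rw [← cb]; group
      have hPi : ∀ g : GL ι F, g * P⁻¹ = P⁻¹ * g := fun g =>
        ((Commute.inv_right (hP g : Commute g P)).eq)
      have hQi : ∀ g : GL ι F, g * Q⁻¹ = Q⁻¹ * g := fun g =>
        ((Commute.inv_right (hQ g : Commute g Q)).eq)
      simp only [map_mul, map_inv]
      calc A * B * A⁻¹ * B⁻¹ * k = A * B * A⁻¹ * (B⁻¹ * k) := by group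
        _ = A * B * A⁻¹ * Q⁻¹ * (k * B⁻¹) := by rw [e2]; group
        _ = Q⁻¹ * (A * B * (A⁻¹ * k) * B⁻¹) := by rw [hQi (A * B * A⁻¹)]; group
        _ = Q⁻¹ * (A * B * P⁻¹ * (k * A⁻¹) * B⁻¹) := by rw [e1]; group
        _ = Q⁻¹ * (P⁻¹ * (A * (B * k) * A⁻¹ * B⁻¹)) := by rw [hPi (A * B)]; group
        _ = Q⁻¹ * (P⁻¹ * (A * Q * (k * B) * A⁻¹ * B⁻¹)) := by rw [cb]; group
        _ = Q⁻¹ * (P⁻¹ * (Q * (A * k) * B * A⁻¹ * B⁻¹)) := by rw [hQ A]; group
        _ = Q⁻¹ * (P⁻¹ * Q) * (P * (k * A * B * A⁻¹ * B⁻¹)) := by rw [ca]; group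
        _ = k * (A * B * A⁻¹ * B⁻¹) := by rw [← hPi Q]; group
    rw [hperf] at hcomm
    apply hks
    obtain ⟨r, hr⟩ : (k : Matrix ι ι F) ∈ Set.range (scalar ι) := by
      refine mem_range_scalar_of_commute_transvectionStruct fun t => ?_
      have h := hcomm (Subgroup.mem_top (Matrix.SpecialLinearGroup.transvection t.hij t.c))
      have h2 := congrArg (fun g : GL ι F => (g : Matrix ι ι F))
        (Subgroup.mem_centralizer_singleton_iff.mp h)
      exact h2
    have : Nonempty ι := Fintype.card_pos_iff.mp (by omega)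
    have hr0 : r ≠ 0 := by
      intro h0
      have hu : IsUnit (k : Matrix ι ι F) := k.isUnit
      rw [← hr, h0, map_zero] at hu
      exact not_isUnit_zero hu
    refine (Cfsg.Geo.mem_scalars_iff k).mpr ⟨Units.mk0 r hr0, ?_⟩
    rw [← hr, smul_one_eq_diagonal]
    rfl
  · have hsup : N ⊔ Subgroup.center (Matrix.SpecialLinearGroup ι F) = ⊤ := by
      have h := congrArg (Subgroup.comap (QuotientGroup.mk' _)) htop
      rwa [Subgroup.comap_map_eq, QuotientGroup.ker_mk', Subgroup.comap_top] at h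
    have htop' : commutator (Matrix.SpecialLinearGroup ι F) ≤ N := by
      rw [commutator_eq_closure, Subgroup.closure_le]
      rintro x ⟨a, b, rfl⟩
      obtain ⟨n₁, hn₁, z₁, hz₁, rfl⟩ := Subgroup.mem_sup_of_normal_right.mp
        (show a ∈ N ⊔ Subgroup.center (Matrix.SpecialLinearGroup ι F) by rw [hsup]; exact Subgroup.mem_top a)
      obtain ⟨n₂, hn₂, z₂, hz₂, rfl⟩ := Subgroup.mem_sup_of_normal_right.mp
        (show b ∈ N ⊔ Subgroup.center (Matrix.SpecialLinearGroup ι F) by rw [hsup]; exact Subgroup.mem_top b)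
      have c1 := Subgroup.mem_center_iff.mp hz₁
      have c2 := Subgroup.mem_center_iff.mp hz₂
      have e : ⁅n₁ * z₁, n₂ * z₂⁆ = ⁅n₁, n₂⁆ := by
        simp only [commutatorElement_def, _root_.mul_inv_rev]
        calc n₁ * z₁ * (n₂ * z₂) * (z₁⁻¹ * n₁⁻¹) * (z₂⁻¹ * n₂⁻¹)
            = n₁ * (z₁ * (n₂ * z₂)) * z₁⁻¹ * n₁⁻¹ * z₂⁻¹ * n₂⁻¹ := by group
          _ = n₁ * (n₂ * z₂) * n₁⁻¹ * z₂⁻¹ * n₂⁻¹ := by rw [← c1]; group
          _ = n₁ * n₂ * (z₂ * n₁⁻¹) * z₂⁻¹ * n₂⁻¹ := by group
          _ = n₁ * n₂ * n₁⁻¹ * n₂⁻¹ := by rw [← c2]; group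
      rw [e, commutatorElement_def]
      exact N.mul_mem (N.mul_mem (N.mul_mem hn₁ hn₂) (N.inv_mem hn₁)) (N.inv_mem hn₂)
    rw [hperf] at htop'
    intro g hg
    obtain ⟨s, rfl⟩ := exists_toGL hg
    exact htop' (Subgroup.mem_top s)

/-- Conjugating a transvection by a signed permutation matrix permutes its indices. -/
lemma pmat_mul_transvection (σ : Equiv.Perm J9) (p q : J9) (c : F) :
    pmat σ * Matrix.transvection p q c = Matrix.transvection (σ p) (σ q) c * pmat σ := by
  simp only [Matrix.transvection, mul_add, add_mul, mul_one, one_mul]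
  congr 1
  ext i j
  have hl : (pmat σ * Matrix.single p q c : Matrix J9 J9 F) i j = pmat σ i p * (if q = j then c else 0) := by
    rw [Matrix.mul_apply, Finset.sum_eq_single p]
    · simp [Matrix.single_apply]
    · intro x _ hx; simp [Ne.symm hx]
    · simp
  have hr : (Matrix.single (σ p) (σ q) c * pmat σ : Matrix J9 J9 F) i j =
      (if σ p = i then c else 0) * pmat σ (σ q) j := by
    rw [Matrix.mul_apply, Finset.sum_eq_single (σ q)]
    · simp [Matrix.single_apply]
    · intro x _ hx; simp [Ne.symm hx]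
    · simp
  rw [hl, hr]
  simp only [pmat, Matrix.of_apply, EmbeddingLike.apply_eq_iff_eq]
  by_cases hi : i = σ p <;> by_cases hj : q = j <;> simp [hi, hj, Ne.symm, mul_comm]

/-- Block transvections and the exchange of the factors generate the special linear group. -/
theorem specialLinear_le_of_blocks {M : Subgroup (GL J9 F)}
    (hswap : pmHom (Equiv.prodComm (ZMod 3) (ZMod 3)) ∈ M)
    (hbd : ∀ a : ZMod 3 → GL (ZMod 3) F, (∀ i, a i ∈ Cfsg.Geo.specialLinear (ZMod 3) F) →
      bdHom a ∈ M) : Cfsg.Geo.specialLinear J9 F ≤ M := by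
  set K : Subgroup (Matrix.SpecialLinearGroup J9 F) := M.comap Matrix.SpecialLinearGroup.toGL with hK
  -- inside a block
  have hblk : ∀ (p q : J9) (h : p ≠ q), p.1 = q.1 → ∀ c : F,
      Matrix.SpecialLinearGroup.transvection h c ∈ K := by
    intro p q h h1 c
    obtain ⟨i, k⟩ := p
    obtain ⟨j, l⟩ := q
    simp only at h1
    subst h1
    have hkl : k ≠ l := fun e => h (by rw [e])
    have hmem := hbd (Pi.mulSingle i (Matrix.SpecialLinearGroup.toGL (Matrix.SpecialLinearGroup.transvection hkl c)))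
      (fun x => by
        by_cases hx : x = i
        · subst hx; rw [Pi.mulSingle_eq_same]; exact toGL_mem _
        · rw [Pi.mulSingle_eq_of_ne hx]; exact one_mem _)
    show Matrix.SpecialLinearGroup.toGL _ ∈ M
    convert hmem using 1
    refine Units.ext ?_
    rw [coe_bdHom]
    show Matrix.transvection (i, k) (i, l) c = _
    ext ⟨x, y⟩ ⟨x', y'⟩
    rw [bd_apply]
    by_cases hx : x = i
    · subst hx
      rw [Pi.mulSingle_eq_same]
      show Matrix.transvection _ _ c _ _ = if _ then Matrix.transvection k l c _ _ else _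
      by_cases hx' : x = x' <;>
        simp [Matrix.transvection, Matrix.one_apply, Matrix.single_apply, hx']
    · by_cases hx' : x = x'
      · subst hx'
        simp [Matrix.transvection, Matrix.one_apply, Ne.symm hx]
      · simp [Matrix.transvection, hx', Ne.symm hx]
  -- exchanging the factors
  have hsw : ∀ (p q : J9) (h : p ≠ q), p.2 = q.2 → ∀ c : F,
      Matrix.SpecialLinearGroup.transvection h c ∈ K := by
    intro p q h h2 c
    have h' : Prod.swap p ≠ Prod.swap q := fun e => h (Prod.swap_injective e)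
    have hm : Matrix.SpecialLinearGroup.toGL (Matrix.SpecialLinearGroup.transvection h' c) ∈ M :=
      hblk _ _ h' h2 c
    show Matrix.SpecialLinearGroup.toGL _ ∈ M
    have e : Matrix.SpecialLinearGroup.toGL (Matrix.SpecialLinearGroup.transvection h c) =
        pmHom (Equiv.prodComm (ZMod 3) (ZMod 3)) *
          Matrix.SpecialLinearGroup.toGL (Matrix.SpecialLinearGroup.transvection h' c) *
          (pmHom (Equiv.prodComm (ZMod 3) (ZMod 3)))⁻¹ := by
      rw [eq_mul_inv_iff_mul_eq]
      refine Units.ext ?_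
      show Matrix.transvection p q c * pmat (Equiv.prodComm (ZMod 3) (ZMod 3)) =
        pmat (Equiv.prodComm (ZMod 3) (ZMod 3)) * Matrix.transvection p.swap q.swap c
      rw [pmat_mul_transvection]
      simp
    rw [e]
    exact M.mul_mem (M.mul_mem hswap hm) (M.inv_mem hswap)
  have htop : K = ⊤ := by
    refine CfsgLib.ClassicalLinear.eq_top_of_transvection_mem fun p q h c => ?_
    by_cases h1 : p.1 = q.1
    · exact hblk p q h h1 c
    by_cases h2 : p.2 = q.2
    · exact hsw p q h h2 c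
    have hpr : p ≠ (p.1, q.2) := fun e => h2 (by rw [e])
    have hrq : (p.1, q.2) ≠ q := fun e => h1 (by rw [← e])
    have he := CfsgLib.ClassicalLinear.commutator_transvection h hpr hrq c (1 : F)
    rw [mul_one] at he
    have ha := hblk p (p.1, q.2) hpr rfl c
    have hb := hsw (p.1, q.2) q hrq rfl 1
    rw [← he, commutatorElement_def]
    exact K.mul_mem (K.mul_mem (K.mul_mem ha hb) (K.inv_mem ha)) (K.inv_mem hb)
  intro g hg
  obtain ⟨s, rfl⟩ := exists_toGL hg
  have : s ∈ K := htop ▸ Subgroup.mem_top s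
  exact this

end Big

variable {F : Type*} [Field F] {ω : F}

/-- The field `normal_le` of the ambient data of the special linear groups. -/
theorem top_normal_le (K : Subgroup (GL (ZMod 3) F))
    (hK : ∀ h ∈ (⊤ : Subgroup (GL (ZMod 3) F)) ⊓ Cfsg.Geo.specialLinear (ZMod 3) F,
      ∀ k ∈ K, h * k * h⁻¹ ∈ K)
    (hns : ∃ k ∈ K, k ∉ Cfsg.Geo.scalars (ZMod 3) F) :
    (⊤ : Subgroup (GL (ZMod 3) F)) ⊓ Cfsg.Geo.specialLinear (ZMod 3) F ≤ K := by
  simp only [top_inf_eq] at hK ⊢
  exact Big.specialLinear_le_of_normalized (by simp) K hK hns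

/-- The field `gen` of the ambient data of the special linear groups. -/
theorem top_gen (hω : IsPrimitiveRoot ω 3) (M : Subgroup (GL J9 F))
    (hN : N9 ω ⊓ ((⊤ : Subgroup (GL J9 F)) ⊓ Cfsg.Geo.specialLinear J9 F) ≤ M)
    (hbd : ∀ a : ZMod 3 → GL (ZMod 3) F,
      (∀ i, a i ∈ (⊤ : Subgroup (GL (ZMod 3) F)) ⊓ Cfsg.Geo.specialLinear (ZMod 3) F) → bdHom a ∈ M) :
    (⊤ : Subgroup (GL J9 F)) ⊓ Cfsg.Geo.specialLinear J9 F ≤ M := by
  simp only [top_inf_eq] at hN hbd ⊢
  exact Big.specialLinear_le_of_blocks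
    (hN ⟨pm_mem_N9 hω swapPerm (fun v => (v.2, v.1)) (fun v j => by simp [swapPerm])
      (fun v j => by simp [swapPerm]; ring), mem_specialLinear.mpr (det_pmat _)⟩) hbd

end CfsgLib.Geometric.SLNine
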