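import Cfsg.Agent.Lib.Geometric.SLNine.Model
import Cfsg.Agent.Lib.Geometric.SLNine.Big
import Cfsg.Agent.Lib.Geometric.SLThree.Ratio

/-!
The ambient data of the special linear groups: a subgroup of `GL₃` containing the standard
generators of the normaliser of the Pauli group either normalises it or contains `SL₃`.
-/

set_option autoImplicit false
set_option linter.style.haveILetI false
set_option linter.unusedSectionVars false

namespace CfsgLib.Geometric.SLNine

open Cfsg.Geo Matrix CfsgLib.Geometric.SLThree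

variable {F : Type*} [Field F] {ω : F}

namespace AmbSLAux

/-- The cube root of unity and the small characteristic conditions as a frame of `SLThree`. -/
def om (hω : IsPrimitiveRoot ω 3) (h2 : (2 : F) ≠ 0) : SLThree.Omega F :=
  ⟨ω, root_sum hω, three_ne_zero_of_root hω, h2⟩

variable (hω : IsPrimitiveRoot ω 3) (h2 : (2 : F) ≠ 0)

/-- The Fourier matrix, indexed by `Fin 3`. -/
def fG : GL (Fin 3) F := fourierGL hω

/-- The quadratic diagonal matrix, indexed by `Fin 3`. -/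
def qG : GL (Fin 3) F := quadGL hω

lemma D_eq : (om hω h2).D = P3gl hω.pow_eq_one ((0, 1) : V3) := by
  refine Units.ext (Matrix.ext fun (i : ZMod 3) (j : ZMod 3) => ?_)
  show (om hω h2).Dmat i j = P3 ω (0, 1) i j
  rw [P3_apply]
  rcases zmod_cases i with rfl | rfl | rfl <;> rcases zmod_cases j with rfl | rfl | rfl <;>
    simp (decide := true) only [one_mul, if_true, if_false, ph_zero, ph_one, ph_two] <;> rfl

lemma P_eq : (om hω h2).P = P3gl hω.pow_eq_one ((1, 0) : V3) := by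
  refine Units.ext (Matrix.ext fun (i : ZMod 3) (j : ZMod 3) => ?_)
  show (om hω h2).Pmat i j = P3 ω (1, 0) i j
  rw [P3_apply]
  rcases zmod_cases i with rfl | rfl | rfl <;> rcases zmod_cases j with rfl | rfl | rfl <;>
    simp (decide := true) only [zero_mul, if_true, if_false, ph_zero] <;> rfl

lemma W0_eq : (om hω h2).W0 = fG hω := by
  have hd : (om hω h2).δ = (ω - ω ^ 2)⁻¹ := by
    refine eq_inv_of_mul_eq_one_left ?_
    show (ω ^ 2 - ω) / 3 * (ω - ω ^ 2) = 1
    have h3 := three_ne_zero_of_root hω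
    field_simp
    linear_combination -(sub_sq_sq hω)
  refine Units.ext (Matrix.ext fun (i : ZMod 3) (j : ZMod 3) => ?_)
  show (om hω h2).W0mat i j = fourier ω i j
  rw [fourier_apply, SLThree.Omega.W0mat, hd]
  show (ω - ω ^ 2)⁻¹ * _ = _
  congr 1
  rcases zmod_cases i with rfl | rfl | rfl <;> rcases zmod_cases j with rfl | rfl | rfl <;>
    simp (decide := true) only [one_mul, mul_one, zero_mul, mul_zero, ph_zero, ph_one, ph_two,
      show (2 : ZMod 3) * 2 = 1 from rfl] <;> rfl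

lemma quad_E : qG hω * (om hω h2).E = (om hω h2).Z := by
  have h3 := hω.pow_eq_one
  have hq : (qG hω : Matrix (Fin 3) (Fin 3) F) = Matrix.diagonal ![1, ω, ω] := by
    refine Matrix.ext fun (i : ZMod 3) (j : ZMod 3) => ?_
    show quadDiag ω i j = _
    rcases zmod_cases i with rfl | rfl | rfl <;> rcases zmod_cases j with rfl | rfl | rfl <;>
      simp (decide := true) only [quadDiag, Matrix.diagonal_apply, one_mul, mul_zero, if_true, if_false,
        ph_zero, ph_one, show (2 : ZMod 3) * 2 = 1 from rfl] <;> rfl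
  refine Units.ext ?_
  rw [Units.val_mul, SLThree.Omega.Z_val, SLThree.Omega.E_val, hq]
  ext i j
  fin_cases i <;> fin_cases j <;>
    simp [SLThree.Omega.Emat, SLThree.Omega.Zmat, Matrix.mul_apply, Matrix.diagonal, om]

lemma E_conj (x : GL (Fin 3) F) :
    (om hω h2).E * x * ((om hω h2).E)⁻¹ = (qG hω)⁻¹ * x * qG hω := by
  have h : (om hω h2).E = (qG hω)⁻¹ * (om hω h2).Z := by
    rw [eq_inv_mul_iff_mul_eq]
    exact quad_E hω h2
  rw [h, _root_.mul_inv_rev, inv_inv]
  calc (qG hω)⁻¹ * (om hω h2).Z * x * (((om hω h2).Z)⁻¹ * qG hω)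
      = (qG hω)⁻¹ * ((om hω h2).Z * x) * ((om hω h2).Z)⁻¹ * qG hω := by group
    _ = (qG hω)⁻¹ * x * qG hω := by rw [← SLThree.Omega.Z_comm]; group

lemma W1_mem {H : Subgroup (GL (Fin 3) F)} (hf : fG hω ∈ H) (hq : qG hω ∈ H) :
    (om hω h2).W1 ∈ H := by
  have h := eq_mul_inv_of_mul_eq ((om hω h2).E_W0).symm
  rw [E_conj, W0_eq] at h
  rw [h]
  exact H.mul_mem (H.mul_mem (H.inv_mem hq) hf) hq

lemma W2_mem {H : Subgroup (GL (Fin 3) F)} (hf : fG hω ∈ H) (hq : qG hω ∈ H) :
    (om hω h2).W2 ∈ H := by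
  have h := eq_mul_inv_of_mul_eq ((om hω h2).E_W1).symm
  rw [E_conj] at h
  rw [h]
  exact H.mul_mem (H.mul_mem (H.inv_mem hq) (W1_mem hω h2 hf hq)) hq

/-- The group of the frame consists of multiples of Pauli matrices. -/
lemma exists_smul_of_mem_R {g : GL (ZMod 3) F} (hg : g ∈ (om hω h2).R) :
    ∃ (c : F) (v : V3), (g : Matrix (ZMod 3) (ZMod 3) F) = c • P3 ω v := by
  suffices (om hω h2).R ≤
      ({ carrier := {g : GL (ZMod 3) F |
            ∃ (a : ZMod 3) (v : V3), (g : Matrix (ZMod 3) (ZMod 3) F) = ph ω a • P3 ω v}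
         one_mem' := ⟨0, 0, by simp⟩
         mul_mem' := by
           rintro x y ⟨a, v, hx⟩ ⟨b, w, hy⟩
           refine ⟨a + b + v.2 * w.1, v + w, ?_⟩
           rw [Units.val_mul, hx, hy, smul_mul_assoc, mul_smul_comm, P3_mul hω.pow_eq_one, smul_smul,
             smul_smul, ← ph_add hω.pow_eq_one, ← ph_add hω.pow_eq_one]
         inv_mem' := by
           rintro x ⟨a, v, hx⟩
           refine ⟨-a + v.2 * v.1, -v, ?_⟩
           have : (x : Matrix (ZMod 3) (ZMod 3) F) * (ph ω (-a + v.2 * v.1) • P3 ω (-v)) = 1 := by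
             rw [hx, smul_mul_assoc, mul_smul_comm, P3_mul_neg hω.pow_eq_one, smul_smul, smul_smul,
               ← ph_add hω.pow_eq_one, ← ph_add hω.pow_eq_one,
               show a + (-a + v.2 * v.1) + -(v.2 * v.1) = 0 by ring, ph_zero, one_smul]
           exact Units.inv_eq_of_mul_eq_one_right this } : Subgroup (GL (ZMod 3) F)) by
    obtain ⟨a, v, h⟩ := this hg
    exact ⟨_, v, h⟩
  refine SLThree.Omega.le_of_gens _ ⟨0, (0, 1), ?_⟩ ⟨0, (1, 0), ?_⟩
  · rw [D_eq, ph_zero, one_smul]; rfl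
  · rw [P_eq, ph_zero, one_smul]; rfl

/-- The action on the indices of the Fourier matrix. -/
def J (x : V3) : V3 := (-x.2, x.1)

/-- The linear map with matrix `a, b, c, d`. -/
def lin2 (a b c d : ZMod 3) (x : V3) : V3 := (a * x.1 + b * x.2, c * x.1 + d * x.2)

/-- The commutator with `J` of a map of order three. -/
def comJ (M : V3 → V3) (x : V3) : V3 := M (J (M (M (J (J (J x))))))

lemma two_by_two : ∀ a b c d : ZMod 3,
    lin2 a b c d (lin2 a b c d (lin2 a b c d (1, 0))) = (1, 0) →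
    lin2 a b c d (lin2 a b c d (lin2 a b c d (0, 1))) = (0, 1) →
    comJ (lin2 a b c d) (comJ (lin2 a b c d) (comJ (lin2 a b c d) (1, 0))) = (1, 0) →
    comJ (lin2 a b c d) (comJ (lin2 a b c d) (comJ (lin2 a b c d) (0, 1))) = (0, 1) →
      a = 1 ∧ b = 0 ∧ c = 0 ∧ d = 1 := by
  decide

lemma additive_eq (M : V3 → V3) (hM : ∀ x y, M (x + y) = M x + M y) (x : V3) :
    M x = ((M (1, 0)).1 * x.1 + (M (0, 1)).1 * x.2, (M (1, 0)).2 * x.1 + (M (0, 1)).2 * x.2) := by
  let f : V3 →+ V3 := AddMonoidHom.mk' M hM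
  have hx : x = x.1.val • ((1, 0) : V3) + x.2.val • ((0, 1) : V3) := by
    ext <;> simp
  conv_lhs => rw [hx]
  change f _ = _
  rw [map_add, map_nsmul, map_nsmul]
  ext <;> simp [f, mul_comm]

/-- An element of order three of the normaliser whose commutator with the Fourier matrix has order
three permutes no line. -/
theorem act_eq_id (hω : IsPrimitiveRoot ω 3) {y z : GL (ZMod 3) F} (hy : y ∈ N3 ω) (hz : z ∈ N3 ω) (hy3 : y ^ 3 = 1)
    (hz3 : z ^ 3 = 1) (hzy : z * fourierGL hω * y = y * fourierGL hω) (v : V3) :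
    act (P3 ω) y v = v := by
  have hP := P3_li hω
  have hone : ∀ u, act (P3 ω) (1 : GL (ZMod 3) F) u = u := fun u =>
    act_eq hP (one_mem _) (c := 1) (by simp)
  have hcube : ∀ {x : GL (ZMod 3) F}, x ∈ N3 ω → x ^ 3 = 1 → ∀ u,
      act (P3 ω) x (act (P3 ω) x (act (P3 ω) x u)) = u := by
    intro x hx hx3 u
    rw [← act_mul hP hx hx u, ← act_mul hP hx (mul_mem hx hx) u, ← pow_three, hx3, hone]
  have hJ : ∀ u, act (P3 ω) (fourierGL hω) u = J u := fun u =>
    act_eq hP (fourierGL_mem_N3 hω) (fourier_conj hω u)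
  set M := act (P3 ω) y with hMdef
  have hadd : ∀ u w, M (u + w) = M u + M w := by
    intro u w
    have h3 := hω.pow_eq_one
    obtain ⟨c, hc⟩ := act_spec hy u
    obtain ⟨d, hd⟩ := act_spec hy w
    refine act_eq hP hy
      (c := (ph ω (u.2 * w.1))⁻¹ * (c * d * ph ω ((M u).2 * (M w).1))) ?_
    rw [← smul_smul, eq_inv_smul_iff₀ (ph_ne_zero h3 _), ← mul_smul_comm, ← P3_mul h3, ← mul_assoc, hc,
      smul_mul_assoc, mul_assoc, hd, mul_smul_comm, ← mul_assoc, P3_mul h3, smul_mul_assoc, smul_smul,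
      smul_smul]
  set Z := act (P3 ω) z
  have hrel : ∀ u, Z (J (M u)) = M (J u) := by
    intro u
    have h := congrArg (fun g => act (P3 ω) g u) hzy
    simp only [act_mul hP (mul_mem hz (fourierGL_mem_N3 hω)) hy, act_mul hP hz (fourierGL_mem_N3 hω),
      act_mul hP hy (fourierGL_mem_N3 hω), hJ] at h
    exact h
  have hJ4 : ∀ x, J (J (J (J x))) = x := by decide
  have hM3 : ∀ u, M (M (M u)) = u := hcube hy hy3
  have hZ3 : ∀ u, Z (Z (Z u)) = u := hcube hz hz3
  have hZ : ∀ x, Z x = comJ M x := by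
    intro x
    have h := hrel (M (M (J (J (J x)))))
    rwa [hM3, hJ4] at h
  have hMx := additive_eq M hadd
  have hM : M = lin2 (M (1, 0)).1 (M (0, 1)).1 (M (1, 0)).2 (M (0, 1)).2 := funext hMx
  have e := two_by_two (M (1, 0)).1 (M (0, 1)).1 (M (1, 0)).2 (M (0, 1)).2
  rw [← hM] at e
  obtain ⟨ha, hb, hc', hd'⟩ := e (hM3 _) (hM3 _)
    (by rw [← hZ, ← hZ, ← hZ]; exact hZ3 _) (by rw [← hZ, ← hZ, ← hZ]; exact hZ3 _)
  rw [hMx v, ha, hb, hc', hd']
  simp

/-- An element of the normaliser permuting no line is a multiple of a Pauli matrix. -/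
theorem eq_smul_of_act (hω : IsPrimitiveRoot ω 3) {y : GL (ZMod 3) F} (hy : y ∈ N3 ω) (h : ∀ v, act (P3 ω) y v = v) :
    ∃ (c : F) (u : V3), (y : Matrix (ZMod 3) (ZMod 3) F) = c • P3 ω u := by
  have h3 := hω.pow_eq_one
  have key : ∀ v : V3, ∃ a : ZMod 3, (y : Matrix (ZMod 3) (ZMod 3) F) * P3 ω v =
      ph ω a • (P3 ω v * (y : Matrix (ZMod 3) (ZMod 3) F)) := by
    intro v
    obtain ⟨c, hc⟩ := act_spec hy v
    rw [h] at hc
    suffices c ^ 3 = 1 by obtain ⟨a, rfl⟩ := exists_ph_eq hω this; exact ⟨a, hc⟩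
    have e : (y : Matrix (ZMod 3) (ZMod 3) F) * (P3 ω v * P3 ω v * P3 ω v) =
        c ^ 3 • (P3 ω v * P3 ω v * P3 ω v * (y : Matrix (ZMod 3) (ZMod 3) F)) := by
      rw [← mul_assoc, ← mul_assoc, hc, smul_mul_assoc, mul_assoc (P3 ω v), hc, mul_smul_comm,
        smul_mul_assoc, smul_mul_assoc, mul_assoc (P3 ω v), mul_assoc (P3 ω v), hc, mul_smul_comm,
        mul_smul_comm, smul_smul, smul_smul, mul_assoc (P3 ω v * P3 ω v), mul_assoc (P3 ω v)]
      congr 1
      ring
    rw [P3_cube h3, mul_one, one_mul] at e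
    by_contra hne
    have h0 : (1 - c ^ 3) • (y : Matrix (ZMod 3) (ZMod 3) F) = 0 := by
      rw [sub_smul, one_smul, ← e, sub_self]
    exact Units.ne_zero y ((smul_eq_zero.1 h0).resolve_left (sub_ne_zero.2 (Ne.symm hne)))
  obtain ⟨a, ha⟩ := key (1, 0)
  obtain ⟨b, hb⟩ := key (0, 1)
  -- removing a Pauli matrix leaves a matrix commuting with both generators
  set u : V3 := (-b, a)
  set A : Matrix (ZMod 3) (ZMod 3) F := P3 ω (-u) * (y : Matrix (ZMod 3) (ZMod 3) F) with hA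
  have hcomm : ∀ v : V3, ∀ t : ZMod 3, (y : Matrix (ZMod 3) (ZMod 3) F) * P3 ω v =
      ph ω t • (P3 ω v * (y : Matrix (ZMod 3) (ZMod 3) F)) → B3 (-u) v + t = 0 →
      A * P3 ω v = P3 ω v * A := by
    intro v t ht hz
    rw [hA, mul_assoc, ht, mul_smul_comm, ← mul_assoc, P3_comm h3, smul_mul_assoc, smul_smul,
      ← ph_add h3, add_comm, hz, ph_zero, one_smul, mul_assoc]
  have c1 := hcomm _ a ha (by simp [B3, u])
  have c2 := hcomm _ b hb (by simp [B3, u])
  have hdiag : ∀ i j, i ≠ j → A i j = 0 := by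
    intro i j hij
    have e := congrFun (congrFun c2 i) j
    rw [Matrix.mul_apply, Matrix.mul_apply, Finset.sum_eq_single j
      (fun x _ hx => by simp [P3_apply, hx]) (by simp),
      Finset.sum_eq_single i (fun x _ hx => by simp [P3_apply, Ne.symm hx]) (by simp)] at e
    simp only [P3_apply, add_zero, if_true, one_mul] at e
    by_contra hne
    exact hij (ph_inj hω (mul_left_cancel₀ hne (e.trans (mul_comm _ _)))).symm
  have hconst : ∀ j, A (j + 1) (j + 1) = A j j := by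
    intro j
    have e := congrFun (congrFun c1 (j + 1)) j
    rw [Matrix.mul_apply, Matrix.mul_apply, Finset.sum_eq_single (j + 1)
      (fun x _ hx => by simp [P3_apply, hx]) (by simp),
      Finset.sum_eq_single j (fun x _ hx => by simp [P3_apply, Ne.symm hx]) (by simp)] at e
    simpa [P3_apply] using e
  have hAs : A = A 0 0 • (1 : Matrix (ZMod 3) (ZMod 3) F) := by
    have h11 : A 1 1 = A 0 0 := hconst 0
    have h22 : A 2 2 = A 0 0 := (hconst 1).trans h11
    ext i j
    by_cases hij : i = j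
    · subst hij
      rcases zmod_cases i with rfl | rfl | rfl <;> simp [h11, h22]
    · simp [hdiag i j hij, hij]
  refine ⟨ph ω (u.2 * u.1) * A 0 0, u, ?_⟩
  have hinv := P3_mul_neg h3 u
  have e : P3 ω u * A = ph ω (-(u.2 * u.1)) • (y : Matrix (ZMod 3) (ZMod 3) F) := by
    rw [hA, ← mul_assoc, hinv, smul_mul_assoc, one_mul]
  rw [hAs, mul_smul_comm, mul_one] at e
  rw [← smul_smul, e, smul_smul, ph_mul_neg h3, one_smul]

end AmbSLAux

open AmbSLAux

/-- A subgroup of `GL₃` with the standard generators normalises the Pauli group or contains `SL₃`. -/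
theorem dich_top [Finite F] (hω : IsPrimitiveRoot ω 3) (h2 : (2 : F) ≠ 0) (h5 : (5 : F) ≠ 0)
    (std : ∀ (o : SLThree.Omega F) (H : Subgroup (GL (Fin 3) F)), SLThree.C6Hyp o H →
      H ≤ subgroupNormalizer o.R)
    (tvc : ∀ (o : SLThree.Omega F) (H : Subgroup (GL (Fin 3) F)), H ≤ specialLinear (Fin 3) F →
      o.D ∈ H → o.P ∈ H → o.W0 ∈ H → o.W1 ∈ H → o.W2 ∈ H → ¬ SLThree.NoTv H →
      specialLinear (Fin 3) F ≤ H)
    (H : Subgroup (GL (ZMod 3) F))
    (hP : ∀ g : GL (ZMod 3) F, (∃ v, (g : Matrix (ZMod 3) (ZMod 3) F) = P3 ω v) → g ∈ H)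
    (hf : ∀ g : GL (ZMod 3) F, (g : Matrix (ZMod 3) (ZMod 3) F) = fourier ω → g ∈ H)
    (hq : ∀ g : GL (ZMod 3) F, (g : Matrix (ZMod 3) (ZMod 3) F) = quadDiag ω → g ∈ H) :
    H ≤ N3 ω ∨ specialLinear (ZMod 3) F ≤ H := by
  have h3 := hω.pow_eq_one
  set o := om hω h2
  set H1 : Subgroup (GL (Fin 3) F) := (H ⊓ specialLinear (ZMod 3) F : Subgroup (GL (ZMod 3) F))
  have hPS : ∀ v : V3, P3gl h3 v ∈ H ⊓ specialLinear (ZMod 3) F := fun v =>
    ⟨hP _ ⟨v, rfl⟩, mem_specialLinear.mpr (det_P3 hω v)⟩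
  have hfS : fourierGL hω ∈ H ⊓ specialLinear (ZMod 3) F :=
    ⟨hf _ rfl, mem_specialLinear.mpr (det_fourier hω)⟩
  have hW1 : o.W1 ∈ H1 := ⟨W1_mem hω h2 (H := H) (hf _ rfl) (hq _ rfl), SLThree.Omega.mk1_mem _ _⟩
  have hW2 : o.W2 ∈ H1 := ⟨W2_mem hω h2 (H := H) (hf _ rfl) (hq _ rfl), SLThree.Omega.mk1_mem _ _⟩
  have hD : o.D ∈ H1 := by rw [AmbSLAux.D_eq]; exact hPS _
  have hP1 : o.P ∈ H1 := by rw [AmbSLAux.P_eq]; exact hPS _
  have h0 : o.W0 ∈ H1 := by rw [AmbSLAux.W0_eq]; exact hfS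
  have hle : H1 ≤ specialLinear (Fin 3) F := inf_le_right
  by_cases hnt : SLThree.NoTv H1
  · refine Or.inl fun g hg => (mem_N3_iff hω).mpr fun v => ?_
    have hN : H1 ≤ subgroupNormalizer o.R :=
      std o H1 ⟨hle, hnt, h5, hD, hP1, h0, hW1, hW2⟩
    have hN3 : ∀ x ∈ H ⊓ specialLinear (ZMod 3) F, x ∈ N3 ω := by
      intro x hx
      refine (mem_N3_iff hω).mpr fun u => ?_
      have hu : P3gl h3 u ∈ o.R := by
        have hu' : P3gl h3 u = P3gl h3 (u.1, 0) * P3gl h3 (0, u.2) :=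
          Units.ext (by simp [P3_mul h3])
        have hP0 : P3gl h3 ((1, 0) : V3) ∈ o.R := by rw [← AmbSLAux.P_eq hω h2]; exact o.P_mem
        have hD0 : P3gl h3 ((0, 1) : V3) ∈ o.R := by rw [← AmbSLAux.D_eq hω h2]; exact o.D_mem
        have h00 : P3gl h3 ((0, 0) : V3) = 1 := Units.ext (by simp; exact P3_zero)
        have hp : ∀ t : ZMod 3, P3gl h3 (t, (0 : ZMod 3)) ∈ o.R := by
          intro t
          rcases zmod_cases t with rfl | rfl | rfl
          · rw [h00]; exact o.R.one_mem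
          · exact hP0
          · rw [show P3gl h3 ((2, 0) : V3) = P3gl h3 (1, 0) * P3gl h3 (1, 0) from
              Units.ext (by simp [P3_mul h3, show (1 : ZMod 3) + 1 = 2 from rfl])]
            exact o.R.mul_mem hP0 hP0
        have hd : ∀ t : ZMod 3, P3gl h3 ((0 : ZMod 3), t) ∈ o.R := by
          intro t
          rcases zmod_cases t with rfl | rfl | rfl
          · rw [h00]; exact o.R.one_mem
          · exact hD0
          · rw [show P3gl h3 ((0, 2) : V3) = P3gl h3 (0, 1) * P3gl h3 (0, 1) from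
              Units.ext (by simp [P3_mul h3, show (1 : ZMod 3) + 1 = 2 from rfl])]
            exact o.R.mul_mem hD0 hD0
        rw [hu']
        exact o.R.mul_mem (hp _) (hd _)
      have hmem : (x * P3gl h3 u * x⁻¹ : GL (ZMod 3) F) ∈ o.R :=
        (Subgroup.mem_normalizer_iff.1 (hN hx) _).1 hu
      obtain ⟨c, w, hw⟩ := exists_smul_of_mem_R hω h2 hmem
      refine ⟨w, c, ?_⟩
      have := congrArg (fun A => A * (x : Matrix (ZMod 3) (ZMod 3) F)) hw
      simpa [Units.val_mul, mul_assoc] using this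
    set P := P3gl h3 v
    have hn : ∀ {x : GL (ZMod 3) F}, x ∈ H ⊓ specialLinear (ZMod 3) F →
        g * x * g⁻¹ ∈ H ⊓ specialLinear (ZMod 3) F := fun {x} hx =>
      ⟨H.mul_mem (H.mul_mem hg hx.1) (H.inv_mem hg),
        (inferInstance : (Matrix.GeneralLinearGroup.det (n := ZMod 3) (R := F)).ker.Normal).conj_mem x hx.2 g⟩
    have hn' : ∀ {x : GL (ZMod 3) F}, x ∈ H ⊓ specialLinear (ZMod 3) F →
        g⁻¹ * x * g ∈ H ⊓ specialLinear (ZMod 3) F := fun {x} hx => by
      refine ⟨H.mul_mem (H.mul_mem (H.inv_mem hg) hx.1) hg, ?_⟩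
      have := (inferInstance : (Matrix.GeneralLinearGroup.det (n := ZMod 3) (R := F)).ker.Normal).conj_mem x hx.2 g⁻¹
      rwa [inv_inv] at this
    set y := g * P * g⁻¹ with hy
    set h := g⁻¹ * fourierGL hω * g with hh
    have hPc : P ^ 3 = 1 := Units.ext (by
      rw [Units.val_pow_eq_pow_val, pow_three, ← mul_assoc, Units.val_one]
      exact P3_cube h3 v)
    have hy3 : y ^ 3 = 1 := by rw [hy, conj_pow, hPc, mul_one, mul_inv_cancel]
    set z := g * (P * (h * P⁻¹ * h⁻¹)) * g⁻¹ with hz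
    have hzy : z * fourierGL hω * y = y * fourierGL hω := by rw [hz, hy, hh]; group
    have hz3 : z ^ 3 = 1 := by
      obtain ⟨w, c, hw⟩ := (hN3 _ (hn' hfS)).1 (-v)
      have hq3 : (P * (h * P⁻¹ * h⁻¹)) ^ 3 = 1 := by
        apply Units.ext
        have hPi : ((P⁻¹ : GL (ZMod 3) F) : Matrix (ZMod 3) (ZMod 3) F) =
            ph ω (v.2 * v.1) • P3 ω (-v) := Units.inv_eq_of_mul_eq_one_right (by
          rw [coe_P3gl, mul_smul_comm, P3_mul_neg h3, smul_smul, ph_mul_neg h3, one_smul])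
        set d := ph ω (v.2 * v.1) * c with hd'
        have hc3 : d ^ 3 = 1 := by
          have e : ((h * P⁻¹ * h⁻¹ : GL (ZMod 3) F) : Matrix (ZMod 3) (ZMod 3) F) = d • P3 ω w := by
            rw [Units.val_mul, Units.val_mul, hPi, mul_smul_comm, hw, smul_smul, smul_mul_assoc,
              mul_assoc, Units.mul_inv, mul_one]
          have e3 : (h * P⁻¹ * h⁻¹) ^ 3 = 1 := by
            rw [conj_pow, inv_pow, hPc, inv_one, mul_one, mul_inv_cancel]
          have := congrArg Units.val e3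
          rw [Units.val_pow_eq_pow_val, e, smul_pow, pow_three (P3 ω w), ← mul_assoc, P3_cube h3,
            Units.val_one] at this
          have h1 := congrFun (congrFun this 0) 0
          simpa using h1
        rw [Units.val_pow_eq_pow_val, Units.val_mul, Units.val_mul, Units.val_mul, coe_P3gl, hPi,
          mul_smul_comm, hw, smul_smul, ← hd', smul_mul_assoc, mul_assoc (P3 ω w), Units.mul_inv,
          mul_one, mul_smul_comm, P3_mul h3, smul_smul, smul_pow, mul_pow, hc3, ph_pow_three h3,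
          mul_one, one_smul, pow_three, ← mul_assoc, P3_cube h3, Units.val_one]
      rw [hz, conj_pow, hq3, mul_one, mul_inv_cancel]
    have hyH := hn (hPS v)
    have hzH : z ∈ H ⊓ specialLinear (ZMod 3) F := hn (Subgroup.mul_mem _ (hPS v)
      (Subgroup.mul_mem _ (Subgroup.mul_mem _ (hn' hfS) (Subgroup.inv_mem _ (hPS v)))
        (Subgroup.inv_mem _ (hn' hfS))))
    obtain ⟨c, w, hw⟩ := eq_smul_of_act hω (hN3 _ hyH)
      (act_eq_id hω (hN3 _ hyH) (hN3 _ hzH) hy3 hz3 hzy)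
    refine ⟨w, c, ?_⟩
    have := congrArg (fun A => A * (g : Matrix (ZMod 3) (ZMod 3) F)) hw
    simpa [hy, P, Units.val_mul, mul_assoc] using this
  · exact Or.inr fun x hx =>
      (tvc o H1 hle hD hP1 h0 hW1 hW2 hnt hx).1

/-- The ambient data of the special linear groups. -/
def ambSL [Finite F] (hω : IsPrimitiveRoot ω 3) (h2 : (2 : F) ≠ 0) (h5 : (5 : F) ≠ 0)
    (std : ∀ (o : SLThree.Omega F) (H : Subgroup (GL (Fin 3) F)), SLThree.C6Hyp o H →
      H ≤ subgroupNormalizer o.R)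
    (tvc : ∀ (o : SLThree.Omega F) (H : Subgroup (GL (Fin 3) F)), H ≤ specialLinear (Fin 3) F →
      o.D ∈ H → o.P ∈ H → o.W0 ∈ H → o.W1 ∈ H → o.W2 ∈ H → ¬ SLThree.NoTv H →
      specialLinear (Fin 3) F ≤ H) : Amb ω where
  U3 := ⊤
  U9 := ⊤
  P3_mem _ _ _ := trivial
  fourier_mem _ _ := trivial
  quad_mem _ _ := trivial
  kron_mem _ _ _ _ := trivial
  pm_mem _ := trivial
  bd_mem _ _ := trivial
  blk_mem _ _ _ := trivial
  minus_mem _ _ _ _ _ := trivial
  dich H _ hP hf hq := by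
    rw [top_inf_eq]
    exact dich_top hω h2 h5 std tvc H hP hf hq
  normal_le K _ hK hns := top_normal_le K hK hns
  torus := ⟨ω, hω.ne_zero (by norm_num), fun h => hω.pow_ne_one_of_pos_of_lt (l := 2) (by norm_num)
    (by norm_num) (by rw [pow_two]; exact h), fun _ _ => trivial⟩
  gen M hN hbd := top_gen hω M hN hbd

end CfsgLib.Geometric.SLNine
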