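import Cfsg.Agent.Lib.Geometric.SLNine.Model

/-!
Elements of a proper overgroup of the Pauli normaliser in dimension nine which commute with the
diagonal Pauli matrix of the first factor are block diagonal with blocks in the normaliser in
dimension three.
-/

set_option autoImplicit false

namespace CfsgLib.Geometric.SLNine

open scoped Kronecker

namespace Blk

variable {F : Type*} [Field F] {ω : F}

lemma P3_shift (a : ZMod 3) (i j : ZMod 3) : P3 ω (a, 0) i j = if i = j + a then 1 else 0 := by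
  simp [P3_apply]

lemma P3_diag (b : ZMod 3) : P3 ω (0, b) = Matrix.diagonal (fun j => ph ω (b * j)) := by
  ext i j
  by_cases h : i = j <;> simp [P3_apply, h]

lemma T9_diag : T9 ω (((0 : ZMod 3), (1 : ZMod 3)), (0 : V3)) =
    Matrix.diagonal (fun p : J9 => ph ω p.1) := by
  rw [T9, P3_diag, P3_zero, ← Matrix.diagonal_one, Matrix.diagonal_kronecker_diagonal]
  simp

lemma bd_injective : Function.Injective (bd (F := F)) := by
  intro a b h
  funext i
  ext k l
  simpa [bd_apply] using congrFun (congrFun h (i, k)) (i, l)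

lemma one_kron (b : Matrix (ZMod 3) (ZMod 3) F) :
    (1 : Matrix (ZMod 3) (ZMod 3) F) ⊗ₖ b = bd fun _ => b := by
  ext p q
  by_cases h : p.1 = q.1 <;> simp [bd_apply, h, Matrix.one_apply]

/-- The cyclic shift of the blocks is conjugation by the shift of the first factor. -/
lemma shift_bd (a : ZMod 3 → Matrix (ZMod 3) (ZMod 3) F) :
    T9 ω (((1 : ZMod 3), (0 : ZMod 3)), (0 : V3)) * bd a =
      bd (fun i => a (i - 1)) * T9 ω (((1 : ZMod 3), (0 : ZMod 3)), (0 : V3)) := by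
  have hT : ∀ p q : J9, T9 ω (((1 : ZMod 3), (0 : ZMod 3)), (0 : V3)) p q =
      if p = (q.1 + 1, q.2) then 1 else 0 := by
    intro p q
    rw [T9, P3_zero, Matrix.kronecker_apply, P3_shift, Matrix.one_apply]
    by_cases h : p.1 = q.1 + 1 <;> by_cases h' : p.2 = q.2 <;> simp [h, h', Prod.ext_iff]
  ext p q
  rw [Matrix.mul_apply, Matrix.mul_apply, Finset.sum_eq_single (p.1 - 1, p.2),
    Finset.sum_eq_single (q.1 + 1, q.2)]
  · rw [hT, hT, if_pos (by simp), if_pos rfl, one_mul, mul_one, bd_apply, bd_apply]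
    by_cases h : p.1 = q.1 + 1
    · simp [h]
    · rw [if_neg (by simp only; intro h'; exact h (by rw [← h']; ring)), if_neg (by simpa using h)]
  · intro x _ hx
    rw [hT, if_neg (by simpa using hx), mul_zero]
  · simp
  · intro x _ hx
    rw [hT, if_neg (fun h => hx (by rw [h]; simp)), zero_mul]
  · simp

lemma exists_bdHom (hω : IsPrimitiveRoot ω 3) {g : GL J9 F}
    (hc : Commute (g : Matrix J9 J9 F) (T9 ω (((0 : ZMod 3), (1 : ZMod 3)), (0 : V3)))) :
    ∃ a : ZMod 3 → GL (ZMod 3) F, g = bdHom a := by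
  rw [T9_diag] at hc
  have hshape : ∀ u : Matrix J9 J9 F, Commute u (Matrix.diagonal fun p : J9 => ph ω p.1) →
      u = bd fun i => Matrix.of fun k l => u (i, k) (i, l) := by
    intro u hu
    ext ⟨i, k⟩ ⟨j, l⟩
    by_cases h : i = j
    · subst h; simp [bd_apply]
    · have h1 := congrFun (congrFun hu.eq (i, k)) (j, l)
      rw [Matrix.mul_diagonal, Matrix.diagonal_mul] at h1
      have h2 : u (i, k) (j, l) * (ph ω j - ph ω i) = 0 := by linear_combination h1
      rcases mul_eq_zero.mp h2 with h3 | h3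
      · simpa [bd_apply, h] using h3
      · exact absurd (ph_inj hω (sub_eq_zero.mp h3)).symm h
  have hi : Commute ((g⁻¹ : GL J9 F) : Matrix J9 J9 F) (Matrix.diagonal fun p : J9 => ph ω p.1) :=
    hc.units_inv_left
  have hg := hshape _ hc
  have hg' := hshape _ hi
  set a : ZMod 3 → Matrix (ZMod 3) (ZMod 3) F :=
    fun i => Matrix.of fun k l => (g : Matrix J9 J9 F) (i, k) (i, l)
  set b : ZMod 3 → Matrix (ZMod 3) (ZMod 3) F :=
    fun i => Matrix.of fun k l => ((g⁻¹ : GL J9 F) : Matrix J9 J9 F) (i, k) (i, l)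
  have hab : a * b = 1 := bd_injective (by rw [← bd_mul, ← hg, ← hg', Units.mul_inv, bd_one])
  have hba : b * a = 1 := bd_injective (by rw [← bd_mul, ← hg, ← hg', Units.inv_mul, bd_one])
  refine ⟨fun i => ⟨a i, b i, congrFun hab i, congrFun hba i⟩, Units.ext ?_⟩
  rw [coe_bdHom]
  exact hg

/-- A non-zero shift does not commute with the Fourier matrix, even up to a scalar. -/
lemma shift_mul_fourier_ne (hω : IsPrimitiveRoot ω 3) {a : ZMod 3} (ha : a ≠ 0) (c : F) :
    P3 ω (a, 0) * fourier ω ≠ c • (fourier ω * P3 ω (a, 0)) := by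
  intro h
  have hd : ω - ω ^ 2 ≠ 0 := by
    intro h0
    have : ω ^ 1 = ω ^ 2 := by rw [pow_one]; exact sub_eq_zero.mp h0
    exact absurd (hω.pow_inj (by norm_num) (by norm_num) this) (by norm_num)
  have hl : ∀ i j, (P3 ω (a, 0) * fourier ω) i j = (ω - ω ^ 2)⁻¹ * ph ω ((i - a) * j) := by
    intro i j
    rw [Matrix.mul_apply, Finset.sum_eq_single (i - a)]
    · simp [P3_shift, fourier]
    · intro x _ hx
      rw [P3_shift, if_neg (fun h' => hx (by rw [h']; ring)), zero_mul]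
    · simp
  have hr : ∀ i j, (fourier ω * P3 ω (a, 0)) i j = (ω - ω ^ 2)⁻¹ * ph ω (i * (j + a)) := by
    intro i j
    rw [Matrix.mul_apply, Finset.sum_eq_single (j + a)]
    · simp [P3_shift, fourier]
    · intro x _ hx
      rw [P3_shift, if_neg hx, mul_zero]
    · simp
  have h00 := congrFun (congrFun h 0) 0
  have h01 := congrFun (congrFun h 0) 1
  rw [Matrix.smul_apply, hl, hr, smul_eq_mul] at h00 h01
  simp only [zero_sub, mul_zero, mul_one, zero_mul, ph_zero] at h00 h01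
  have hc1 : c = 1 := mul_right_cancel₀ (inv_ne_zero hd) (by rw [← h00, one_mul])
  rw [hc1, one_mul] at h01
  have : ph ω (-a) = ph ω 0 := by
    rw [ph_zero]
    exact mul_left_cancel₀ (inv_ne_zero hd) (by rw [h01, mul_one])
  exact ha (neg_eq_zero.mp (ph_inj hω this))

lemma comm_shift_fourier_not_scalar (hω : IsPrimitiveRoot ω 3) {a : ZMod 3} (ha : a ≠ 0)
    {x f : GL (ZMod 3) F} (hx : (x : Matrix (ZMod 3) (ZMod 3) F) = P3 ω (a, 0))
    (hf : (f : Matrix (ZMod 3) (ZMod 3) F) = fourier ω) :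
    x * f * x⁻¹ * f⁻¹ ∉ Cfsg.Geo.scalars (ZMod 3) F := by
  intro hk
  obtain ⟨c, hc⟩ := (Cfsg.Geo.mem_scalars_iff _).mp hk
  apply shift_mul_fourier_ne hω ha (c : F)
  have h : (x * f * x⁻¹ * f⁻¹) * (f * x) = x * f := by group
  have h2 := congrArg (fun u : GL (ZMod 3) F => (u : Matrix (ZMod 3) (ZMod 3) F)) h
  simp only [Units.val_mul] at h2 hc
  rw [hc, Matrix.smul_mul, Matrix.one_mul, hx, hf] at h2
  exact h2.symm

variable {A : Amb ω} {M : Subgroup (GL J9 F)}

/-- The group-theoretic core: a proper overgroup has its block diagonal elements in the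
three-dimensional normaliser, given the constant blocks, the shift and the shear. -/
theorem mem_N3_of (hS : Setup A M) {hb : ZMod 3 → GL (ZMod 3) F}
    (hhb : ∀ i, (hb i : Matrix (ZMod 3) (ZMod 3) F) = P3 ω (i, 0)) (hh : bdHom hb ∈ M)
    (hshift : ∀ a : ZMod 3 → GL (ZMod 3) F, bdHom a ∈ M → bdHom (fun i => a (i - 1)) ∈ M)
    (hconst : ∀ b : GL (ZMod 3) F, ((∃ v, (b : Matrix (ZMod 3) (ZMod 3) F) = P3 ω v) ∨
      (b : Matrix (ZMod 3) (ZMod 3) F) = fourier ω ∨
      (b : Matrix (ZMod 3) (ZMod 3) F) = quadDiag ω) → bdHom (fun _ => b) ∈ M)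
    {a : ZMod 3 → GL (ZMod 3) F} (ha : bdHom a ∈ M) : ∀ i, a i ∈ N3 ω := by
  classical
  have hω3 : ω ^ 3 = 1 := hS.root.pow_eq_one
  set S3 := A.U3 ⊓ Cfsg.Geo.specialLinear (ZMod 3) F with hS3def
  set Y : Subgroup (ZMod 3 → GL (ZMod 3) F) := M.comap bdHom with hY
  let ev : ZMod 3 → ((ZMod 3 → GL (ZMod 3) F) →* GL (ZMod 3) F) :=
    fun i => Pi.evalMonoidHom (fun _ : ZMod 3 => GL (ZMod 3) F) i
  have hYU : ∀ y ∈ Y, ∀ i, y i ∈ A.U3 := fun y hy i => A.blk_mem y (hS.le hy).1 i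
  -- the block images
  have hH : ∀ i, (Y.map (ev i) ≤ N3 ω) ∨ S3 ≤ Y.map (ev i) := by
    intro i
    refine A.dich _ ?_ (fun g hg => ⟨fun _ => g, hconst g (Or.inl hg), rfl⟩)
      (fun g hg => ⟨fun _ => g, hconst g (Or.inr (Or.inl hg)), rfl⟩)
      (fun g hg => ⟨fun _ => g, hconst g (Or.inr (Or.inr hg)), rfl⟩)
    rintro _ ⟨y, hy, rfl⟩
    exact hYU y hy i
  by_contra hcon
  obtain ⟨i₀, hi₀⟩ : ∃ i, ¬ a i ∈ N3 ω := not_forall.mp hcon
  have h0 : S3 ≤ Y.map (ev i₀) := (hH i₀).resolve_left fun h => hi₀ (h ⟨a, ha, rfl⟩)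
  have hstep : ∀ i, Y.map (ev i) ≤ Y.map (ev (i + 1)) := by
    rintro i _ ⟨y, hy, rfl⟩
    exact ⟨fun j => y (j - 1), hshift y hy, by simp [ev]⟩
  have hall : ∀ i, S3 ≤ Y.map (ev i) := by
    intro i
    have h1 := h0.trans (hstep i₀)
    have h2 := h1.trans (hstep (i₀ + 1))
    rcases zmod_cases (i - i₀) with h | h | h
    · rwa [sub_eq_zero.mp h]
    · rwa [show i = i₀ + 1 by rw [← h]; ring]
    · rwa [show i = i₀ + 1 + 1 by rw [add_assoc, show (1 + 1 : ZMod 3) = 2 from rfl, ← h]; ring]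
  -- two special elements of `S3`
  obtain ⟨f, hf⟩ : ∃ f : GL (ZMod 3) F, (f : Matrix (ZMod 3) (ZMod 3) F) = fourier ω :=
    ⟨fourierGL hS.root, rfl⟩
  have hfY : (fun _ => f) ∈ Y := hconst f (Or.inr (Or.inl hf))
  have hfS : f ∈ S3 := ⟨A.fourier_mem f hf, Units.ext (by
    rw [Matrix.GeneralLinearGroup.val_det_apply, hf, det_fourier hS.root, Units.val_one])⟩
  have hxS : hb 1 ∈ S3 := ⟨A.P3_mem _ _ (hhb 1), Units.ext (by
    rw [Matrix.GeneralLinearGroup.val_det_apply, hhb 1, det_P3 hS.root, Units.val_one])⟩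
  have hb0 : hb 0 = 1 := Units.ext (by rw [hhb, Units.val_one]; exact P3_zero)
  have hrot : ∀ y ∈ Y, ∀ k, (fun i => y (i - k)) ∈ Y := by
    intro y hy k
    rcases zmod_cases k with rfl | rfl | rfl
    · simpa using hy
    · exact hshift y hy
    · have : (fun i => y (i - 2)) = fun i => (fun j => y (j - 1)) (i - 1) := by
        funext i
        simp only [sub_sub]
        rfl
      rw [this]
      exact hshift _ (hshift y hy)
  -- the kernels at the outer blocks fill the middle block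
  have hK : ∀ k, k ≠ (1 : ZMod 3) → ∀ s ∈ S3, ∃ y ∈ Y, y k = 1 ∧ y 1 = s := by
    intro k hk
    set K := (Y ⊓ (ev k).ker).map (ev 1) with hKdef
    have hle : S3 ≤ K := by
      refine A.normal_le K ?_ ?_ ?_
      · rintro _ ⟨y, hy, rfl⟩
        exact hYU y hy.1 1
      · rintro h hh' _ ⟨z, hz, rfl⟩
        obtain ⟨y, hy, rfl⟩ := hall 1 hh'
        refine ⟨y * z * y⁻¹, Subgroup.mem_inf.mpr ⟨Y.mul_mem (Y.mul_mem hy hz.1) (Y.inv_mem hy), ?_⟩, by simp [ev]⟩
        have hzk : z k = 1 := hz.2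
        show (y * z * y⁻¹) k = 1
        simp [hzk]
      · have hbk := hrot hb hh k
        refine ⟨hb (1 - k) * f * (hb (1 - k))⁻¹ * f⁻¹,
          Subgroup.mem_map.mpr ⟨_, Subgroup.mem_inf.mpr ⟨Y.mul_mem
            (Y.mul_mem (Y.mul_mem hbk hfY) (Y.inv_mem hbk)) (Y.inv_mem hfY), ?_⟩, rfl⟩, ?_⟩
        · simp [ev, hb0]
        · exact comm_shift_fourier_not_scalar hS.root (sub_ne_zero.mpr (Ne.symm hk)) (hhb _) hf
    intro s hs
    obtain ⟨y, hy, hys⟩ := hle hs
    exact ⟨y, hy.1, hy.2, hys⟩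
  -- single blocks
  set E := M.comap (bdHom.comp (MonoidHom.mulSingle (fun _ : ZMod 3 => GL (ZMod 3) F) 1)) with hE
  have hEle : S3 ≤ E := by
    refine A.normal_le E ?_ ?_ ?_
    · intro c hc
      simpa using hYU _ (show Pi.mulSingle (1 : ZMod 3) c ∈ Y from hc) 1
    · intro h hh' c hc
      obtain ⟨y, hy, rfl⟩ := hall 1 hh'
      have e : Pi.mulSingle (M := fun _ : ZMod 3 => GL (ZMod 3) F) (1 : ZMod 3) (y 1 * c * (y 1)⁻¹)
          = y * Pi.mulSingle 1 c * y⁻¹ := by
        funext i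
        by_cases hi : i = 1
        · subst hi; simp
        · simp [hi]
      show Pi.mulSingle (1 : ZMod 3) (y 1 * c * (y 1)⁻¹) ∈ Y
      rw [e]
      exact mul_mem (mul_mem hy hc) (inv_mem hy)
    · refine ⟨hb 1 * f * (hb 1)⁻¹ * f⁻¹, ?_, comm_shift_fourier_not_scalar hS.root one_ne_zero (hhb 1) hf⟩
      obtain ⟨y, hy, hy0, hy1⟩ := hK 0 (by decide) _ hxS
      obtain ⟨z, hz, hz2, hz1⟩ := hK 2 (by decide) _ hfS
      have e : Pi.mulSingle (M := fun _ : ZMod 3 => GL (ZMod 3) F) (1 : ZMod 3)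
          (hb 1 * f * (hb 1)⁻¹ * f⁻¹) = y * z * y⁻¹ * z⁻¹ := by
        funext i
        rcases zmod_cases i with rfl | rfl | rfl
        · simp [hy0, show (0 : ZMod 3) ≠ 1 by decide]
        · simp [hy1, hz1]
        · simp [hz2, show (2 : ZMod 3) ≠ 1 by decide]
      show Pi.mulSingle (1 : ZMod 3) (hb 1 * f * (hb 1)⁻¹ * f⁻¹) ∈ Y
      rw [e]
      exact mul_mem (mul_mem (mul_mem hy hz) (inv_mem hy)) (inv_mem hz)
  have hsingle : ∀ i, ∀ c ∈ S3, Pi.mulSingle (M := fun _ : ZMod 3 => GL (ZMod 3) F) i c ∈ Y := by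
    intro i c hc
    have h := hrot _ (show Pi.mulSingle (1 : ZMod 3) c ∈ Y from hEle hc) (i - 1)
    have e : (fun j => Pi.mulSingle (M := fun _ : ZMod 3 => GL (ZMod 3) F) (1 : ZMod 3) c (j - (i - 1)))
        = Pi.mulSingle i c := by
      funext j
      by_cases hj : j = i
      · subst hj; simp
      · rw [Pi.mulSingle_eq_of_ne hj, Pi.mulSingle_eq_of_ne]
        intro h'
        exact hj (by linear_combination h')
    rwa [e] at h
  refine hS.ne_top (A.gen M hS.norm_le fun b hb' => ?_)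
  have e : b = Pi.mulSingle 0 (b 0) * Pi.mulSingle 1 (b 1) * Pi.mulSingle 2 (b 2) := by
    funext i
    rcases zmod_cases i with rfl | rfl | rfl
    · simp [show (0 : ZMod 3) ≠ 1 by decide, show (0 : ZMod 3) ≠ 2 by decide]
    · simp [show (1 : ZMod 3) ≠ 0 by decide, show (1 : ZMod 3) ≠ 2 by decide]
    · simp [show (2 : ZMod 3) ≠ 1 by decide, show (2 : ZMod 3) ≠ 0 by decide]
  show b ∈ Y
  rw [e]
  exact mul_mem (mul_mem (hsingle 0 _ (hb' 0)) (hsingle 1 _ (hb' 1))) (hsingle 2 _ (hb' 2))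

end Blk

variable {F : Type*} [Field F] {ω : F}

/-- An element of `M` commuting with the diagonal Pauli matrix of the first factor is block diagonal,
with blocks in the normaliser in dimension three. -/
theorem blocks_mem_N3 {A : Amb ω} {M : Subgroup (GL J9 F)} (hS : Setup A M) {g : GL J9 F}
    (hg : g ∈ M) (hc : Commute (g : Matrix J9 J9 F) (T9 ω ((0, 1), (0, 0)))) :
    ∃ a : ZMod 3 → GL (ZMod 3) F, g = bdHom a ∧ ∀ i, a i ∈ N3 ω := by
  have h3 : ω ^ 3 = 1 := hS.root.pow_eq_one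
  obtain ⟨a, rfl⟩ := Blk.exists_bdHom hS.root hc
  refine ⟨a, rfl, Blk.mem_N3_of hS (hb := fun i => P3gl h3 (i * 1, i * 0)) (fun i => by simp)
    (hS.norm_le (hShear_mem A hS.root (1, 0))) (fun b hb => ?_) (fun b hb => ?_) hg⟩
  · have hT := hS.norm_le (T9gl_mem A hS.root ((1, 0), 0))
    have e : T9gl h3 ((1, 0), 0) * bdHom b * (T9gl h3 ((1, 0), 0))⁻¹ =
        bdHom fun i => b (i - 1) := by
      rw [mul_inv_eq_iff_eq_mul]
      refine Units.ext ?_
      rw [Units.val_mul, Units.val_mul, coe_bdHom, coe_bdHom, coe_T9gl]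
      exact Blk.shift_bd _
    rw [← e]
    exact M.mul_mem (M.mul_mem hT hb) (M.inv_mem hT)
  · have hk : kronHom (1, b) ∈ N9 ω ⊓ A.G9 := by
      rcases hb with ⟨v, hv⟩ | hv | hv
      · rw [show b = P3gl h3 v from Units.ext hv]
        have h := T9gl_mem A hS.root ((0 : V3), v)
        rwa [T9gl, show P3gl h3 (0 : V3) = 1 from Units.ext P3_zero] at h
      · rw [show b = fourierGL hS.root from Units.ext hv]
        exact kron_fourier_right_mem A hS.root
      · rw [show b = quadGL hS.root from Units.ext hv]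
        exact kron_quad_right_mem A hS.root
    have e : kronHom (1, b) = bdHom fun _ => b := by
      refine Units.ext ?_
      rw [coe_kronHom, coe_bdHom, Units.val_one]
      exact Blk.one_kron _
    rw [← e]
    exact hS.norm_le hk

end CfsgLib.Geometric.SLNine
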