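import Cfsg.Agent.Lib.Geometric.SLNine.Model
import Cfsg.Agent.Lib.Cores.PCore
import Cfsg.Agent.S0205
import Cfsg.Prelude.Def_CaseTheorems

/-!
If the odd core of a group between the Pauli normaliser and the classical group contains all Pauli
matrices up to scalars, then the group normalises the Pauli group.

The last non-scalar term `A` of the derived series of the odd core has scalar commutators and spans
all matrices, so the quotient of `A` by scalars is a three-group; a non-trivial fixed point of the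
Pauli group on it is a Pauli matrix, and by transitivity the elements of `A` are exactly the scalar
multiples of Pauli matrices.
-/

set_option autoImplicit false

namespace CfsgLib.Geometric.SLNine

namespace Clf

variable {F : Type*} [Field F] {ω : F}

lemma exists_B9_ne {v w : V9} (h : v ≠ w) : ∃ u, B9 u v ≠ B9 u w := by
  have e : ∀ d : V3, d ≠ 0 → ∃ x, B3 x d ≠ 0 := by decide
  by_cases h1 : v.1 = w.1
  · obtain ⟨x, hx⟩ := e (v.2 - w.2) (fun h' => h (Prod.ext h1 (sub_eq_zero.mp h')))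
    refine ⟨(0, x), fun he => hx ?_⟩
    simp only [B9, B3, Prod.fst_zero, Prod.snd_zero, Prod.fst_sub, Prod.snd_sub, zero_mul, sub_zero,
      zero_add] at he ⊢
    linear_combination he
  · obtain ⟨x, hx⟩ := e (v.1 - w.1) (fun h' => h1 (sub_eq_zero.mp h'))
    refine ⟨(x, 0), fun he => hx ?_⟩
    simp only [B9, B3, Prod.fst_zero, Prod.snd_zero, Prod.fst_sub, Prod.snd_sub, zero_mul, sub_zero,
      add_zero] at he ⊢
    linear_combination he

lemma li_coeff_zero {V ι : Type*} [Fintype V] [Fintype ι]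
    {P : V → Matrix ι ι F} (hP : LinearIndependent F P) (g : V → F) (h : ∑ x, g x • P x = 0) (x : V) : g x = 0 :=
  Fintype.linearIndependent_iff.mp hP g h x

variable (hω : IsPrimitiveRoot ω 3)
include hω

lemma exists_coeff (X : Matrix J9 J9 F) : ∃ g : V9 → F, ∑ x, g x • T9 ω x = X :=
  (Submodule.mem_span_range_iff_exists_fun F).mp (by rw [T9_span hω]; trivial)

lemma mul_sum_comm (g : V9 → F) (u : V9) :
    T9 ω u * (∑ x, g x • T9 ω x) = (∑ x, (g x * ph ω (B9 u x)) • T9 ω x) * T9 ω u := by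
  rw [Finset.mul_sum, Finset.sum_mul]
  refine Finset.sum_congr rfl fun x _ => ?_
  rw [mul_smul_comm, T9_comm hω.pow_eq_one, smul_smul, smul_mul_assoc]

lemma conj_sum (g : V9 → F) (u : V9) :
    T9 ω u * (∑ x, g x • T9 ω x) * ((T9gl hω.pow_eq_one u)⁻¹ : GL J9 F).1 =
      ∑ x, (g x * ph ω (B9 u x)) • T9 ω x := by
  rw [mul_sum_comm hω, mul_assoc, ← coe_T9gl hω.pow_eq_one u, Units.mul_inv, mul_one]

/-- A matrix that is an eigenvector of every Pauli conjugation is a multiple of a Pauli matrix. -/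
lemma exists_eq_smul_T9 (g : GL J9 F)
    (h : ∀ u, ∃ c : F, T9 ω u * (g : Matrix J9 J9 F) = c • ((g : Matrix J9 J9 F) * T9 ω u)) :
    ∃ (w : V9) (c : F), (g : Matrix J9 J9 F) = c • T9 ω w := by
  classical
  obtain ⟨a, ha⟩ := exists_coeff hω (g : Matrix J9 J9 F)
  have key : ∀ u, ∃ c : F, ∀ x, a x * ph ω (B9 u x) = c * a x := by
    intro u
    obtain ⟨c, hc⟩ := h u
    have h1 := conj_sum hω a u
    rw [ha, hc, Matrix.smul_mul, mul_assoc, ← coe_T9gl hω.pow_eq_one u, Units.mul_inv, mul_one,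
      ← ha, Finset.smul_sum] at h1
    have h2 : ∑ x : V9, (a x * ph ω (B9 u x) - c * a x) • T9 ω x = 0 := by
      simp only [sub_smul, Finset.sum_sub_distrib, ← h1, smul_smul, sub_self]
    have h3 := li_coeff_zero (P := T9 ω) (T9_li hω) (fun x => a x * ph ω (B9 u x) - c * a x) h2
    exact ⟨c, fun x => sub_eq_zero.mp (h3 x)⟩
  obtain ⟨w, hw⟩ : ∃ w, a w ≠ 0 := by
    by_contra hn
    simp only [not_exists, not_not] at hn
    exact g.ne_zero (by rw [← ha]; simp [hn])
  refine ⟨w, a w, ?_⟩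
  rw [← ha]
  refine Finset.sum_eq_single w (fun x _ hx => ?_) (by simp)
  by_contra hne
  have hax : a x ≠ 0 := fun h0 => hne (by rw [h0, zero_smul])
  obtain ⟨u, hu⟩ := exists_B9_ne hx
  obtain ⟨c, hc⟩ := key u
  refine hu (ph_inj hω (mul_left_cancel₀ hax ?_))
  have h1 : ph ω (B9 u w) = c := mul_left_cancel₀ hw (by rw [hc w, mul_comm])
  rw [hc x, h1, mul_comm]

/-- A space invariant under the Pauli conjugations contains the components of its members. -/
lemma T9_mem_of_component (W : Submodule F (Matrix J9 J9 F))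
    (hW : ∀ u, ∀ X ∈ W, T9 ω u * X * ((T9gl hω.pow_eq_one u)⁻¹ : GL J9 F).1 ∈ W)
    {g : V9 → F} (hg : ∑ x, g x • T9 ω x ∈ W) {v : V9} (hv : g v ≠ 0) : T9 ω v ∈ W := by
  classical
  suffices H : ∀ n, ∀ g : V9 → F, (Finset.univ.filter fun x => g x ≠ 0).card ≤ n →
      ∑ x, g x • T9 ω x ∈ W → g v ≠ 0 → T9 ω v ∈ W from H _ g le_rfl hg hv
  intro n
  induction n with
  | zero =>
    intro g hn _ hgv
    have : v ∈ Finset.univ.filter fun x => g x ≠ 0 := by simp [hgv]
    simp [Finset.card_eq_zero.mp (Nat.le_zero.mp hn)] at this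
  | succ n ih =>
    intro g hn hgW hgv
    by_cases hsingle : ∀ x, x ≠ v → g x = 0
    · rw [Finset.sum_eq_single v (fun x _ hx => by rw [hsingle x hx, zero_smul]) (by simp)] at hgW
      simpa [smul_smul, hgv] using W.smul_mem (g v)⁻¹ hgW
    · simp only [not_forall] at hsingle
      obtain ⟨w, hwv, hw⟩ := hsingle
      obtain ⟨u, hu⟩ := exists_B9_ne hwv
      set g' : V9 → F := fun x => g x * ph ω (B9 u x) - ph ω (B9 u w) * g x with hg'
      refine ih g' ?_ ?_ ?_
      · have hsub : (Finset.univ.filter fun x => g' x ≠ 0) ⊆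
            (Finset.univ.filter fun x => g x ≠ 0).erase w := by
          intro x hx
          simp only [Finset.mem_filter, Finset.mem_univ, true_and, Finset.mem_erase] at hx ⊢
          refine ⟨fun e => hx (by rw [hg', e]; ring), fun e => hx (by simp [hg', e])⟩
        have h1 := Finset.card_le_card hsub
        have h2 : ((Finset.univ.filter fun x => g x ≠ 0).erase w).card + 1 ≤ n + 1 := by
          rw [Finset.card_erase_add_one (by simp [hw])]; exact hn
        omega
      · have h1 := hW u _ hgW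
        rw [conj_sum hω] at h1
        have h2 := W.sub_mem h1 (W.smul_mem (ph ω (B9 u w)) hgW)
        simpa [hg', sub_smul, Finset.sum_sub_distrib, Finset.smul_sum, smul_smul] using h2
      · intro h0
        simp only [hg', sub_eq_zero, mul_comm (ph ω _) (g v)] at h0
        exact hu (ph_inj hω (mul_left_cancel₀ hgv h0)).symm

omit hω

lemma scalars_normal {ι : Type} [Fintype ι] [DecidableEq ι] : (Cfsg.Geo.scalars ι F).Normal := by
  refine ⟨fun n hn g => ?_⟩
  obtain ⟨c, hc⟩ := (Cfsg.Geo.mem_scalars_iff n).mp hn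
  have : g * n * g⁻¹ = n := by
    refine Units.ext ?_
    rw [Units.val_mul, Units.val_mul, hc, Matrix.mul_smul, mul_one, Matrix.smul_mul, Units.mul_inv]
  rwa [this]

end Clf

open scoped commutatorElement in
open Clf in
/-- If the odd core contains the Pauli group up to scalars, the group is in the normaliser. -/
theorem le_N9_of_core {F : Type*} [Field F] [Finite F] {ω : F} {A : Amb ω} {M : Subgroup (GL J9 F)}
    (hS : Setup A M)
    (hR : ∀ v, ∃ x : M, x ∈ Cfsg.oddCore M ∧
      ∃ c : F, ((x : GL J9 F) : Matrix J9 J9 F) = c • T9 ω v) : M ≤ N9 ω := by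
  classical
  have hω := hS.root
  have h3 : ω ^ 3 = 1 := hω.pow_eq_one
  set Z := Cfsg.Geo.scalars J9 F with hZ
  have hZc : ∀ z ∈ Z, ∃ c : F, c ≠ 0 ∧ (z : Matrix J9 J9 F) = c • (1 : Matrix J9 J9 F) := by
    intro z hz
    obtain ⟨c, hc⟩ := (Cfsg.Geo.mem_scalars_iff z).mp hz
    exact ⟨c, c.ne_zero, hc⟩
  have hT : ∀ u, T9gl h3 u ∈ M := fun u => hS.norm_le (T9gl_mem A hω u)
  set O : Subgroup M := Cfsg.oddCore M with hO
  have hOn : O.Normal := by
    have := CfsgLib.Cores.pPrimeCore_characteristic 2 M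
    rw [hO, Cfsg.oddCore]; infer_instance
  have hsol : Group.IsSolvable O :=
    Cfsg.Agent.S0205.result CfsgLib.Cores.odd_card_oddCore
  set f : O →* GL J9 F := M.subtype.comp O.subtype with hf
  set D : ℕ → Subgroup (GL J9 F) := fun n => (derivedSeries O n).map f with hD
  have hDM : ∀ n, D n ≤ M := by
    rintro n _ ⟨x, -, rfl⟩
    exact (x : M).2
  have hDsucc : ∀ n, D (n + 1) = ⁅D n, D n⁆ := fun n => by
    simp only [hD, derivedSeries_succ, Subgroup.map_commutator]
  have hDconj : ∀ n, ∀ m ∈ M, ∀ a ∈ D n, m * a * m⁻¹ ∈ D n := by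
    intro n
    induction n with
    | zero =>
      rintro m hm _ ⟨a, -, rfl⟩
      refine Subgroup.mem_map.mpr ⟨⟨(⟨m, hm⟩ : M) * (a : M) * (⟨m, hm⟩ : M)⁻¹, hOn.conj_mem (a : M) a.2 _⟩, ?_, ?_⟩
      · rw [derivedSeries_zero]; exact Subgroup.mem_top _
      · simp only [hf, MonoidHom.comp_apply, Subgroup.coe_subtype, Subgroup.coe_mul, Subgroup.coe_inv]
    | succ n ih =>
      intro m hm a ha
      have hle : (D n).map (MulAut.conj m).toMonoidHom ≤ D n := by
        rintro _ ⟨b, hb, rfl⟩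
        exact ih m hm b hb
      have := Subgroup.mem_map_of_mem (MulAut.conj m).toMonoidHom ha
      rw [hDsucc, Subgroup.map_commutator] at this
      rw [hDsucc]
      exact Subgroup.commutator_mono hle hle this
  have hD0 : ¬ D 0 ≤ Z := by
    intro hle
    obtain ⟨x, hx, c, hc⟩ := hR ((1, 0), 0)
    obtain ⟨d, -, hd⟩ := hZc _ (hle ⟨⟨x, hx⟩, by simp [derivedSeries_zero], rfl⟩)
    have e : c • T9 ω ((1, 0), 0) + (-d) • T9 ω 0 = 0 := by
      rw [T9_zero, ← hc, show ((x : GL J9 F) : Matrix J9 J9 F) = d • (1 : Matrix J9 J9 F) from hd,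
        neg_smul, add_neg_cancel]
    have hc0 := li_pair (T9_li hω) (by decide) e
    rw [hc0, zero_smul] at hc
    exact (x : GL J9 F).ne_zero hc
  obtain ⟨N, hN⟩ := (Group.isSolvable_def (G := O)).mp hsol
  have hDN : D N ≤ Z := by simp [hD, hN]
  have hex : ∃ n, D n ≤ Z := ⟨N, hDN⟩
  obtain ⟨k, hk⟩ : ∃ k, Nat.find hex = k + 1 :=
    Nat.exists_eq_succ_of_ne_zero fun h0 => hD0 (by rw [← h0]; exact Nat.find_spec hex)
  set B := D k with hB
  have hBns : ¬ B ≤ Z := Nat.find_min hex (by omega)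
  have hcom : ∀ a ∈ B, ∀ b ∈ B, ∃ c : F, c ≠ 0 ∧ (a * b : GL J9 F).1 = c • (b * a : GL J9 F).1 := by
    intro a ha b hb
    have hmem : ⁅a, b⁆ ∈ Z := by
      apply Nat.find_spec hex
      rw [hk, hDsucc]
      exact Subgroup.commutator_mem_commutator ha hb
    obtain ⟨c, hc, hval⟩ := hZc _ hmem
    refine ⟨c, hc, ?_⟩
    rw [show a * b = ⁅a, b⁆ * (b * a) by rw [commutatorElement_def]; group, Units.val_mul, hval,
      Matrix.smul_mul, one_mul]
  have hBconj : ∀ m ∈ M, ∀ a ∈ B, m * a * m⁻¹ ∈ B := hDconj k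
  -- the span of `B` is everything
  set W : Submodule F (Matrix J9 J9 F) :=
    Submodule.span F ((fun g : GL J9 F => (g : Matrix J9 J9 F)) '' (B : Set (GL J9 F))) with hW
  have hWconj : ∀ m ∈ M, ∀ X ∈ W, (m : Matrix J9 J9 F) * X * ((m⁻¹ : GL J9 F) : Matrix J9 J9 F) ∈ W := by
    intro m hm X hX
    induction hX using Submodule.span_induction with
    | mem X hX =>
      obtain ⟨a, ha, rfl⟩ := hX
      exact Submodule.subset_span ⟨m * a * m⁻¹, hBconj m hm a ha, by simp⟩
    | zero => simp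
    | add X Y _ _ hX hY => simpa [mul_add, add_mul] using W.add_mem hX hY
    | smul c X _ hX => simpa [mul_smul_comm, smul_mul_assoc] using W.smul_mem c hX
  obtain ⟨a₀, ha₀, ha₀Z⟩ : ∃ a ∈ B, a ∉ Z := SetLike.not_le_iff_exists.mp hBns
  obtain ⟨v₀, hv₀, hv₀W⟩ : ∃ v, v ≠ 0 ∧ T9 ω v ∈ W := by
    obtain ⟨g, hg⟩ := exists_coeff hω (a₀ : Matrix J9 J9 F)
    by_cases hex' : ∃ v, v ≠ 0 ∧ g v ≠ 0
    · obtain ⟨v, hv, hgv⟩ := hex'
      exact ⟨v, hv, T9_mem_of_component hω W (fun u X hX => hWconj _ (hT u) X hX)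
        (by rw [hg]; exact Submodule.subset_span ⟨a₀, ha₀, rfl⟩) hgv⟩
    · simp only [not_exists, not_and, not_not] at hex'
      exfalso
      apply ha₀Z
      rw [Finset.sum_eq_single 0 (fun v _ hv => by rw [hex' v hv, zero_smul]) (by simp), T9_zero] at hg
      have hg0 : g 0 ≠ 0 := fun h => a₀.ne_zero (by rw [← hg, h, zero_smul])
      exact (Cfsg.Geo.mem_scalars_iff a₀).mpr ⟨Units.mk0 _ hg0, hg.symm⟩
  have hWtop : W = ⊤ := by
    refine top_le_iff.mp (le_of_eq_of_le (T9_span hω).symm (Submodule.span_le.mpr ?_))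
    rintro _ ⟨v, rfl⟩
    by_cases hv : v = 0
    · rw [hv, T9_zero]
      exact Submodule.subset_span ⟨1, B.one_mem, rfl⟩
    obtain ⟨n, hn, c, hc, hnc⟩ := exists_conj A hω hv₀ hv
    have h1 := hWconj n (hS.norm_le hn) _ hv₀W
    rw [hnc, Matrix.smul_mul, mul_assoc, Units.mul_inv, mul_one] at h1
    simpa [smul_smul, hc] using W.smul_mem c⁻¹ h1
  -- elements of `B` have order dividing nine modulo scalars
  have h9 : ∀ a ∈ B, a ^ 9 ∈ Z := by
    intro a ha
    have hcomm : ∀ b ∈ B, Commute ((a : Matrix J9 J9 F) ^ 9) (b : Matrix J9 J9 F) := by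
      intro b hb
      obtain ⟨c, -, hc⟩ := hcom a ha b hb
      rw [Units.val_mul, Units.val_mul] at hc
      have hc9 : c ^ 9 = 1 := by
        have hd := congrArg Matrix.det hc
        rw [Matrix.det_smul, Matrix.det_mul, Matrix.det_mul] at hd
        have e : Fintype.card J9 = 9 := rfl
        rw [e, mul_comm (b : Matrix J9 J9 F).det] at hd
        have ha0 : (a : Matrix J9 J9 F).det ≠ 0 :=
          ((Matrix.isUnit_iff_isUnit_det _).mp a.isUnit).ne_zero
        have hb0 : (b : Matrix J9 J9 F).det ≠ 0 :=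
          ((Matrix.isUnit_iff_isUnit_det _).mp b.isUnit).ne_zero
        exact (mul_eq_right₀ (mul_ne_zero ha0 hb0)).mp hd.symm
      have hpow : ∀ n : ℕ, (a : Matrix J9 J9 F) ^ n * (b : Matrix J9 J9 F) =
          c ^ n • ((b : Matrix J9 J9 F) * (a : Matrix J9 J9 F) ^ n) := by
        intro n
        induction n with
        | zero => simp
        | succ n ih =>
          rw [pow_succ, mul_assoc, hc, mul_smul_comm, ← mul_assoc, ih, smul_mul_assoc, smul_smul,
            mul_assoc, mul_comm c, ← pow_succ]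
      show _ * _ = _ * _
      rw [hpow, hc9, one_smul]
    obtain ⟨d, hd⟩ := eq_smul_one_of_commute_T9 hω (A := (a : Matrix J9 J9 F) ^ 9) fun v => by
      suffices H : ∀ X ∈ W, (a : Matrix J9 J9 F) ^ 9 * X = X * (a : Matrix J9 J9 F) ^ 9 from
        H _ (by rw [hWtop]; trivial)
      intro X hX
      induction hX using Submodule.span_induction with
      | mem X hX => obtain ⟨b, hb, rfl⟩ := hX; exact hcomm b hb
      | zero => simp
      | add X Y _ _ hX hY => rw [mul_add, add_mul, hX, hY]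
      | smul c X _ hX => rw [mul_smul_comm, smul_mul_assoc, hX]
    have hd0 : d ≠ 0 := fun h => (a ^ 9).ne_zero (by rw [Units.val_pow_eq_pow_val, hd, h, zero_smul])
    exact (Cfsg.Geo.mem_scalars_iff _).mpr ⟨Units.mk0 d hd0, by rw [Units.val_pow_eq_pow_val, hd]; rfl⟩
  -- a fixed point of the Pauli group on the quotient by scalars
  have : Z.Normal := scalars_normal
  have : Finite B := inferInstance
  set π := QuotientGroup.mk' Z with hπ
  set Q := B.map π with hQ
  have hQp : IsPGroup 3 Q := by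
    rintro ⟨_, a, ha, rfl⟩
    refine ⟨2, Subtype.ext ?_⟩
    rw [SubmonoidClass.coe_pow, ← map_pow]
    exact (QuotientGroup.eq_one_iff _).mpr (h9 a ha)
  have hmk : ∀ (g h : GL J9 F) (c : F), (g : Matrix J9 J9 F) = c • (h : Matrix J9 J9 F) → π g = π h := by
    intro g h c hgh
    have hc : c ≠ 0 := fun h0 => g.ne_zero (by rw [hgh, h0, zero_smul])
    refine (QuotientGroup.eq_iff_div_mem).mpr ((Cfsg.Geo.mem_scalars_iff _).mpr ⟨Units.mk0 c hc, ?_⟩)
    rw [div_eq_mul_inv, Units.val_mul, hgh, Matrix.smul_mul, Units.mul_inv]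
    rfl
  let φ : Multiplicative V9 →* GL J9 F ⧸ Z := MonoidHom.mk' (fun t => π (T9gl h3 t.toAdd))
    fun s t => by
      rw [← map_mul]
      refine (hmk _ _ (ph ω (s.toAdd.1.2 * t.toAdd.1.1 + s.toAdd.2.2 * t.toAdd.2.1)) ?_).symm
      rw [Units.val_mul, coe_T9gl, coe_T9gl, coe_T9gl, T9_mul h3]
      rfl
  let act : MulAction (Multiplicative V9) Q :=
    { smul := fun t x => ⟨φ t * x * (φ t)⁻¹, by
        obtain ⟨_, a, ha, rfl⟩ := x
        exact ⟨T9gl h3 t.toAdd * a * (T9gl h3 t.toAdd)⁻¹, hBconj _ (hT _) a ha, by simp [φ]⟩⟩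
      one_smul := fun x => Subtype.ext (by show φ 1 * x * (φ 1)⁻¹ = _; simp)
      mul_smul := fun s t x => Subtype.ext (by
        show φ (s * t) * x * (φ (s * t))⁻¹ = φ s * (φ t * x * (φ t)⁻¹) * (φ s)⁻¹
        rw [map_mul]; group) }
  have hV : IsPGroup 3 (Multiplicative V9) :=
    IsPGroup.of_card (n := 4) (by simp [Nat.card_eq_fintype_card])
  have hdvd : 3 ∣ Nat.card Q := by
    have : Fact (Nat.Prime 3) := ⟨Nat.prime_three⟩
    refine hQp.card_eq_or_dvd.resolve_left fun h1 => ha₀Z ?_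
    have : Subsingleton Q := (Nat.card_eq_one_iff_unique.mp h1).1
    have h : (⟨π a₀, a₀, ha₀, rfl⟩ : Q) = 1 := Subsingleton.elim _ _
    exact (QuotientGroup.eq_one_iff _).mp (congrArg Subtype.val h)
  have : Fact (Nat.Prime 3) := ⟨Nat.prime_three⟩
  obtain ⟨⟨_, a, ha, rfl⟩, hfix, hne⟩ :=
    hV.exists_fixed_point_of_prime_dvd_card_of_fixed_point (α := Q) hdvd (a := 1)
      (fun t => Subtype.ext (by show φ t * 1 * (φ t)⁻¹ = 1; simp))
  obtain ⟨v, c, hav⟩ : ∃ (v : V9) (c : F), (a : Matrix J9 J9 F) = c • T9 ω v := by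
    refine exists_eq_smul_T9 hω a fun u => ?_
    have h : π (T9gl h3 u) * π a * (π (T9gl h3 u))⁻¹ = π a :=
      congrArg Subtype.val (hfix (Multiplicative.ofAdd u))
    have h2 : π (T9gl h3 u * a) = π (a * T9gl h3 u) := by
      rw [map_mul, map_mul]; exact mul_inv_eq_iff_eq_mul.mp h
    obtain ⟨d, hd⟩ := (Cfsg.Geo.mem_scalars_iff _).mp (QuotientGroup.eq_iff_div_mem.mp h2)
    refine ⟨d, ?_⟩
    have h3' := congrArg (fun m => m * ((a * T9gl h3 u : GL J9 F) : Matrix J9 J9 F)) hd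
    simp only [← Units.val_mul, div_mul_cancel, Matrix.smul_mul, one_mul] at h3'
    simpa only [Units.val_mul, coe_T9gl] using h3'
  have hv : v ≠ 0 := by
    rintro rfl
    apply hne
    refine Subtype.ext (((QuotientGroup.eq_one_iff _).mpr ?_).symm)
    rw [T9_zero] at hav
    have hc : c ≠ 0 := fun h0 => a.ne_zero (by rw [hav, h0, zero_smul])
    exact (Cfsg.Geo.mem_scalars_iff _).mpr ⟨Units.mk0 c hc, hav⟩
  have hall : ∀ w, ∃ b ∈ B, ∃ d : F, d ≠ 0 ∧ (b : Matrix J9 J9 F) = d • T9 ω w := by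
    intro w
    by_cases hw : w = 0
    · exact ⟨1, B.one_mem, 1, one_ne_zero, by simp [hw]⟩
    obtain ⟨n, hn, d, hd, hnd⟩ := exists_conj A hω hv hw
    have hc : c ≠ 0 := fun h0 => a.ne_zero (by rw [hav, h0, zero_smul])
    refine ⟨n * a * n⁻¹, hBconj n (hS.norm_le hn) a ha, c * d, mul_ne_zero hc hd, ?_⟩
    rw [Units.val_mul, Units.val_mul, hav, mul_smul_comm, smul_mul_assoc, hnd, smul_mul_assoc,
      mul_assoc, Units.mul_inv, mul_one, smul_smul]
  intro m hm
  rw [mem_N9_iff hω]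
  intro w
  obtain ⟨b, hb, d, hd, hbw⟩ := hall w
  obtain ⟨w', e, he⟩ : ∃ (w' : V9) (e : F),
      ((m * b * m⁻¹ : GL J9 F) : Matrix J9 J9 F) = e • T9 ω w' := by
    refine exists_eq_smul_T9 hω _ fun u => ?_
    obtain ⟨b', hb', d', hd', hbu⟩ := hall u
    obtain ⟨r, -, hr⟩ := hcom b' hb' _ (hBconj m hm b hb)
    rw [Units.val_mul b', Units.val_mul _ b', hbu, Matrix.smul_mul, Matrix.mul_smul, smul_smul] at hr
    refine ⟨r, ?_⟩
    have h4 := congrArg (fun X => d'⁻¹ • X) hr
    simp only [smul_smul, inv_mul_cancel₀ hd', one_smul] at h4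
    rw [h4, mul_comm r d', ← mul_assoc, inv_mul_cancel₀ hd', one_mul]
  refine ⟨w', d⁻¹ * e, ?_⟩
  rw [Units.val_mul, Units.val_mul, hbw, mul_smul_comm, smul_mul_assoc] at he
  have h5 := congrArg (fun X => d⁻¹ • (X * (m : Matrix J9 J9 F))) he
  simp only [Matrix.smul_mul, mul_assoc, Units.inv_mul, mul_one, smul_smul, inv_mul_cancel₀ hd,
    one_smul] at h5
  exact h5

end CfsgLib.Geometric.SLNine
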