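import Mathlib
import Cfsg.Prelude.Def_GeometricClasses

/-!
The standard Pauli group of order `3⁵` on the tensor product of two three-dimensional spaces, its
normaliser, and the data of an ambient classical group used to show that this normaliser is maximal.
-/

set_option autoImplicit false

namespace CfsgLib.Geometric.SLNine

open scoped Kronecker

/-- Index of the nine coordinates. -/
abbrev J9 := ZMod 3 × ZMod 3

/-- Index of the Pauli matrices in dimension three: position shift and phase. -/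
abbrev V3 := ZMod 3 × ZMod 3

/-- Index of the Pauli matrices in dimension nine: one index for each tensor factor. -/
abbrev V9 := V3 × V3

variable {F : Type*} [Field F]

/-- The power of `ω` with exponent in `ZMod 3`. -/
def ph (ω : F) (a : ZMod 3) : F := ω ^ a.val

/-- `P3 ω (a, b)` sends `e j` to `ω ^ (b * j) • e (j + a)`. -/
def P3 (ω : F) (v : V3) : Matrix (ZMod 3) (ZMod 3) F :=
  Matrix.of fun i j => if i = j + v.1 then ph ω (v.2 * j) else 0

/-- The Pauli matrices in dimension nine. -/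
def T9 (ω : F) (v : V9) : Matrix J9 J9 F := P3 ω v.1 ⊗ₖ P3 ω v.2

/-- The commutation form in dimension three: `P3 v * P3 w = ph (B3 v w) • (P3 w * P3 v)`. -/
def B3 (v w : V3) : ZMod 3 := v.2 * w.1 - v.1 * w.2

/-- The commutation form in dimension nine. -/
def B9 (v w : V9) : ZMod 3 := B3 v.1 w.1 + B3 v.2 w.2

/-- The invertible matrices permuting the lines spanned by a family of matrices. -/
def monNorm {V ι : Type*} [Fintype ι] [DecidableEq ι] (P : V → Matrix ι ι F) : Subgroup (GL ι F) where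
  carrier := {g | (∀ v, ∃ (w : V) (c : F), (g : Matrix ι ι F) * P v = c • (P w * (g : Matrix ι ι F))) ∧
    ∀ v, ∃ (w : V) (c : F), ((g⁻¹ : GL ι F) : Matrix ι ι F) * P v =
      c • (P w * ((g⁻¹ : GL ι F) : Matrix ι ι F))}
  one_mem' := ⟨fun v => ⟨v, 1, by simp⟩, fun v => ⟨v, 1, by simp⟩⟩
  mul_mem' := by
    intro g h hg hh
    refine ⟨fun v => ?_, fun v => ?_⟩
    · obtain ⟨w, c, hw⟩ := hh.1 v
      obtain ⟨z, d, hz⟩ := hg.1 w
      refine ⟨z, c * d, ?_⟩
      rw [Units.val_mul, mul_assoc, hw, mul_smul_comm, ← mul_assoc, hz, smul_mul_assoc, smul_smul, mul_assoc]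
    · obtain ⟨w, c, hw⟩ := hg.2 v
      obtain ⟨z, d, hz⟩ := hh.2 w
      refine ⟨z, c * d, ?_⟩
      rw [mul_inv_rev, Units.val_mul, mul_assoc, hw, mul_smul_comm, ← mul_assoc, hz, smul_mul_assoc,
        smul_smul, mul_assoc]
  inv_mem' := by
    intro g hg
    exact ⟨hg.2, by rw [inv_inv]; exact hg.1⟩

/-- The normaliser of the Pauli group in dimension three. -/
def N3 (ω : F) : Subgroup (GL (ZMod 3) F) := monNorm (P3 ω)

/-- The normaliser of the Pauli group in dimension nine. -/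
def N9 (ω : F) : Subgroup (GL J9 F) := monNorm (T9 ω)

/-- The Kronecker product of invertible matrices. -/
def kronHom : GL (ZMod 3) F × GL (ZMod 3) F →* GL J9 F where
  toFun p :=
    { val := (p.1 : Matrix (ZMod 3) (ZMod 3) F) ⊗ₖ (p.2 : Matrix (ZMod 3) (ZMod 3) F)
      inv := ((p.1⁻¹ : GL (ZMod 3) F) : Matrix (ZMod 3) (ZMod 3) F) ⊗ₖ
        ((p.2⁻¹ : GL (ZMod 3) F) : Matrix (ZMod 3) (ZMod 3) F)
      val_inv := by rw [← Matrix.mul_kronecker_mul]; simp
      inv_val := by rw [← Matrix.mul_kronecker_mul]; simp }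
  map_one' := Units.ext (by simp)
  map_mul' p q := Units.ext (by simp [Matrix.mul_kronecker_mul])

/-- The block diagonal matrix with the three blocks `a i`. -/
def bd (a : ZMod 3 → Matrix (ZMod 3) (ZMod 3) F) : Matrix J9 J9 F :=
  Matrix.of fun p q => if p.1 = q.1 then a p.1 p.2 q.2 else 0

lemma bd_apply (a : ZMod 3 → Matrix (ZMod 3) (ZMod 3) F) (p q : J9) :
    bd a p q = if p.1 = q.1 then a p.1 p.2 q.2 else 0 := rfl

lemma bd_mul (a b : ZMod 3 → Matrix (ZMod 3) (ZMod 3) F) : bd a * bd b = bd (a * b) := by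
  classical
  ext p q
  rw [Matrix.mul_apply, Fintype.sum_prod_type, Finset.sum_eq_single p.1]
  · by_cases h : p.1 = q.1
    · simp [bd_apply, h, Matrix.mul_apply]
    · simp [bd_apply, h]
  · intro x _ hx
    exact Finset.sum_eq_zero fun y _ => by simp [bd_apply, Ne.symm hx]
  · simp

lemma bd_one : bd (1 : ZMod 3 → Matrix (ZMod 3) (ZMod 3) F) = 1 := by
  ext ⟨i, k⟩ ⟨j, l⟩
  by_cases h : i = j <;> by_cases h' : k = l <;> simp [bd_apply, h, h', Matrix.one_apply]

/-- Block diagonal invertible matrices. -/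
def bdHom : (ZMod 3 → GL (ZMod 3) F) →* GL J9 F :=
  (Units.map (MonoidHom.mk ⟨bd (F := F), bd_one⟩ fun a b => (bd_mul a b).symm)).comp
    MulEquiv.piUnits.symm.toMonoidHom

@[simp] lemma coe_bdHom (a : ZMod 3 → GL (ZMod 3) F) :
    ((bdHom a : GL J9 F) : Matrix J9 J9 F) = bd fun i => (a i : Matrix (ZMod 3) (ZMod 3) F) := rfl

@[simp] lemma coe_kronHom (a b : GL (ZMod 3) F) :
    ((kronHom (a, b) : GL J9 F) : Matrix J9 J9 F) =
      (a : Matrix (ZMod 3) (ZMod 3) F) ⊗ₖ (b : Matrix (ZMod 3) (ZMod 3) F) := rfl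

/-- The matrix of a permutation of the coordinates times its sign. -/
def pmat (σ : Equiv.Perm J9) : Matrix J9 J9 F :=
  Matrix.of fun i j => if i = σ j then ((Equiv.Perm.sign σ : ℤ) : F) else 0

lemma pmat_mul (σ τ : Equiv.Perm J9) : pmat (F := F) σ * pmat τ = pmat (σ * τ) := by
  ext i j
  rw [Matrix.mul_apply, Finset.sum_eq_single (τ j)]
  · by_cases h : i = σ (τ j) <;> simp [pmat, h]
  · intro x _ hx; simp [pmat, hx]
  · simp

lemma pmat_one : pmat (F := F) 1 = 1 := by
  ext i j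
  simp [pmat, Matrix.one_apply]

/-- Signed permutation matrices as a homomorphism. -/
def pmHom : Equiv.Perm J9 →* GL J9 F where
  toFun σ :=
    { val := pmat σ
      inv := pmat σ⁻¹
      val_inv := by rw [pmat_mul, mul_inv_cancel, pmat_one]
      inv_val := by rw [pmat_mul, inv_mul_cancel, pmat_one] }
  map_one' := Units.ext pmat_one
  map_mul' _ _ := Units.ext (pmat_mul _ _).symm

/-- Minus parity of the first factor: eigenvalues `-1` (six times) and `1` (three times). -/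
def tA : GL J9 F := pmHom ((Equiv.neg (ZMod 3)).prodCongr (Equiv.refl (ZMod 3)))

/-- The parity of both factors. -/
def jJ : GL J9 F := pmHom (Equiv.neg J9)

/-- The action of a matrix commuting with `tA` on the three-dimensional eigenspace, in the basis
`(e 1 - e 2) ⊗ e k`. -/
def cMinus (g : Matrix J9 J9 F) : Matrix (ZMod 3) (ZMod 3) F :=
  Matrix.of fun k l => g (1, k) (1, l) - g (1, k) (2, l)

/-- Half the sum of the identity and the parity in dimension three. -/
def pPlus : Matrix (ZMod 3) (ZMod 3) F :=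
  Matrix.of fun i j => ((if i = j then 1 else 0) + (if i = -j then 1 else 0)) / 2

/-- Half the difference of the identity and the parity in dimension three. -/
def pMinus : Matrix (ZMod 3) (ZMod 3) F :=
  Matrix.of fun i j => ((if i = j then 1 else 0) - (if i = -j then 1 else 0)) / 2

/-- The Fourier matrix, scaled to determinant one. -/
def fourier (ω : F) : Matrix (ZMod 3) (ZMod 3) F :=
  (ω - ω ^ 2)⁻¹ • Matrix.of fun i j => ph ω (i * j)

/-- The diagonal matrix `e j ↦ ω ^ (j * j) • e j`. -/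
def quadDiag (ω : F) : Matrix (ZMod 3) (ZMod 3) F := Matrix.diagonal fun j => ph ω (j * j)

/-- An ambient pair of classical groups in dimensions three and nine, compatible with the tensor and
block structures, and the facts about the three-dimensional group that the argument uses. -/
structure Amb (ω : F) where
  U3 : Subgroup (GL (ZMod 3) F)
  U9 : Subgroup (GL J9 F)
  P3_mem : ∀ (v : V3) (g : GL (ZMod 3) F), (g : Matrix (ZMod 3) (ZMod 3) F) = P3 ω v → g ∈ U3
  fourier_mem : ∀ g : GL (ZMod 3) F, (g : Matrix (ZMod 3) (ZMod 3) F) = fourier ω → g ∈ U3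
  quad_mem : ∀ g : GL (ZMod 3) F, (g : Matrix (ZMod 3) (ZMod 3) F) = quadDiag ω → g ∈ U3
  kron_mem : ∀ a ∈ U3, ∀ b ∈ U3, kronHom (a, b) ∈ U9
  pm_mem : ∀ σ : Equiv.Perm J9, pmHom σ ∈ U9
  bd_mem : ∀ a : ZMod 3 → GL (ZMod 3) F, (∀ i, a i ∈ U3) → bdHom a ∈ U9
  blk_mem : ∀ a : ZMod 3 → GL (ZMod 3) F, bdHom a ∈ U9 → ∀ i, a i ∈ U3
  minus_mem : ∀ g ∈ U9, Commute g tA → ∀ c : GL (ZMod 3) F,
    (c : Matrix (ZMod 3) (ZMod 3) F) = cMinus (g : Matrix J9 J9 F) → c ∈ U3
  /-- A subgroup with the generators of the normaliser normalises, or is everything. -/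
  dich : ∀ H : Subgroup (GL (ZMod 3) F), H ≤ U3 →
    (∀ g : GL (ZMod 3) F, (∃ v, (g : Matrix (ZMod 3) (ZMod 3) F) = P3 ω v) → g ∈ H) →
    (∀ g : GL (ZMod 3) F, (g : Matrix (ZMod 3) (ZMod 3) F) = fourier ω → g ∈ H) →
    (∀ g : GL (ZMod 3) F, (g : Matrix (ZMod 3) (ZMod 3) F) = quadDiag ω → g ∈ H) →
    H ≤ N3 ω ∨ U3 ⊓ Cfsg.Geo.specialLinear (ZMod 3) F ≤ H
  /-- Non-scalar subgroups normalised by the derived group contain it. -/
  normal_le : ∀ K : Subgroup (GL (ZMod 3) F), K ≤ U3 →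
    (∀ h ∈ U3 ⊓ Cfsg.Geo.specialLinear (ZMod 3) F, ∀ k ∈ K, h * k * h⁻¹ ∈ K) →
    (∃ k ∈ K, k ∉ Cfsg.Geo.scalars (ZMod 3) F) →
    U3 ⊓ Cfsg.Geo.specialLinear (ZMod 3) F ≤ K
  /-- The group has a torus element `diag (l, l⁻¹, 1)` with `l * l ≠ 1`. -/
  torus : ∃ l : F, l ≠ 0 ∧ l * l ≠ 1 ∧ ∀ g : GL (ZMod 3) F,
    (g : Matrix (ZMod 3) (ZMod 3) F) = Matrix.diagonal (fun j => if j = 0 then l else if j = 1 then l⁻¹ else 1) → g ∈ U3
  /-- The blocks and the normaliser generate everything. -/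
  gen : ∀ M : Subgroup (GL J9 F), N9 ω ⊓ (U9 ⊓ Cfsg.Geo.specialLinear J9 F) ≤ M →
    (∀ a : ZMod 3 → GL (ZMod 3) F, (∀ i, a i ∈ U3 ⊓ Cfsg.Geo.specialLinear (ZMod 3) F) → bdHom a ∈ M) →
    U9 ⊓ Cfsg.Geo.specialLinear J9 F ≤ M

/-- The ambient group in dimension nine. -/
abbrev Amb.G9 {ω : F} (A : Amb ω) : Subgroup (GL J9 F) := A.U9 ⊓ Cfsg.Geo.specialLinear J9 F

/-- The standing hypotheses: a subgroup between the normaliser and the group, not everything. -/
structure Setup {ω : F} (A : Amb ω) (M : Subgroup (GL J9 F)) : Prop where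
  root : IsPrimitiveRoot ω 3
  two : (2 : F) ≠ 0
  three : (3 : F) ≠ 0
  le : M ≤ A.G9
  norm_le : N9 ω ⊓ A.G9 ≤ M
  ne_top : ¬ A.G9 ≤ M

end CfsgLib.Geometric.SLNine
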