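import Cfsg.Agent.Lib.Geometric.SLNine.Model

/-!
The structure of the Pauli normaliser in dimension three: Pauli matrices, scalars, and words in the
Fourier and quadratic elements.
-/

set_option autoImplicit false

namespace CfsgLib.Geometric.SLNine

variable {F : Type*} [Field F] {ω : F}

lemma act3_eq (hω : IsPrimitiveRoot ω 3) {g : GL (ZMod 3) F} (hg : g ∈ N3 ω) {v w : V3} {c : F}
    (h : (g : Matrix (ZMod 3) (ZMod 3) F) * P3 ω v = c • (P3 ω w * (g : Matrix (ZMod 3) (ZMod 3) F))) :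
    act (P3 ω) g v = w :=
  act_eq (P3_li hω) hg h

lemma act_fourier (hω : IsPrimitiveRoot ω 3) (v : V3) :
    act (P3 ω) (fourierGL hω) v = (-v.2, v.1) :=
  act3_eq hω (fourierGL_mem_N3 hω) (fourier_conj hω v)

lemma act_quad (hω : IsPrimitiveRoot ω 3) (v : V3) :
    act (P3 ω) (quadGL hω) v = (v.1, v.2 + 2 * v.1) :=
  act3_eq hω (quadGL_mem_N3 hω) (quad_conj hω v)

lemma act_P3gl (hω : IsPrimitiveRoot ω 3) (u v : V3) :
    act (P3 ω) (P3gl hω.pow_eq_one u) v = v :=
  act3_eq hω (P3gl_mem_N3 hω u) (P3_comm hω.pow_eq_one u v)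

lemma act3_one (hω : IsPrimitiveRoot ω 3) (v : V3) : act (P3 ω) (1 : GL (ZMod 3) F) v = v :=
  act3_eq hω (one_mem _) (c := 1) (by simp)

/-- The conjugation coefficient does not vanish. -/
lemma coeff_ne_zero (hω : IsPrimitiveRoot ω 3) {g : GL (ZMod 3) F} {v w : V3} {c : F}
    (h : (g : Matrix (ZMod 3) (ZMod 3) F) * P3 ω v = c • (P3 ω w * (g : Matrix (ZMod 3) (ZMod 3) F))) :
    c ≠ 0 := by
  rintro rfl
  rw [zero_smul] at h
  exact (P3_li hω).ne_zero v (g.isUnit.mul_right_eq_zero.mp h)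

lemma act3_add (hω : IsPrimitiveRoot ω 3) {g : GL (ZMod 3) F} (hg : g ∈ N3 ω) (v w : V3) :
    act (P3 ω) g (v + w) = act (P3 ω) g v + act (P3 ω) g w := by
  have h3 := hω.pow_eq_one
  obtain ⟨c, hc⟩ := act_spec hg v
  obtain ⟨d, hd⟩ := act_spec hg w
  refine act3_eq hω hg (c := (ph ω (v.2 * w.1))⁻¹ * (d * c * ph ω ((act (P3 ω) g v).2 * (act (P3 ω) g w).1))) ?_
  have e : P3 ω (v + w) = (ph ω (v.2 * w.1))⁻¹ • (P3 ω v * P3 ω w) := by
    rw [P3_mul h3, smul_smul, inv_mul_cancel₀ (ph_ne_zero h3 _), one_smul]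
  rw [e, Matrix.mul_smul, ← mul_assoc, hc, Matrix.smul_mul, mul_assoc, hd, Matrix.mul_smul,
    ← mul_assoc, P3_mul h3, Matrix.smul_mul, smul_smul, smul_smul, smul_smul]
  congr 1; ring

lemma act3_zero (hω : IsPrimitiveRoot ω 3) {g : GL (ZMod 3) F} (hg : g ∈ N3 ω) :
    act (P3 ω) g 0 = 0 := by
  simpa using act3_add hω hg 0 0

lemma act3_B3 (hω : IsPrimitiveRoot ω 3) {g : GL (ZMod 3) F} (hg : g ∈ N3 ω) (v w : V3) :
    B3 (act (P3 ω) g v) (act (P3 ω) g w) = B3 v w := by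
  have h3 := hω.pow_eq_one
  obtain ⟨c, hc⟩ := act_spec hg v
  obtain ⟨d, hd⟩ := act_spec hg w
  have e1 : (g : Matrix (ZMod 3) (ZMod 3) F) * (P3 ω v * P3 ω w) =
      (c * d * ph ω (B3 (act (P3 ω) g v) (act (P3 ω) g w))) •
        (P3 ω (act (P3 ω) g w) * P3 ω (act (P3 ω) g v) * (g : Matrix (ZMod 3) (ZMod 3) F)) := by
    rw [← mul_assoc, hc, Matrix.smul_mul, mul_assoc, hd, Matrix.mul_smul, ← mul_assoc, P3_comm h3,
      Matrix.smul_mul, smul_smul, smul_smul, mul_assoc]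
  have e2 : (g : Matrix (ZMod 3) (ZMod 3) F) * (P3 ω v * P3 ω w) =
      (c * d * ph ω (B3 v w)) •
        (P3 ω (act (P3 ω) g w) * P3 ω (act (P3 ω) g v) * (g : Matrix (ZMod 3) (ZMod 3) F)) := by
    rw [P3_comm h3, Matrix.mul_smul, ← mul_assoc, hd, Matrix.smul_mul, mul_assoc, hc, Matrix.mul_smul,
      ← mul_assoc, smul_smul, smul_smul]
    congr 1; ring
  have hne : P3 ω (act (P3 ω) g w) * P3 ω (act (P3 ω) g v) * (g : Matrix (ZMod 3) (ZMod 3) F) ≠ 0 :=
    ((((P3gl h3 _).isUnit).mul (P3gl h3 _).isUnit).mul g.isUnit).ne_zero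
  have h := smul_left_injective F hne (e1.symm.trans e2)
  exact ph_inj hω (mul_left_cancel₀ (mul_ne_zero (coeff_ne_zero hω hc) (coeff_ne_zero hω hd)) h)

/-- A matrix commuting with all the Pauli matrices of dimension three is scalar. -/
lemma eq_smul_one_of_commute_P3 (hω : IsPrimitiveRoot ω 3) {A : Matrix (ZMod 3) (ZMod 3) F}
    (h1 : A * P3 ω (1, 0) = P3 ω (1, 0) * A) (h2 : A * P3 ω (0, 1) = P3 ω (0, 1) * A) :
    A = A 0 0 • 1 := by
  have e1 : ∀ i j, A i (j + 1) = A (i - 1) j := by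
    intro i j
    have h := congrFun (congrFun h1 i) j
    rw [Matrix.mul_apply, Matrix.mul_apply, Finset.sum_eq_single (j + 1) (fun x _ hx => by simp [P3_apply, hx]) (by simp),
      Finset.sum_eq_single (i - 1) (fun x _ hx => by
        have : ¬ i = x + 1 := fun e => hx (by rw [e]; ring)
        simp [P3_apply, this]) (by simp)] at h
    simpa [P3_apply] using h
  have e2 : ∀ i j, i ≠ j → A i j = 0 := by
    intro i j hij
    have h := congrFun (congrFun h2 i) j
    simp [Matrix.mul_apply, P3_apply] at h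
    have hne : ph ω j ≠ ph ω i := fun e => hij (ph_inj hω e).symm
    have : A i j * (ph ω j - ph ω i) = 0 := by rw [mul_sub, h]; ring
    exact (mul_eq_zero.mp this).resolve_right (sub_ne_zero.mpr hne)
  have d1 : A 1 1 = A 0 0 := by simpa using e1 1 0
  have d2 : A 2 2 = A 1 1 := e1 2 1
  ext i j
  by_cases h : i = j
  · subst h
    rcases zmod_cases i with rfl | rfl | rfl <;> simp [d1, d2]
  · simp [e2 i j h, h]

/-- An element of the normaliser fixing all indices is a Pauli matrix times a scalar. -/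
lemma eq_P3_of_act_id (hω : IsPrimitiveRoot ω 3) {g : GL (ZMod 3) F} (hg : g ∈ N3 ω)
    (h : ∀ v, act (P3 ω) g v = v) :
    ∃ (c : F) (v : V3), c ≠ 0 ∧ (g : Matrix (ZMod 3) (ZMod 3) F) = c • P3 ω v := by
  have h3 := hω.pow_eq_one
  set G := (g : Matrix (ZMod 3) (ZMod 3) F)
  have key : ∀ u, ∃ a, G * P3 ω u = ph ω a • (P3 ω u * G) := by
    intro u
    obtain ⟨c, hc⟩ := act_spec hg u
    rw [h u] at hc
    change G * P3 ω u = c • (P3 ω u * G) at hc
    have e : G = (c * c * c) • G := by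
      calc G = G * (P3 ω u * P3 ω u * P3 ω u) := by rw [P3_cube h3, mul_one]
        _ = (c * c * c) • (P3 ω u * P3 ω u * P3 ω u * G) := by
            rw [← mul_assoc, ← mul_assoc, hc, Matrix.smul_mul, mul_assoc (P3 ω u) G, hc, Matrix.mul_smul,
              Matrix.smul_mul, ← mul_assoc, Matrix.smul_mul, mul_assoc (P3 ω u * P3 ω u) G, hc,
              Matrix.mul_smul, ← mul_assoc, smul_smul, smul_smul]
        _ = (c * c * c) • G := by rw [P3_cube h3, one_mul]
    have hc3 : c ^ 3 = 1 := by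
      have h' := smul_left_injective F g.isUnit.ne_zero ((one_smul F G).trans e)
      rw [pow_three]; simpa [mul_assoc] using h'.symm
    obtain ⟨a, rfl⟩ := exists_ph_eq hω hc3
    exact ⟨a, hc⟩
  obtain ⟨k1, hk1⟩ := key (1, 0)
  obtain ⟨k2, hk2⟩ := key (0, 1)
  set v : V3 := (-k2, k1) with hv
  have hb : ∀ u k, G * P3 ω u = ph ω k • (P3 ω u * G) → B3 v u = k →
      P3 ω (-v) * G * P3 ω u = P3 ω u * (P3 ω (-v) * G) := by
    intro u k hu hB
    rw [mul_assoc, hu, Matrix.mul_smul, ← mul_assoc, P3_comm h3 (-v) u, Matrix.smul_mul, smul_smul,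
      ← ph_add h3, mul_assoc]
    rw [show k + B3 (-v) u = 0 by rw [← hB]; unfold B3; simp, ph_zero, one_smul]
  have hs := eq_smul_one_of_commute_P3 hω (hb _ k1 hk1 (by simp [hv, B3])) (hb _ k2 hk2 (by simp [hv, B3]))
  set c := (P3 ω (-v) * G) 0 0
  have hG : G = (c * (ph ω (-(v.2 * v.1)))⁻¹) • P3 ω v := by
    have h' := congrArg (fun A => P3 ω v * A) hs
    simp only [← mul_assoc, P3_mul_neg h3, Matrix.smul_mul, one_mul, Matrix.mul_smul, mul_one] at h'
    rw [mul_comm, ← smul_smul, ← h', smul_smul, inv_mul_cancel₀ (ph_ne_zero h3 _), one_smul]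
  refine ⟨_, v, fun h0 => g.isUnit.ne_zero ?_, hG⟩
  change G = 0
  rw [hG, h0, zero_smul]

/-- The group generated by the Fourier and quadratic elements. -/
def wordGroup (hω : IsPrimitiveRoot ω 3) : Subgroup (GL (ZMod 3) F) :=
  Subgroup.closure {fourierGL hω, quadGL hω}

lemma wordGroup_le_N3 (hω : IsPrimitiveRoot ω 3) : wordGroup hω ≤ N3 ω :=
  (Subgroup.closure_le _).mpr (by
    rintro x (rfl | rfl)
    · exact fourierGL_mem_N3 hω
    · exact quadGL_mem_N3 hω)

lemma exists_word_to (hω : IsPrimitiveRoot ω 3) {u : V3} (hu : u ≠ 0) :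
    ∃ r ∈ wordGroup hω, act (P3 ω) r (1, 0) = u := by
  have hf : fourierGL hω ∈ wordGroup hω := Subgroup.subset_closure (by simp)
  have hq : quadGL hω ∈ wordGroup hω := Subgroup.subset_closure (by simp)
  let R : V3 → Prop := fun u => ∃ r ∈ wordGroup hω, act (P3 ω) r (1, 0) = u
  have sf : ∀ a b, R (a, b) → R (-b, a) := by
    rintro a b ⟨r, hr, e⟩
    exact ⟨_, mul_mem hf hr, by
      rw [act_mul (P3_li hω) (wordGroup_le_N3 hω hf) (wordGroup_le_N3 hω hr), e, act_fourier hω]⟩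
  have sq : ∀ a b, R (a, b) → R (a, b + 2 * a) := by
    rintro a b ⟨r, hr, e⟩
    exact ⟨_, mul_mem hq hr, by
      rw [act_mul (P3_li hω) (wordGroup_le_N3 hω hq) (wordGroup_le_N3 hω hr), e, act_quad hω]⟩
  have c0 : R (1, 0) := ⟨1, one_mem _, act3_one hω _⟩
  have c1 : R (1, 2) := sq 1 0 c0
  have c2 : R (1, 1) := sq 1 2 c1
  have c3 : R (0, 1) := sf 1 0 c0
  have c4 : R (2, 0) := sf 0 1 c3
  have c5 : R (0, 2) := sf 2 0 c4
  have c6 : R (2, 1) := sq 2 0 c4
  have c7 : R (2, 2) := sq 2 1 c6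
  obtain ⟨a, b⟩ := u
  rcases zmod_cases a with rfl | rfl | rfl <;> rcases zmod_cases b with rfl | rfl | rfl
  all_goals first | exact (hu rfl).elim | assumption

/-- Every element of the normaliser is a word times a Pauli matrix times a scalar. -/
lemma exists_word (hω : IsPrimitiveRoot ω 3) {g : GL (ZMod 3) F} (hg : g ∈ N3 ω) :
    ∃ r ∈ wordGroup hω, ∀ u, act (P3 ω) (r * g) u = u := by
  have hN := wordGroup_le_N3 hω
  set L := act (P3 ω) g
  have hL : L (1, 0) ≠ 0 := by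
    intro h0
    have h := act3_B3 hω hg (1, 0) (0, 1)
    change B3 (L (1, 0)) (L (0, 1)) = _ at h
    rw [h0] at h
    simp [B3] at h
  obtain ⟨r1, hr1, e1⟩ := exists_word_to hω hL
  have hg1 : r1⁻¹ * g ∈ N3 ω := mul_mem (inv_mem (hN hr1)) hg
  have f1 : act (P3 ω) (r1⁻¹ * g) (1, 0) = (1, 0) := by
    rw [act_mul (P3_li hω) (inv_mem (hN hr1)) hg]
    change act (P3 ω) r1⁻¹ (L (1, 0)) = _
    rw [← e1, ← act_mul (P3_li hω) (inv_mem (hN hr1)) (hN hr1), inv_mul_cancel, act3_one hω]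
  obtain ⟨x, f2⟩ : ∃ x, act (P3 ω) (r1⁻¹ * g) (0, 1) = (x, 1) := by
    refine ⟨(act (P3 ω) (r1⁻¹ * g) (0, 1)).1, Prod.ext rfl ?_⟩
    have h := act3_B3 hω hg1 (1, 0) (0, 1)
    rw [f1] at h
    simp [B3] at h
    exact h
  have hf : fourierGL hω ∈ wordGroup hω := Subgroup.subset_closure (by simp)
  have hq : quadGL hω ∈ wordGroup hω := Subgroup.subset_closure (by simp)
  set S := fourierGL hω * quadGL hω * (fourierGL hω)⁻¹
  have hS : S ∈ wordGroup hω := mul_mem (mul_mem hf hq) (inv_mem hf)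
  have hSact : ∀ a b, act (P3 ω) S (a, b) = (a + b, b) := by
    intro a b
    have hfi : act (P3 ω) (fourierGL hω)⁻¹ (a, b) = (b, -a) := by
      have h := congrArg (act (P3 ω) (fourierGL hω)⁻¹) (act_fourier hω (b, -a))
      rw [← act_mul (P3_li hω) (inv_mem (hN hf)) (hN hf), inv_mul_cancel, act3_one hω] at h
      simpa using h.symm
    rw [act_mul (P3_li hω) (mul_mem (hN hf) (hN hq)) (inv_mem (hN hf)), hfi,
      act_mul (P3_li hω) (hN hf) (hN hq), act_quad hω, act_fourier hω]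
    have : ∀ a b : ZMod 3, -(-a + 2 * b) = a + b := by decide
    simp [this]
  have hpow : ∀ (k : ℕ) (a b : ZMod 3), act (P3 ω) (S ^ k) (a, b) = (a + k * b, b) := by
    intro k
    induction k with
    | zero => intro a b; simp [act3_one hω]
    | succ k ih =>
      intro a b
      rw [pow_succ', act_mul (P3_li hω) (hN hS) (pow_mem (hN hS) k), ih, hSact]
      push_cast
      exact Prod.ext (by ring) rfl
  refine ⟨S ^ (-x).val * r1⁻¹, mul_mem (pow_mem hS _) (inv_mem hr1), ?_⟩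
  have hk : S ^ (-x).val ∈ N3 ω := pow_mem (hN hS) _
  rw [mul_assoc]
  have g1 : act (P3 ω) (S ^ (-x).val * (r1⁻¹ * g)) (1, 0) = (1, 0) := by
    rw [act_mul (P3_li hω) hk hg1, f1, hpow]; simp
  have g2 : act (P3 ω) (S ^ (-x).val * (r1⁻¹ * g)) (0, 1) = (0, 1) := by
    rw [act_mul (P3_li hω) hk hg1, f2, hpow]; simp
  have hgen := mul_mem hk hg1
  rintro ⟨a, b⟩
  have hn : ∀ (n : ℕ) (v : V3), act (P3 ω) (S ^ (-x).val * (r1⁻¹ * g)) (n • v) =
      n • act (P3 ω) (S ^ (-x).val * (r1⁻¹ * g)) v := by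
    intro n v
    induction n with
    | zero => simp [act3_zero hω hgen]
    | succ n ih => rw [succ_nsmul, succ_nsmul, act3_add hω hgen, ih]
  have e : ((a, b) : V3) = a.val • ((1, 0) : V3) + b.val • ((0, 1) : V3) := by
    ext <;> simp
  rw [e, act3_add hω hgen, hn, hn, g1, g2]

/-- Every element of the normaliser is, up to a word, a scalar times a Pauli matrix. -/
lemma exists_word_P3 (hω : IsPrimitiveRoot ω 3) {g : GL (ZMod 3) F} (hg : g ∈ N3 ω) :
    ∃ r ∈ wordGroup hω, ∃ (c : F) (v : V3), c ≠ 0 ∧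
      ((r * g : GL (ZMod 3) F) : Matrix (ZMod 3) (ZMod 3) F) = c • P3 ω v := by
  obtain ⟨r, hr, h⟩ := exists_word hω hg
  exact ⟨r, hr, eq_P3_of_act_id hω (mul_mem (wordGroup_le_N3 hω hr) hg) h⟩

/-- Words in the generators act on the second factor inside the normaliser. -/
lemma kron_word_right_mem (A : Amb ω) (hω : IsPrimitiveRoot ω 3) {r : GL (ZMod 3) F}
    (hr : r ∈ wordGroup hω) : kronHom (1, r) ∈ N9 ω ⊓ A.G9 := by
  have h : wordGroup hω ≤ (N9 ω ⊓ A.G9).comap (kronHom.comp (MonoidHom.inr _ _)) :=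
    (Subgroup.closure_le _).mpr (by
      rintro x (rfl | rfl)
      · exact kron_fourier_right_mem A hω
      · exact kron_quad_right_mem A hω)
  exact h hr

/-- Words in the generators act on the first factor inside the normaliser. -/
lemma kron_word_left_mem (A : Amb ω) (hω : IsPrimitiveRoot ω 3) {r : GL (ZMod 3) F}
    (hr : r ∈ wordGroup hω) : kronHom (r, 1) ∈ N9 ω ⊓ A.G9 := by
  have h : wordGroup hω ≤ (N9 ω ⊓ A.G9).comap (kronHom.comp (MonoidHom.inl _ _)) :=
    (Subgroup.closure_le _).mpr (by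
      rintro x (rfl | rfl)
      · exact kron_fourier_left_mem A hω
      · exact kron_quad_left_mem A hω)
  exact h hr

end CfsgLib.Geometric.SLNine
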