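import Cfsg.Agent.Lib.Geometric.SLNine.Blocks
import Cfsg.Agent.Lib.Geometric.SLNine.Three

/-!
In a proper overgroup of the Pauli normaliser in dimension nine, the centraliser of every non-scalar
Pauli matrix lies in the normaliser.
-/

set_option autoImplicit false

namespace CfsgLib.Geometric.SLNine

open scoped Kronecker

namespace Exc

variable {F : Type*} [Field F] {ω : F}

lemma coe_kron_right (r : GL (ZMod 3) F) :
    ((kronHom (1, r) : GL J9 F) : Matrix J9 J9 F) = bd fun _ => (r : Matrix (ZMod 3) (ZMod 3) F) := by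
  rw [coe_kronHom, Units.val_one, Blk.one_kron]

lemma kron_right_eq (r : GL (ZMod 3) F) : (kronHom (1, r) : GL J9 F) = bdHom fun _ => r :=
  Units.ext (by rw [coe_kron_right, coe_bdHom])

lemma bdHom_injective : Function.Injective (bdHom : (ZMod 3 → GL (ZMod 3) F) →* GL J9 F) := by
  intro a b h
  have h' := congrArg (fun g : GL J9 F => (g : Matrix J9 J9 F)) h
  simp only [coe_bdHom] at h'
  funext i
  exact Units.ext (congrFun (Blk.bd_injective h') i)

lemma commute_bd_diag (a : ZMod 3 → Matrix (ZMod 3) (ZMod 3) F) :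
    Commute (bd a) (T9 ω (((0 : ZMod 3), (1 : ZMod 3)), (0 : V3))) := by
  rw [Commute, SemiconjBy, Blk.T9_diag]
  ext p q
  rw [Matrix.mul_diagonal, Matrix.diagonal_mul, bd_apply]
  by_cases h : p.1 = q.1
  · rw [if_pos h, h, mul_comm]
  · simp [h]

section Proj

lemma pPlus_add_pMinus (h2 : (2 : F) ≠ 0) : pPlus + pMinus = (1 : Matrix (ZMod 3) (ZMod 3) F) := by
  ext i j
  simp only [pPlus, pMinus, Matrix.add_apply, Matrix.of_apply, Matrix.one_apply]
  field_simp
  ring

lemma pPlus_mul_pMinus (h2 : (2 : F) ≠ 0) :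
    pPlus * pMinus = (0 : Matrix (ZMod 3) (ZMod 3) F) := by
  ext i j
  rw [Matrix.mul_apply, sum_zmod]
  rcases zmod_cases i with rfl | rfl | rfl <;> rcases zmod_cases j with rfl | rfl | rfl <;>
    simp +decide [pPlus, pMinus] <;> field_simp <;> ring

lemma pMinus_mul_pPlus (h2 : (2 : F) ≠ 0) :
    pMinus * pPlus = (0 : Matrix (ZMod 3) (ZMod 3) F) := by
  ext i j
  rw [Matrix.mul_apply, sum_zmod]
  rcases zmod_cases i with rfl | rfl | rfl <;> rcases zmod_cases j with rfl | rfl | rfl <;>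
    simp +decide [pPlus, pMinus] <;> field_simp <;> ring

lemma pPlus_sq (h2 : (2 : F) ≠ 0) : pPlus * pPlus = (pPlus : Matrix (ZMod 3) (ZMod 3) F) := by
  conv_rhs => rw [← mul_one pPlus, ← pPlus_add_pMinus h2, mul_add, pPlus_mul_pMinus h2, add_zero]

lemma pMinus_sq (h2 : (2 : F) ≠ 0) : pMinus * pMinus = (pMinus : Matrix (ZMod 3) (ZMod 3) F) := by
  conv_rhs => rw [← mul_one pMinus, ← pPlus_add_pMinus h2, mul_add, pMinus_mul_pPlus h2, zero_add]

/-- The matrix acting as `c` on the minus eigenspace of the first parity and trivially on the other. -/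
def iota (c : Matrix (ZMod 3) (ZMod 3) F) : Matrix J9 J9 F := pPlus ⊗ₖ 1 + pMinus ⊗ₖ c

lemma iota_mul (h2 : (2 : F) ≠ 0) (c d : Matrix (ZMod 3) (ZMod 3) F) :
    iota c * iota d = iota (c * d) := by
  simp only [iota, Matrix.add_mul, Matrix.mul_add, ← Matrix.mul_kronecker_mul, pPlus_sq h2,
    pMinus_sq h2, pPlus_mul_pMinus h2, pMinus_mul_pPlus h2, Matrix.zero_kronecker, add_zero, zero_add,
    mul_one]

lemma iota_one (h2 : (2 : F) ≠ 0) : iota (1 : Matrix (ZMod 3) (ZMod 3) F) = 1 := by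
  rw [iota, ← Matrix.add_kronecker, pPlus_add_pMinus h2, Matrix.one_kronecker_one]

lemma kron_mul_iota (r c : Matrix (ZMod 3) (ZMod 3) F) :
    ((1 : Matrix (ZMod 3) (ZMod 3) F) ⊗ₖ r) * iota c = pPlus ⊗ₖ r + pMinus ⊗ₖ (r * c) := by
  simp only [iota, Matrix.mul_add, ← Matrix.mul_kronecker_mul, one_mul, mul_one]

lemma iota_mul_kron (r c : Matrix (ZMod 3) (ZMod 3) F) :
    iota c * ((1 : Matrix (ZMod 3) (ZMod 3) F) ⊗ₖ r) = pPlus ⊗ₖ r + pMinus ⊗ₖ (c * r) := by
  simp only [iota, Matrix.add_mul, ← Matrix.mul_kronecker_mul, one_mul, mul_one]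

lemma cMinus_iota (h2 : (2 : F) ≠ 0) (c : Matrix (ZMod 3) (ZMod 3) F) : cMinus (iota c) = c := by
  ext k l
  by_cases h : k = l <;>
    simp +decide [cMinus, iota, pPlus, pMinus, h] <;> field_simp <;> ring

lemma tA_eq (h2 : (2 : F) ≠ 0) :
    ((tA : GL J9 F) : Matrix J9 J9 F) = (pMinus - pPlus) ⊗ₖ (1 : Matrix (ZMod 3) (ZMod 3) F) := by
  have hsign : Equiv.Perm.sign ((Equiv.neg (ZMod 3)).prodCongr (Equiv.refl (ZMod 3))) = -1 := by decide
  change pmat _ = _
  ext ⟨i, k⟩ ⟨j, l⟩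
  simp only [pmat, hsign, Matrix.of_apply, Equiv.prodCongr_apply, Prod.map, Equiv.neg_apply,
    Equiv.refl_apply, Prod.mk.injEq, Matrix.kroneckerMap_apply, Matrix.sub_apply, pPlus, pMinus,
    Matrix.one_apply]
  by_cases h : i = -j <;> by_cases h' : k = l <;> simp [h, h'] <;> field_simp <;> ring

lemma iota_commute_tA (h2 : (2 : F) ≠ 0) (c : Matrix (ZMod 3) (ZMod 3) F) :
    iota c * ((tA : GL J9 F) : Matrix J9 J9 F) = ((tA : GL J9 F) : Matrix J9 J9 F) * iota c := by
  rw [tA_eq h2]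
  simp only [iota, Matrix.add_mul, Matrix.mul_add, ← Matrix.mul_kronecker_mul, Matrix.mul_sub,
    Matrix.sub_mul, pPlus_sq h2, pMinus_sq h2, pPlus_mul_pMinus h2, pMinus_mul_pPlus h2, one_mul,
    mul_one]

/-- The product of the two transpositions used to split the minus eigenspace. -/
def piPerm : Equiv.Perm J9 := Equiv.swap (1, 0) (2, 0) * Equiv.swap (1, 1) (2, 1)

/-- The three-cycle of the coordinates in the last block. -/
def cyclePerm : Equiv.Perm J9 where
  toFun p := (p.1, if p.1 = 2 then p.2 + 1 else p.2)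
  invFun p := (p.1, if p.1 = 2 then p.2 - 1 else p.2)
  left_inv p := by revert p; decide
  right_inv p := by revert p; decide

/-- The shift of the first coordinate. -/
def shiftPerm : Equiv.Perm J9 := (Equiv.addRight (1 : ZMod 3)).prodCongr (Equiv.refl (ZMod 3))

lemma piPerm_eq :
    piPerm = cyclePerm * swapPerm * shiftPerm * cyclePerm * swapPerm * shiftPerm * cyclePerm * swapPerm *
      cyclePerm * swapPerm * cyclePerm * swapPerm * (Equiv.neg (ZMod 3)).prodCongr (Equiv.refl (ZMod 3)) *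
      shiftPerm * shearPerm := by decide

lemma piPerm_apply : ∀ p : J9, piPerm p = (if p.2 = 2 then p.1 else -p.1, p.2) := by decide

lemma sign_piPerm : Equiv.Perm.sign piPerm = 1 := by decide

/-- The diagonal matrix `diag (-1, -1, 1)`. -/
def dMat : Matrix (ZMod 3) (ZMod 3) F := Matrix.diagonal fun k => if k = 2 then 1 else -1

lemma pm_pi (h2 : (2 : F) ≠ 0) : ((pmHom piPerm : GL J9 F) : Matrix J9 J9 F) = iota dMat := by
  change pmat _ = _
  ext ⟨i, k⟩ ⟨j, l⟩
  simp only [pmat, sign_piPerm, Matrix.of_apply, piPerm_apply, Prod.mk.injEq, iota, Matrix.add_apply,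
    Matrix.kroneckerMap_apply, pPlus, pMinus, dMat, Matrix.diagonal_apply, Matrix.one_apply]
  by_cases hk : k = l
  · subst hk
    by_cases h2' : k = 2 <;> by_cases h : i = j <;> by_cases h' : i = -j <;>
      simp [h2', h, h'] <;> field_simp <;> ring
  · simp [hk]

lemma pm_shift (hω : ω ^ 3 = 1) :
    (pmHom shiftPerm : GL J9 F) = T9gl hω ((1, 0), 0) := by
  have hsign : Equiv.Perm.sign shiftPerm = 1 := by decide
  refine Units.ext ?_
  change pmat _ = _
  ext i j
  rw [coe_T9gl, T9_apply hω]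
  simp only [pmat, hsign]
  simp [shiftPerm, Prod.map, Prod.ext_iff]

lemma pm_cycle (hω : ω ^ 3 = 1) :
    (pmHom cyclePerm : GL J9 F) = bdHom fun i => if i = 2 then P3gl hω (1, 0) else 1 := by
  have hsign : Equiv.Perm.sign cyclePerm = 1 := by decide
  refine Units.ext ?_
  change pmat _ = _
  rw [coe_bdHom]
  ext ⟨i, k⟩ ⟨j, l⟩
  simp only [pmat, hsign]
  simp only [Matrix.of_apply, cyclePerm, Equiv.coe_fn_mk, Prod.mk.injEq, bd_apply]
  by_cases h : i = j
  · subst h
    by_cases hi : i = 2 <;> by_cases hk : k = l <;> simp [hi, hk, P3_apply, Matrix.one_apply]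
  · simp [h]

end Proj

/-! ### The three block vectors sum to zero -/

variable {A : Amb ω} {M : Subgroup (GL J9 F)}

lemma mem_of_norm (hS : Setup A M) {g : GL J9 F} (hg : g ∈ N9 ω ⊓ A.G9) : g ∈ M := hS.norm_le hg

lemma det_eq_one (hS : Setup A M) {g : GL J9 F} (hg : g ∈ M) : (g : Matrix J9 J9 F).det = 1 :=
  mem_specialLinear.mp (hS.le hg).2

/-- The minus eigenspace embedding has no element `diag (-1, -1, 1)`. -/
lemma not_pi_mem (hS : Setup A M) (hpi : pmHom piPerm ∈ M) : False := by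
  have hω := hS.root
  have h3 := hω.pow_eq_one
  have h2 := hS.two
  have hU : ∀ (c : GL (ZMod 3) F) (g : GL J9 F), g ∈ M → (g : Matrix J9 J9 F) = iota (c : Matrix _ _ F) →
      c ∈ A.U3 := by
    intro c g hg hgc
    refine A.minus_mem g (hS.le hg).1 ?_ c (by rw [hgc, cMinus_iota h2])
    exact Units.ext (by rw [Units.val_mul, Units.val_mul, hgc, iota_commute_tA h2])
  let G3 : Subgroup (GL (ZMod 3) F) :=
    { carrier := {c | ∃ g ∈ M, (g : Matrix J9 J9 F) = iota (c : Matrix _ _ F)}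
      one_mem' := ⟨1, one_mem _, by rw [Units.val_one, Units.val_one, iota_one h2]⟩
      mul_mem' := by
        rintro a b ⟨g, hg, hga⟩ ⟨h, hh, hhb⟩
        exact ⟨g * h, mul_mem hg hh, by rw [Units.val_mul, Units.val_mul, hga, hhb, iota_mul h2]⟩
      inv_mem' := by
        rintro a ⟨g, hg, hga⟩
        refine ⟨g⁻¹, inv_mem hg, ?_⟩
        apply g.isUnit.mul_left_cancel
        rw [Units.mul_inv, hga, iota_mul h2, Units.mul_inv, iota_one h2] }
  have hG3U : G3 ≤ A.U3 := fun c ⟨g, hg, hgc⟩ => hU c g hg hgc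
  have hd : (dMat : Matrix (ZMod 3) (ZMod 3) F) * dMat = 1 := by
    rw [dMat, Matrix.diagonal_mul_diagonal, ← Matrix.diagonal_one]
    congr 1; funext k; split_ifs <;> simp
  set D : GL (ZMod 3) F := ⟨dMat, dMat, hd, hd⟩ with hD
  have hDG : D ∈ G3 := ⟨_, hpi, pm_pi h2⟩
  set gens : Set (GL (ZMod 3) F) := Set.range (P3gl h3) ∪ {fourierGL hω, quadGL hω} with hgens
  have hgM : ∀ r ∈ gens, kronHom (1, r) ∈ M := by
    rintro r (⟨v, rfl⟩ | rfl | rfl)
    · have e : T9gl h3 (0, v) = kronHom (1, P3gl h3 v) := Units.ext (by simp [T9])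
      exact e ▸ mem_of_norm hS (T9gl_mem A hω _)
    · exact mem_of_norm hS (kron_fourier_right_mem A hω)
    · exact mem_of_norm hS (kron_quad_right_mem A hω)
  have hnorm : ∀ r, kronHom (1, r) ∈ M → ∀ c ∈ G3, r * c * r⁻¹ ∈ G3 := by
    rintro r hr c ⟨g, hg, hgc⟩
    refine ⟨kronHom (1, r) * g * (kronHom (1, r))⁻¹, mul_mem (mul_mem hr hg) (inv_mem hr), ?_⟩
    rw [Units.val_mul, Units.val_mul, Units.mul_inv_eq_iff_eq_mul, hgc, coe_kronHom, Units.val_one,
      kron_mul_iota, iota_mul_kron]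
    simp only [Units.val_mul, mul_assoc, Units.inv_mul, mul_one]
  set Q : Subgroup (GL (ZMod 3) F) :=
    Subgroup.normalizer (G3 : Set (GL (ZMod 3) F)) with hQ
  set H := Subgroup.closure ((G3 : Set (GL (ZMod 3) F)) ∪ gens) with hH
  have hgQ : ∀ r ∈ gens, r ∈ Q := by
    intro r hr
    rw [hQ, Subgroup.mem_normalizer_iff]
    intro c
    refine ⟨hnorm r (hgM r hr) c, fun hc => ?_⟩
    have h := hnorm r⁻¹ (by
      have := inv_mem (hgM r hr)
      rwa [← map_inv, Prod.inv_mk, inv_one] at this) _ hc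
    simpa [mul_assoc] using h
  have hHQ : H ≤ Q := (Subgroup.closure_le _).mpr
    (Set.union_subset (fun c hc => Subgroup.le_normalizer hc) hgQ)
  have hgU : gens ⊆ A.U3 := by
    rintro r (⟨v, rfl⟩ | rfl | rfl)
    · exact P3gl_mem_U3 A h3 v
    · exact fourierGL_mem_U3 A hω
    · exact quadGL_mem_U3 A hω
  have hDN : D ∉ N3 ω := by
    intro hDN
    obtain ⟨w, c, hw⟩ := hDN.1 (1, 0)
    have e10 := congrFun (congrFun hw 1) 0
    have e21 := congrFun (congrFun hw 2) 1
    simp only [hD, dMat, Matrix.diagonal_mul, Matrix.mul_diagonal, Matrix.smul_apply, P3_apply,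
      smul_eq_mul, zero_mul, ph_zero, show ((1 : ZMod 3) = 2) = False by decide,
      show ((0 : ZMod 3) = 2) = False by decide, show ((2 : ZMod 3) = 1 + 1) = True by decide,
      show ((1 : ZMod 3) = 0 + 1) = True by decide, if_true, if_false, mul_one, one_mul] at e10 e21
    by_cases hw1 : (1 : ZMod 3) = 0 + w.1
    · have hw21 : (2 : ZMod 3) = 1 + w.1 := by rw [zero_add] at hw1; rw [← hw1]; rfl
      rw [if_pos hw1] at e10
      rw [if_pos hw21] at e21
      simp at e10
      have hc : c = 1 := e10.symm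
      rw [hc, one_mul] at e21
      have hm : ph ω w.2 = -1 := by linear_combination e21
      have h' := ph_pow_three h3 w.2
      rw [hm] at h'
      exact h2 (by linear_combination -h')
    · rw [if_neg hw1] at e10
      simp at e10
  have hS3 : A.U3 ⊓ Cfsg.Geo.specialLinear (ZMod 3) F ≤ H := by
    refine (A.dich H ((Subgroup.closure_le _).mpr (Set.union_subset hG3U hgU)) ?_ ?_ ?_).resolve_left
      fun h => hDN (h (Subgroup.subset_closure (Or.inl hDG)))
    · rintro g ⟨v, hv⟩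
      exact Subgroup.subset_closure (Or.inr (Or.inl ⟨v, Units.ext hv.symm⟩))
    · intro g hg
      exact Subgroup.subset_closure (Or.inr (Or.inr (Or.inl (Units.ext hg))))
    · intro g hg
      exact Subgroup.subset_closure (Or.inr (Or.inr (Or.inr (Units.ext hg))))
  have hG3 : A.U3 ⊓ Cfsg.Geo.specialLinear (ZMod 3) F ≤ G3 := by
    refine A.normal_le G3 hG3U (fun h hh k hk =>
      ((Subgroup.mem_normalizer_iff).mp (hHQ (hS3 hh)) k).mp hk) ⟨D, hDG, ?_⟩
    rw [Cfsg.Geo.mem_scalars_iff]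
    rintro ⟨c, hc⟩
    have e0 := congrFun (congrFun hc 0) 0
    have e2 := congrFun (congrFun hc 2) 2
    simp [hD, dMat, show (0 : ZMod 3) ≠ 2 by decide] at e0 e2
    exact h2 (by linear_combination e2 - e0)
  obtain ⟨l, hl0, hl, hlU⟩ := A.torus
  set lv : ZMod 3 → F := fun j => if j = 0 then l else if j = 1 then l⁻¹ else 1 with hlv
  have hlv0 : ∀ j, lv j * (lv j)⁻¹ = 1 := fun j => mul_inv_cancel₀ (by
    rcases zmod_cases j with rfl | rfl | rfl <;> simp +decide [hlv, hl0])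
  set C : GL (ZMod 3) F := ⟨Matrix.diagonal lv, Matrix.diagonal fun j => (lv j)⁻¹,
    by simp [hlv0], by simp [mul_comm (lv _)⁻¹, hlv0]⟩ with hC
  have hCG : C ∈ G3 := hG3 ⟨hlU C rfl, mem_specialLinear.mpr (by
    show (Matrix.diagonal lv).det = 1
    rw [Matrix.det_diagonal, show (∏ j : ZMod 3, lv j) = lv 0 * lv 1 * lv 2 from Fin.prod_univ_three _]
    simp +decide [hlv, hl0])⟩
  obtain ⟨g, hg, hgC⟩ := hCG
  have hswM : pmHom swapPerm ∈ M := mem_of_norm hS (pm_swap_mem A hω)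
  set g' : GL J9 F := pmHom swapPerm * g * (pmHom swapPerm)⁻¹ with hg'
  have hg'M : g' ∈ M := mul_mem (mul_mem hswM hg) (inv_mem hswM)
  have hg'v : (g' : Matrix J9 J9 F) = bd fun i => pPlus + lv i • pMinus := by
    rw [hg', Units.val_mul, Units.val_mul, hgC, Units.mul_inv_eq_iff_eq_mul]
    ext ⟨i, k⟩ ⟨j, m⟩
    rw [Matrix.mul_apply, Matrix.mul_apply, Finset.sum_eq_single ((k, i) : J9),
      Finset.sum_eq_single ((m, j) : J9)]
    · show pmat swapPerm (i, k) (k, i) * iota (Matrix.diagonal lv) (k, i) (j, m) =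
        bd _ (i, k) (m, j) * pmat swapPerm (m, j) (j, m)
      have hs : pmat (F := F) swapPerm (i, k) (k, i) = pmat swapPerm (m, j) (j, m) := by
        simp [pmat, swapPerm]
      rw [hs, mul_comm (bd _ _ _)]
      congr 1
      simp only [iota, Matrix.add_apply, Matrix.kroneckerMap_apply, Matrix.diagonal_apply, bd_apply,
        Matrix.smul_apply, smul_eq_mul, Matrix.one_apply]
      by_cases h : i = m <;> simp [h, mul_comm]
    · intro x _ hx
      have : x ≠ swapPerm (j, m) := hx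
      have h0 : pmat (F := F) swapPerm x (j, m) = 0 := by simp [pmat, this]
      exact mul_eq_zero_of_right _ h0
    · simp
    · intro x _ hx
      have : ¬ ((i, k) : J9) = swapPerm x := fun e => hx (by
        obtain ⟨x1, x2⟩ := x
        simp [swapPerm] at e
        rw [e.1, e.2])
      have h0 : pmat (F := F) swapPerm (i, k) x = 0 := by simp [pmat, this]
      exact mul_eq_zero_of_left h0 _
    · simp
  obtain ⟨a, ha, haN⟩ := blocks_mem_N3 hS hg'M (by rw [hg'v]; exact commute_bd_diag _)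
  have ha0 : (a 0 : Matrix (ZMod 3) (ZMod 3) F) = pPlus + l • pMinus := by
    have h := congrArg (fun g : GL J9 F => (g : Matrix J9 J9 F)) ha
    simp only [coe_bdHom, hg'v] at h
    rw [← congrFun (Blk.bd_injective h) 0]
    simp [hlv]
  obtain ⟨w, c, hw⟩ := (haN 0).1 (1, 0)
  rw [ha0] at hw
  have hcol : ∀ i : ZMod 3, (pPlus + l • pMinus : Matrix (ZMod 3) (ZMod 3) F) i 1 =
      c * (if i = w.1 then 1 else 0) := by
    intro i
    have h := congrFun (congrFun hw i) 0
    rw [Matrix.mul_apply, Finset.sum_eq_single (1 : ZMod 3) (fun x _ hx => by simp [P3_apply, hx]) (by simp),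
      Matrix.smul_apply, Matrix.mul_apply, Finset.sum_eq_single (0 : ZMod 3) (fun x _ hx => by
        rcases zmod_cases x with rfl | rfl | rfl <;> simp +decide [pPlus, pMinus] at hx ⊢) (by simp)] at h
    simpa +decide [P3_apply, pPlus, pMinus, ← two_mul, h2, add_div] using h
  have h1 := hcol 1
  have h2' := hcol 2
  simp +decide [pPlus, pMinus] at h1 h2'
  have hl1 : l ≠ 1 ∧ l ≠ -1 := ⟨fun e => hl (by rw [e, one_mul]), fun e => hl (by rw [e]; ring)⟩
  rcases zmod_cases w.1 with e | e | e <;> simp +decide [e] at h1 h2' <;> field_simp at h1 h2'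
  · exact hl1.2 (by linear_combination h1)
  · exact hl1.1 (by linear_combination -h2')
  · exact hl1.2 (by linear_combination h1)

lemma ne_of_moved (hω : IsPrimitiveRoot ω 3) {f a : GL (ZMod 3) F} (hf : f ∈ N3 ω) {v : V3}
    {c : F} (hc : c ≠ 0) (ha : (a : Matrix (ZMod 3) (ZMod 3) F) = c • P3 ω v)
    (hv : act (P3 ω) f v ≠ v) (k : F) :
    ((a * f * a⁻¹ * f⁻¹ : GL (ZMod 3) F) : Matrix (ZMod 3) (ZMod 3) F) ≠ k • 1 := by
  intro h
  have h' : (a : Matrix (ZMod 3) (ZMod 3) F) * f = k • ((f : Matrix (ZMod 3) (ZMod 3) F) * a) := by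
    have e : (a * f * a⁻¹ * f⁻¹) * (f * a) = a * f := by group
    have e' := congrArg (fun u : GL (ZMod 3) F => (u : Matrix (ZMod 3) (ZMod 3) F)) e
    simp only [Units.val_mul] at e' h
    rw [← e', h, Matrix.smul_mul, one_mul]
  obtain ⟨d, hd⟩ := act_spec hf v
  rw [ha, Matrix.smul_mul, Matrix.mul_smul, hd, smul_smul, smul_smul] at h'
  have h'' := congrArg (fun X => X * ((f⁻¹ : GL (ZMod 3) F) : Matrix (ZMod 3) (ZMod 3) F)) h'
  simp only [Matrix.smul_mul, mul_assoc, Units.mul_inv, mul_one] at h''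
  have h0 : c • P3 ω v + (-(k * c * d)) • P3 ω (act (P3 ω) f v) = 0 := by
    rw [h'', neg_smul, ← mul_assoc, add_neg_cancel]
  exact hc (li_pair (P3_li hω) (Ne.symm hv) h0)

lemma fourier_moves (hω : IsPrimitiveRoot ω 3) {v : V3} (hv : v ≠ 0) :
    act (P3 ω) (fourierGL hω) v ≠ v := by
  rw [act_fourier hω]
  revert v; decide

/-- The commutator of a scalar multiple of a Pauli matrix with the Fourier matrix. -/
lemma comm_fourier (hω : IsPrimitiveRoot ω 3) {a : GL (ZMod 3) F} {v : V3} {c : F}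
    (ha : (a : Matrix (ZMod 3) (ZMod 3) F) = c • P3 ω v) (hv : v ≠ 0) :
    ∃ (d : F) (w : V3), w ≠ 0 ∧
      ((a * fourierGL hω * a⁻¹ * (fourierGL hω)⁻¹ : GL (ZMod 3) F) : Matrix (ZMod 3) (ZMod 3) F) =
        d • P3 ω w := by
  have hc : c ≠ 0 := fun h => a.isUnit.ne_zero (by rw [ha, h, zero_smul])
  have hf := fourierGL_mem_N3 hω
  have haN : a ∈ N3 ω := (mem_N3_iff hω).mpr fun u => ⟨u, ph ω (B3 v u), by
    rw [ha, Matrix.smul_mul, Matrix.mul_smul, P3_comm hω.pow_eq_one v u, smul_smul, smul_smul, mul_comm]⟩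
  have hact : ∀ u, act (P3 ω) a u = u := fun u => act3_eq hω haN (c := ph ω (B3 v u)) (by
    rw [ha, Matrix.smul_mul, Matrix.mul_smul, P3_comm hω.pow_eq_one v u, smul_smul, smul_smul, mul_comm])
  have hacti : ∀ u, act (P3 ω) a⁻¹ u = u := fun u => by
    conv_lhs => rw [← hact u]
    rw [← act_mul (P3_li hω) (inv_mem haN) haN, inv_mul_cancel, act3_one hω]
  obtain ⟨d, w, -, hw⟩ := eq_P3_of_act_id hω (mul_mem (mul_mem (mul_mem haN hf) (inv_mem haN)) (inv_mem hf))
    (fun u => by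
      rw [act_mul (P3_li hω) (mul_mem (mul_mem haN hf) (inv_mem haN)) (inv_mem hf),
        act_mul (P3_li hω) (mul_mem haN hf) (inv_mem haN), hacti, act_mul (P3_li hω) haN hf, hact,
        ← act_mul (P3_li hω) hf (inv_mem hf), mul_inv_cancel, act3_one hω])
  refine ⟨d, w, fun h => ?_, hw⟩
  rw [h, P3_zero] at hw
  exact ne_of_moved hω hf hc ha (fourier_moves hω hv) d hw

lemma commute_scalar {a b : GL (ZMod 3) F} {c : F} (ha : (a : Matrix (ZMod 3) (ZMod 3) F) = c • 1) :
    a * b * a⁻¹ * b⁻¹ = 1 := by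
  have h : a * b = b * a := Units.ext (by simp [ha])
  rw [h]; group

/-- The element with one block equal to the three-cycle is not in `M`. -/
lemma not_cycle_mem (hS : Setup A M)
    (h : bdHom (fun i => if i = 2 then P3gl hS.root.pow_eq_one (1, 0) else 1) ∈ M) : False := by
  have h3 := hS.root.pow_eq_one
  have hω := hS.root
  rw [← pm_cycle h3] at h
  refine not_pi_mem hS ?_
  have hs : pmHom shiftPerm ∈ M := pm_shift h3 ▸ mem_of_norm hS (T9gl_mem A hω _)
  have hw : pmHom swapPerm ∈ M := mem_of_norm hS (pm_swap_mem A hω)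
  have hh : pmHom shearPerm ∈ M := mem_of_norm hS (pm_shear_mem A hω)
  have hn : pmHom ((Equiv.neg (ZMod 3)).prodCongr (Equiv.refl (ZMod 3))) ∈ M :=
    mem_of_norm hS (tA_mem A hω)
  rw [piPerm_eq]
  simp only [map_mul]
  repeat' apply mul_mem
  all_goals assumption

/-- An element with two scalar blocks has all blocks scalar. -/
lemma not_single_mem (hS : Setup A M) {a : ZMod 3 → GL (ZMod 3) F} (hg : bdHom a ∈ M)
    {c0 c1 c2 : F} {v : V3} (h0 : (a 0 : Matrix (ZMod 3) (ZMod 3) F) = c0 • 1)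
    (h1 : (a 1 : Matrix (ZMod 3) (ZMod 3) F) = c1 • 1)
    (h2 : (a 2 : Matrix (ZMod 3) (ZMod 3) F) = c2 • P3 ω v) : v = 0 := by
  by_contra hv
  have h3 := hS.root.pow_eq_one
  have hω := hS.root
  have hF : kronHom (1, fourierGL hω) ∈ M := mem_of_norm hS (kron_fourier_right_mem A hω)
  have hk1 := mul_mem (mul_mem (mul_mem hg hF) (inv_mem hg)) (inv_mem hF)
  rw [kron_right_eq, ← map_inv, ← map_inv, ← map_mul, ← map_mul, ← map_mul] at hk1
  set k : ZMod 3 → GL (ZMod 3) F := a * (fun _ => fourierGL hω) * a⁻¹ * (fun _ => fourierGL hω)⁻¹ with hk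
  obtain ⟨d, w, hw0, hw⟩ := comm_fourier hω h2 hv
  have k0 : k 0 = 1 := commute_scalar h0
  have k1 : k 1 = 1 := commute_scalar h1
  have k2 : (k 2 : Matrix (ZMod 3) (ZMod 3) F) = d • P3 ω w := hw
  obtain ⟨r, hr⟩ : ∃ r, B3 w r = 1 := by
    revert hw0; clear k2 hw; revert w; decide
  have hP : kronHom (1, P3gl h3 r) ∈ M := by
    have e : T9gl h3 (0, r) = kronHom (1, P3gl h3 r) := Units.ext (by simp [T9])
    exact e ▸ mem_of_norm hS (T9gl_mem A hω _)
  have hk2 := mul_mem (mul_mem (mul_mem hk1 hP) (inv_mem hk1)) (inv_mem hP)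
  rw [kron_right_eq, ← map_inv, ← map_inv, ← map_mul, ← map_mul, ← map_mul] at hk2
  set z : ZMod 3 → GL (ZMod 3) F := k * (fun _ => P3gl h3 r) * k⁻¹ * (fun _ => P3gl h3 r)⁻¹ with hz
  have z0 : z 0 = 1 := by simp [hz, k0]
  have z1 : z 1 = 1 := by simp [hz, k1]
  have z2 : (z 2 : Matrix (ZMod 3) (ZMod 3) F) = ph ω 1 • 1 := by
    have e : k 2 * P3gl h3 r = z 2 * (P3gl h3 r * k 2) := by simp [hz, mul_assoc]
    have e' := congrArg (fun u : GL (ZMod 3) F => (u : Matrix (ZMod 3) (ZMod 3) F)) e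
    simp only [Units.val_mul, coe_P3gl, k2, Matrix.smul_mul, Matrix.mul_smul, P3_comm h3 w r, hr,
      smul_smul] at e'
    have hu : IsUnit (d • (P3 ω r * P3 ω w)) := by
      rw [← Matrix.mul_smul, ← k2]
      exact (P3gl h3 r).isUnit.mul (k 2).isUnit
    apply hu.mul_right_cancel
    rw [Matrix.mul_smul, ← e', Matrix.smul_mul, one_mul, smul_smul, mul_comm]
  -- correct the phases
  have fix : ∀ (x : ZMod 3 → GL (ZMod 3) F) (d : F) (w : V3), bdHom x ∈ M → x 0 = 1 → x 1 = 1 →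
      (x 2 : Matrix (ZMod 3) (ZMod 3) F) = d • P3 ω w →
      bdHom (fun i => if i = 2 then P3gl h3 w else 1) ∈ M := by
    intro x d w hx x0 x1 x2
    have hdet := det_eq_one hS hx
    rw [coe_bdHom, det_bd, show (∏ i : ZMod 3, Matrix.det (x i : Matrix (ZMod 3) (ZMod 3) F)) =
      Matrix.det (x 0 : Matrix (ZMod 3) (ZMod 3) F) * Matrix.det (x 1 : Matrix (ZMod 3) (ZMod 3) F) *
        Matrix.det (x 2 : Matrix (ZMod 3) (ZMod 3) F) from Fin.prod_univ_three _, x0, x1, x2] at hdet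
    simp [det_P3 hω] at hdet
    obtain ⟨m, rfl⟩ := exists_ph_eq hω hdet
    have h := mul_mem (pow_mem hk2 (-m).val) hx
    rw [← map_pow, ← map_mul] at h
    convert h using 2
    funext i
    rcases zmod_cases i with rfl | rfl | rfl
    · simp +decide [z0, x0]
    · simp +decide [z1, x1]
    · rw [if_pos rfl]
      refine Units.ext ?_
      simp only [Pi.mul_apply, Pi.pow_apply, Units.val_mul, Units.val_pow_eq_pow_val, z2, x2, smul_pow,
        one_pow, Matrix.smul_mul, Matrix.mul_smul, one_mul, smul_smul, coe_P3gl]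
      have e : ph ω 1 ^ (-m).val = ph ω (-m) := by rw [ph_one]; rfl
      rw [e, ← ph_add h3]
      simp
  have hw2 := fix k d w hk1 k0 k1 k2
  -- move to the standard three-cycle
  obtain ⟨q, hq, hqw⟩ := exists_word_to hω hw0
  have hqM : kronHom (1, q) ∈ M := mem_of_norm hS (kron_word_right_mem A hω hq)
  have hx := mul_mem (mul_mem (inv_mem hqM) hw2) hqM
  rw [kron_right_eq, ← map_inv, ← map_mul, ← map_mul] at hx
  have hqN := wordGroup_le_N3 hω hq
  obtain ⟨e, he⟩ := act_spec hqN ((1, 0) : V3)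
  rw [hqw] at he
  refine not_cycle_mem hS (fix _ e⁻¹ (1, 0) hx (by simp +decide) (by simp +decide) ?_)
  have he0 := coeff_ne_zero hω he
  simp only [Pi.mul_apply, Pi.inv_apply, if_pos, Units.val_mul, coe_P3gl]
  have e1 : P3 ω w * (q : Matrix (ZMod 3) (ZMod 3) F) =
      e⁻¹ • ((q : Matrix (ZMod 3) (ZMod 3) F) * P3 ω (1, 0)) := by
    rw [he, smul_smul, inv_mul_cancel₀ he0, one_smul]
  rw [mul_assoc, e1, Matrix.mul_smul, ← mul_assoc, Units.inv_mul, one_mul]

/-- The three Pauli indices of a block diagonal element sum to zero. -/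
theorem sum_eq_zero (hS : Setup A M) {a : ZMod 3 → GL (ZMod 3) F} (hg : bdHom a ∈ M) {c : ZMod 3 → F}
    {u : ZMod 3 → V3} (ha : ∀ i, (a i : Matrix (ZMod 3) (ZMod 3) F) = c i • P3 ω (u i)) :
    u 0 + u 1 + u 2 = 0 := by
  have h3 := hS.root.pow_eq_one
  have hω := hS.root
  set w : V3 := -u 0
  set b : V3 := u 0 - u 1
  have hh : hShear h3 b ∈ M := mem_of_norm hS (hShear_mem A hω b)
  have hP : kronHom (1, P3gl h3 w) ∈ M := by
    have e : T9gl h3 (0, w) = kronHom (1, P3gl h3 w) := Units.ext (by simp [T9])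
    exact e ▸ mem_of_norm hS (T9gl_mem A hω _)
  have hg' := mul_mem (mul_mem hg hh) hP
  rw [kron_right_eq, hShear, ← map_mul, ← map_mul] at hg'
  have hval : ∀ i, ∃ d : F, ((a i * P3gl h3 (i * b.1, i * b.2) * P3gl h3 w : GL (ZMod 3) F) :
      Matrix (ZMod 3) (ZMod 3) F) = d • P3 ω (u i + (i * b.1, i * b.2) + w) := fun i =>
    ⟨c i * ph ω ((u i).2 * (i * b.1)) * ph ω ((u i + (i * b.1, i * b.2)).2 * w.1), by
      simp only [Units.val_mul, coe_P3gl]
      rw [ha i, Matrix.smul_mul, P3_mul h3, smul_smul, Matrix.smul_mul, P3_mul h3, smul_smul]⟩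
  obtain ⟨d0, e0⟩ := hval 0
  obtain ⟨d1, e1⟩ := hval 1
  obtain ⟨d2, e2⟩ := hval 2
  have u0 : u 0 + ((0 : ZMod 3) * b.1, (0 : ZMod 3) * b.2) + w = 0 := by simp [w]
  have u1 : u 1 + ((1 : ZMod 3) * b.1, (1 : ZMod 3) * b.2) + w = 0 := by simp [w, b, Prod.ext_iff]
  rw [u0, P3_zero] at e0
  rw [u1, P3_zero] at e1
  have h := not_single_mem hS hg' e0 e1 e2
  have hk : ∀ x y z : ZMod 3, z + 2 * (x - y) + -x = x + y + z := by decide
  rw [← h]
  exact Prod.ext (hk _ _ _).symm (hk _ _ _).symm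

/-- The blocks of an element of `M` act in the same way on the Pauli indices. -/
lemma blocks_act_eq (hS : Setup A M) {a : ZMod 3 → GL (ZMod 3) F} (hg : bdHom a ∈ M)
    (haN : ∀ i, a i ∈ N3 ω) (b : V3) : act (P3 ω) (a 1) b = act (P3 ω) (a 2) b := by
  have h3 := hS.root.pow_eq_one
  have hω := hS.root
  have hh : hShear h3 b ∈ M := mem_of_norm hS (hShear_mem A hω b)
  have hc := mul_mem (mul_mem (mul_mem hh hg) (inv_mem hh)) (inv_mem hg)
  rw [hShear, ← map_inv, ← map_inv, ← map_mul, ← map_mul, ← map_mul] at hc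
  have hval : ∀ (x : GL (ZMod 3) F), x ∈ N3 ω → ∀ v : V3, ∃ d : F,
      ((P3gl h3 v * x * (P3gl h3 v)⁻¹ * x⁻¹ : GL (ZMod 3) F) : Matrix (ZMod 3) (ZMod 3) F) =
        d • P3 ω (v + act (P3 ω) x (-v)) := by
    intro x hx v
    obtain ⟨k, hk⟩ := act_spec hx (-v)
    have hv2 : v + v = -v := by
      have : ∀ y : ZMod 3, y + y = -y := by decide
      exact Prod.ext (this _) (this _)
    refine ⟨ph ω (v.2 * v.1) * k * ph ω (v.2 * (act (P3 ω) x (-v)).1), ?_⟩
    have hinv : (((P3gl h3 v)⁻¹ : GL (ZMod 3) F) : Matrix (ZMod 3) (ZMod 3) F) =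
        ph ω (v.2 * v.1) • P3 ω (-v) := by
      change P3 ω v * P3 ω v = _
      rw [P3_mul h3, hv2]
    simp only [Units.val_mul, coe_P3gl, hinv, Matrix.mul_smul, Matrix.smul_mul, mul_assoc]
    rw [← mul_assoc (x : Matrix (ZMod 3) (ZMod 3) F), hk, Matrix.smul_mul, mul_assoc, Units.mul_inv,
      mul_one, Matrix.mul_smul, P3_mul h3, smul_smul, smul_smul]
    congr 1; ring
  choose d hd using fun i => hval (a i) (haN i) (i * b.1, i * b.2)
  have h := sum_eq_zero hS hc hd
  have e0 : ((0 : ZMod 3) * b.1, (0 : ZMod 3) * b.2) = (0 : V3) := by simp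
  have e1 : ((1 : ZMod 3) * b.1, (1 : ZMod 3) * b.2) = b := by simp
  have e2 : ((2 : ZMod 3) * b.1, (2 : ZMod 3) * b.2) = -b := by
    have : ∀ y : ZMod 3, 2 * y = -y := by decide
    simp [this]; rfl
  have hneg : act (P3 ω) (a 1) (-b) = -act (P3 ω) (a 1) b := by
    refine eq_neg_of_add_eq_zero_left ?_
    rw [← act3_add hω (haN 1), neg_add_cancel, act3_zero hω (haN 1)]
  simp only [e0, e1, e2, neg_zero, act3_zero hω (haN 0), add_zero, zero_add, neg_neg, hneg] at h
  have h' : act (P3 ω) (a 2) b - act (P3 ω) (a 1) b = 0 := by rw [← h]; abel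
  exact (sub_eq_zero.mp h').symm

/-- Elements commuting with the diagonal Pauli matrix of the first factor. -/
theorem centralizer_base (hS : Setup A M) {g : GL J9 F} (hg : g ∈ M)
    (hc : Commute (g : Matrix J9 J9 F) (T9 ω (((0 : ZMod 3), (1 : ZMod 3)), (0 : V3)))) : g ∈ N9 ω := by
  have h3 := hS.root.pow_eq_one
  have hω := hS.root
  obtain ⟨a, rfl, haN⟩ := blocks_mem_N3 hS hg hc
  -- shift the blocks
  have hT : T9gl h3 ((1, 0), 0) ∈ M := mem_of_norm hS (T9gl_mem A hω _)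
  have hsh : bdHom (fun i => a (i - 1)) ∈ M := by
    have e : bdHom (fun i => a (i - 1)) = T9gl h3 ((1, 0), 0) * bdHom a * (T9gl h3 ((1, 0), 0))⁻¹ := by
      rw [eq_mul_inv_iff_mul_eq]
      exact Units.ext (by simp [Blk.shift_bd])
    rw [e]
    exact mul_mem (mul_mem hT hg) (inv_mem hT)
  have s12 : ∀ b, act (P3 ω) (a 1) b = act (P3 ω) (a 2) b := blocks_act_eq hS hg haN
  have s01 : ∀ b, act (P3 ω) (a 0) b = act (P3 ω) (a 1) b := fun b =>
    blocks_act_eq hS hsh (fun i => haN _) b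
  obtain ⟨r, hr, hrid⟩ := exists_word hω (haN 0)
  have hrN := wordGroup_le_N3 hω hr
  have hrM : kronHom (1, r) ∈ M := mem_of_norm hS (kron_word_right_mem A hω hr)
  have hid : ∀ i b, act (P3 ω) (r * a i) b = b := by
    intro i b
    rw [act_mul (P3_li hω) hrN (haN i)]
    conv_rhs => rw [← hrid b, act_mul (P3_li hω) hrN (haN 0)]
    congr 1
    rcases zmod_cases i with rfl | rfl | rfl
    · rfl
    · exact (s01 b).symm
    · rw [← s12, ← s01]
  choose c v hc0 hcv using fun i => eq_P3_of_act_id hω (mul_mem hrN (haN i)) (hid i)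
  have hg1 : bdHom (fun i => r * a i) ∈ M := by
    have := mul_mem hrM hg
    rwa [kron_right_eq, ← map_mul] at this
  have hsum := sum_eq_zero hS hg1 hcv
  set b : V3 := v 1 - v 0
  have hh := mem_of_norm hS (hShear_mem A hω (-b))
  have hP : kronHom (1, P3gl h3 (-v 0)) ∈ M := by
    have e : T9gl h3 (0, -v 0) = kronHom (1, P3gl h3 (-v 0)) := Units.ext (by simp [T9])
    exact e ▸ mem_of_norm hS (T9gl_mem A hω _)
  have hg2 : bdHom (fun i => r * a i * P3gl h3 (i * (-b).1, i * (-b).2) * P3gl h3 (-v 0)) ∈ M := by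
    have := mul_mem (mul_mem hg1 hh) hP
    rw [kron_right_eq, hShear, ← map_mul, ← map_mul] at this
    exact this
  set a2 : ZMod 3 → GL (ZMod 3) F :=
    fun i => r * a i * P3gl h3 (i * (-b).1, i * (-b).2) * P3gl h3 (-v 0) with ha2
  have hsc : ∀ i, ∃ e : F, (a2 i : Matrix (ZMod 3) (ZMod 3) F) = e • 1 := by
    intro i
    refine ⟨c i * ph ω ((v i).2 * (i * (-b).1)) *
      ph ω ((v i + (i * (-b).1, i * (-b).2)).2 * (-v 0).1), ?_⟩
    have hz : v i + (i * (-b).1, i * (-b).2) + -v 0 = 0 := by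
      have hk : ∀ x y : ZMod 3, x + 0 * -(y - x) + -x = 0 ∧ y + 1 * -(y - x) + -x = 0 ∧
          (-(x + y)) + 2 * -(y - x) + -x = 0 := by decide
      have hv2 : v 2 = -(v 0 + v 1) := eq_neg_of_add_eq_zero_right hsum
      rcases zmod_cases i with rfl | rfl | rfl
      · exact Prod.ext (hk _ (v 1).1).1 (hk _ (v 1).2).1
      · exact Prod.ext (hk _ _).2.1 (hk _ _).2.1
      · rw [hv2]; exact Prod.ext (hk _ _).2.2 (hk _ _).2.2
    have e := Units.val_mul (r * a i * P3gl h3 (i * (-b).1, i * (-b).2)) (P3gl h3 (-v 0))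
    rw [ha2]
    simp only [Units.val_mul, coe_P3gl] at e hcv ⊢
    rw [hcv i, Matrix.smul_mul, P3_mul h3, smul_smul, Matrix.smul_mul, P3_mul h3, smul_smul, hz, P3_zero]
  choose e he using hsc
  -- the same element on the other factor
  have hsw : pmHom swapPerm ∈ M := mem_of_norm hS (pm_swap_mem A hω)
  have he0 : ∀ i, e i ≠ 0 := fun i h => (a2 i).isUnit.ne_zero (by rw [he, h, zero_smul])
  set D : GL (ZMod 3) F := ⟨Matrix.diagonal e, Matrix.diagonal fun i => (e i)⁻¹,
    by simp [mul_inv_cancel₀ (he0 _)], by simp [inv_mul_cancel₀ (he0 _)]⟩ with hD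
  have hval : bdHom a2 = kronHom (D, 1) := by
    refine Units.ext ?_
    rw [coe_bdHom, coe_kronHom, Units.val_one]
    ext ⟨i, k⟩ ⟨j, l⟩
    by_cases h : i = j
    · subst h; simp [bd_apply, he, hD]
    · simp [bd_apply, h, hD]
  have hswap : pmHom swapPerm * kronHom (D, 1) * (pmHom swapPerm)⁻¹ = kronHom (1, D) := by
    rw [mul_inv_eq_iff_eq_mul]
    refine Units.ext ?_
    rw [Units.val_mul, Units.val_mul, coe_kronHom, coe_kronHom]
    ext ⟨i, k⟩ ⟨j, l⟩
    rw [Matrix.mul_apply, Matrix.mul_apply, Finset.sum_eq_single ((k, i) : J9),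
      Finset.sum_eq_single ((l, j) : J9)]
    · show pmat swapPerm (i, k) (k, i) * _ = _ * pmat swapPerm (l, j) (j, l)
      have hs : pmat (F := F) swapPerm (i, k) (k, i) = pmat swapPerm (l, j) (j, l) := by
        simp [pmat, swapPerm]
      rw [hs, mul_comm]
      congr 1
      simp [Matrix.one_apply, mul_comm]
    · intro x _ hx
      have : x ≠ swapPerm (j, l) := hx
      have h0 : pmat (F := F) swapPerm x (j, l) = 0 := by simp [pmat, this]
      exact mul_eq_zero_of_right _ h0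
    · simp
    · intro x _ hx
      have : ¬ ((i, k) : J9) = swapPerm x := fun e => hx (by
        obtain ⟨x1, x2⟩ := x
        simp [swapPerm] at e
        rw [e.1, e.2])
      have h0 : pmat (F := F) swapPerm (i, k) x = 0 := by simp [pmat, this]
      exact mul_eq_zero_of_left h0 _
    · simp
  have hDM : kronHom (1, D) ∈ M := hswap ▸ mul_mem (mul_mem hsw (hval ▸ hg2)) (inv_mem hsw)
  obtain ⟨a3, ha3, ha3N⟩ := blocks_mem_N3 hS hDM (by rw [coe_kron_right]; exact commute_bd_diag _)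
  rw [kron_right_eq] at ha3
  have hDN : D ∈ N3 ω := by
    have := congrFun (bdHom_injective ha3) 0
    exact this ▸ ha3N 0
  have hfin : bdHom a2 ∈ N9 ω := hval ▸ kron_mem_N9 hω hDN (one_mem _)
  have hall : kronHom (1, r) * bdHom a * hShear h3 (-b) * kronHom (1, P3gl h3 (-v 0)) ∈ N9 ω := by
    rw [kron_right_eq, kron_right_eq, hShear, ← map_mul, ← map_mul, ← map_mul]
    exact hfin
  rw [Subgroup.mul_mem_cancel_right _ (kron_mem_N9 hω (one_mem _) (P3gl_mem_N3 hω _)),
    Subgroup.mul_mem_cancel_right _ (hShear_mem_N9 hω _),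
    Subgroup.mul_mem_cancel_left _ (kron_mem_N9 hω (one_mem _) hrN)] at hall
  exact hall

end Exc

variable {F : Type*} [Field F] {ω : F} {A : Amb ω} {M : Subgroup (GL J9 F)}

/-- In a proper overgroup of the Pauli normaliser the centralisers of non-scalar Pauli matrices
normalise. -/
theorem centralizer_T9_le (hS : Setup A M) {v : V9} (hv : v ≠ 0) {g : GL J9 F} (hg : g ∈ M)
    (hc : Commute (g : Matrix J9 J9 F) (T9 ω v)) : g ∈ N9 ω := by
  have hω := hS.root
  have he : (((0 : ZMod 3), (1 : ZMod 3)), (0 : V3)) ≠ (0 : V9) := by decide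
  obtain ⟨n, hn, c, hc0, hnc⟩ := exists_conj A hω hv he
  set n' := (n : Matrix J9 J9 F)
  have hT : T9 ω (((0 : ZMod 3), (1 : ZMod 3)), (0 : V3)) =
      c⁻¹ • (n' * T9 ω v * ((n⁻¹ : GL J9 F) : Matrix J9 J9 F)) := by
    rw [hnc, Matrix.smul_mul, mul_assoc, Units.mul_inv, mul_one, smul_smul, inv_mul_cancel₀ hc0, one_smul]
  have hnM := Exc.mem_of_norm hS hn
  have h := Exc.centralizer_base hS (mul_mem (mul_mem hnM hg) (inv_mem hnM)) (by
    rw [hT]
    refine Commute.smul_right ?_ _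
    simp only [Commute, SemiconjBy, Units.val_mul, mul_assoc]
    rw [← mul_assoc ((n⁻¹ : GL J9 F) : Matrix J9 J9 F) n', Units.inv_mul, one_mul,
      ← mul_assoc (g : Matrix J9 J9 F), hc.eq, mul_assoc]
    rw [← mul_assoc ((n⁻¹ : GL J9 F) : Matrix J9 J9 F) n', Units.inv_mul, one_mul])
  rwa [Subgroup.mul_mem_cancel_right _ (inv_mem hn.1), Subgroup.mul_mem_cancel_left _ hn.1] at h

end CfsgLib.Geometric.SLNine
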