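import Cfsg.Agent.Lib.Geometric.SLNine.FrameGroup

/-!
Maximality of the normaliser of an extraspecial group of order `3⁵` in `SL₉(p)`, given maximality of
the normaliser of the standard Pauli group.
-/

set_option autoImplicit false
set_option linter.style.haveILetI false

namespace CfsgLib.Geometric.SLNine

open Cfsg.Geo Matrix
open scoped Matrix

namespace Frame

variable {F : Type*} [Field F] {ω : F}

lemma mul_T9_entry (M : Matrix J9 J9 F) (v : V9) (p q : J9) :
    (M * T9 ω v) p q = M p (q.1 + v.1.1, q.2 + v.2.1) * (ph ω (v.1.2 * q.1) * ph ω (v.2.2 * q.2)) := by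
  rw [Matrix.mul_apply, Finset.sum_eq_single (q.1 + v.1.1, q.2 + v.2.1)]
  · rw [T9_apply, if_pos rfl]
  · intro x _ hx
    rw [T9_apply, if_neg hx, mul_zero]
  · simp

lemma T9_mul_entry (M : Matrix J9 J9 F) (v : V9) (p q : J9) :
    (T9 ω v * M) p q =
      ph ω (v.1.2 * (p.1 - v.1.1)) * ph ω (v.2.2 * (p.2 - v.2.1)) * M (p.1 - v.1.1, p.2 - v.2.1) q := by
  rw [Matrix.mul_apply, Finset.sum_eq_single (p.1 - v.1.1, p.2 - v.2.1)]
  · rw [T9_apply, if_pos]
    exact Prod.ext (by simp) (by simp)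
  · intro x _ hx
    rw [T9_apply, if_neg, zero_mul]
    rintro rfl
    exact hx (Prod.ext (by simp) (by simp))
  · simp

/-- An elementary transvection of determinant one lies outside the normaliser. -/
theorem exists_notMem_N9 (hω : IsPrimitiveRoot ω 3) :
    ∃ g ∈ specialLinear J9 F, g ∉ N9 ω := by
  set t : Matrix J9 J9 F := Matrix.transvection ((1, 0) : J9) (0, 0) 1 with ht
  have hdet : t.det = 1 := Matrix.det_transvection_of_ne _ _ (by decide) _
  let g : GL J9 F := Matrix.GeneralLinearGroup.mkOfDetNeZero t (by rw [hdet]; exact one_ne_zero)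
  refine ⟨g, ?_, fun hg => ?_⟩
  · rw [specialLinear, MonoidHom.mem_ker]
    apply Units.ext
    rw [Matrix.GeneralLinearGroup.val_det_apply, Units.val_one]
    exact hdet
  obtain ⟨w, c, hw⟩ := hg.1 ((0, 1), (0, 0))
  change t * _ = _ at hw
  have E : ∀ p q : J9, t p q * ph ω q.1 =
      c * (ph ω (w.1.2 * (p.1 - w.1.1)) * ph ω (w.2.2 * (p.2 - w.2.1)) *
        t (p.1 - w.1.1, p.2 - w.2.1) q) := by
    intro p q
    have := congrFun (congrFun hw p) q
    rw [Matrix.smul_apply, smul_eq_mul] at this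
    change (t * T9 ω ((0, 1), (0, 0))) p q = c * (T9 ω w * t) p q at this
    rw [mul_T9_entry, T9_mul_entry] at this
    simpa [ph0] using this
  have tval : ∀ p : J9, t p (0, 0) = if p = (0, 0) ∨ p = (1, 0) then 1 else 0 := by
    intro p
    by_cases h0 : p = (0, 0)
    · subst h0; simp [ht, Matrix.transvection, Matrix.single]
    · by_cases h1 : p = (1, 0)
      · subst h1; simp [ht, Matrix.transvection, Matrix.single]
      · simp [ht, Matrix.transvection, Matrix.single, h0, h1, Ne.symm h1]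
  have t11 : t (1, 0) (1, 0) = 1 := by simp [ht, Matrix.transvection, Matrix.single]
  have e0 := E (0, 0) (0, 0)
  have e1 := E (1, 0) (0, 0)
  have e2 := E (1, 0) (1, 0)
  simp only [tval, t11, ph0, mul_one, or_true, true_or, if_true] at e0 e1 e2
  have h0 : ((0 - w.1.1, 0 - w.2.1) : J9) = (0, 0) ∨ ((0 - w.1.1, 0 - w.2.1) : J9) = (1, 0) := by
    by_contra h
    rw [if_neg h, mul_zero, mul_zero] at e0
    exact one_ne_zero e0
  have h1 : ((1 - w.1.1, 0 - w.2.1) : J9) = (0, 0) ∨ ((1 - w.1.1, 0 - w.2.1) : J9) = (1, 0) := by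
    by_contra h
    rw [if_neg h, mul_zero, mul_zero] at e1
    exact one_ne_zero e1
  have key : ∀ a b : ZMod 3,
      (((0 - a, 0 - b) : J9) = (0, 0) ∨ ((0 - a, 0 - b) : J9) = (1, 0)) →
      (((1 - a, 0 - b) : J9) = (0, 0) ∨ ((1 - a, 0 - b) : J9) = (1, 0)) → a = 0 ∧ b = 0 := by decide
  obtain ⟨ha, hb⟩ := key _ _ h0 h1
  simp only [ha, hb, sub_zero, mul_zero, ph0, one_mul, mul_one, or_true, true_or, if_true, t11] at e0 e1 e2
  rw [show ph ω (1 : ZMod 3) = ω from pow_one ω] at e2
  exact hω.ne_one (by norm_num) (e2.trans e1.symm)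

end Frame

/-- Maximality for every group of extraspecial type, from the statement for the standard one. -/
theorem isMaximalIn_of_core {F : Type*} [Field F] [Fintype F]
    (hp : ∃ p : ℕ, p.Prime ∧ Fintype.card F = p ∧ p % 3 = 1)
    (core : ∀ w : F, IsPrimitiveRoot w 3 → ∀ M : Subgroup (GL J9 F),
      N9 w ⊓ specialLinear J9 F ≤ M → M ≤ specialLinear J9 F → M ≤ N9 w ∨ specialLinear J9 F ≤ M)
    {R : Subgroup (GL (Fin 9) F)} (hR : IsLinearSymplecticTypeData 3 R) :
    IsMaximalIn (specialLinear (Fin 9) F) (subgroupNormalizer R ⊓ specialLinear (Fin 9) F) := by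
  classical
  obtain ⟨p, hp, hcard, hp3⟩ := hp
  haveI : Fact p.Prime := ⟨hp⟩
  haveI : CharP F p := charP_of_card_eq_prime hcard
  have h3 : (3 : F) ≠ 0 := by
    intro h
    have := (CharP.cast_eq_zero_iff F p 3).1 (by exact_mod_cast h)
    rcases (Nat.dvd_prime Nat.prime_three).1 this with h' | h'
    · exact hp.one_lt.ne' h'
    · omega
  obtain ⟨ω, hω⟩ : ∃ ω : F, IsPrimitiveRoot ω 3 := by
    obtain ⟨x, hx⟩ := IsCyclic.exists_generator (α := Fˣ)
    have ho : orderOf x = p - 1 := by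
      rw [orderOf_eq_card_of_forall_mem_zpowers hx, Nat.card_units, Nat.card_eq_fintype_card, hcard]
    have hx' : IsPrimitiveRoot ((x : F)) (p - 1) := by
      rw [← ho, ← orderOf_units]; exact IsPrimitiveRoot.orderOf _
    refine ⟨(x : F) ^ ((p - 1) / 3), hx'.pow (by have := hp.two_le; omega) ?_⟩
    exact (Nat.div_mul_cancel (by omega)).symm
  obtain ⟨φ, hdet, -, -, hN⟩ := Frame.exists_frame_group hω h3 (by simp) hR.symplecticType hR.absIrred
  obtain ⟨g, hg, hgN⟩ := Frame.exists_notMem_N9 hω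
  refine ⟨lt_of_le_of_ne inf_le_right fun he => hgN ?_, fun M hM1 hM2 => ?_⟩
  · have : φ g ∈ subgroupNormalizer R ⊓ specialLinear (Fin 9) F := he.symm ▸ (hdet g).2 hg
    exact (hN g).1 this.1
  · have h1 : N9 ω ⊓ specialLinear J9 F ≤ M.comap φ.toMonoidHom := fun x hx =>
      hM1 ⟨(hN x).2 hx.1, (hdet x).2 hx.2⟩
    have h2 : M.comap φ.toMonoidHom ≤ specialLinear J9 F := fun x hx => (hdet x).1 (hM2 hx)
    rcases core ω hω _ h1 h2 with h | h
    · refine Or.inl (le_antisymm (fun y hy => ⟨?_, hM2 hy⟩) hM1)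
      obtain ⟨x, rfl⟩ := φ.surjective y
      exact (hN x).2 (h hy)
    · refine Or.inr (le_antisymm hM2 fun y hy => ?_)
      obtain ⟨x, rfl⟩ := φ.surjective y
      exact h ((hdet x).1 hy)

end CfsgLib.Geometric.SLNine
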