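import Cfsg.Agent.Lib.Geometric.SLNine.Main
import Cfsg.Agent.Lib.Geometric.SLNine.AmbSL
import Cfsg.Agent.Lib.Geometric.SLNine.Transport
import Cfsg.Agent.Lib.Geometric.SLThree.IrredTv

/-!
The normaliser of an extraspecial group of order `3⁵` is maximal in `SL₉(p)`, given the statement
for the standard frame in dimension three.
-/

set_option autoImplicit false
set_option linter.style.haveILetI false

namespace CfsgLib.Geometric.SLNine

open Cfsg.Geo

variable {F : Type*} [Field F]

/-- The sixth type in `SL₉`. -/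
theorem extraspecial_isMaximalIn [Fintype F]
    (std : ∀ (o : SLThree.Omega F) (H : Subgroup (GL (Fin 3) F)), SLThree.C6Hyp o H →
      H ≤ subgroupNormalizer o.R)
    (hp : ∃ p : ℕ, p.Prime ∧ Fintype.card F = p ∧ p % 3 = 1)
    {R : Subgroup (GL (Fin 9) F)} (hR : IsLinearSymplecticTypeData 3 R) :
    IsMaximalIn (specialLinear (Fin 9) F) (subgroupNormalizer R ⊓ specialLinear (Fin 9) F) := by
  obtain ⟨p, hpp, hcard, hmod⟩ := hp
  haveI : CharP F p := by
    haveI := Fact.mk hpp
    exact charP_of_card_eq_prime hcard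
  have hne : ∀ k : ℕ, k.Prime → k ≠ p → (k : F) ≠ 0 := fun k hk hkp h =>
    hkp ((Nat.prime_dvd_prime_iff_eq hpp hk).mp ((CharP.cast_eq_zero_iff F p k).mp h)).symm
  have h2 : (2 : F) ≠ 0 := by exact_mod_cast hne 2 Nat.prime_two (by omega)
  have h5 : (5 : F) ≠ 0 := by exact_mod_cast hne 5 (by norm_num) (by omega)
  refine isMaximalIn_of_core ⟨p, hpp, hcard, hmod⟩ (fun w hw M hle hM => ?_) hR
  set A := ambSL hw h2 h5 std fun o H _ hD hP _ _ _ hnt => o.sl_le_of_not_noTv hpp hcard hD hP hnt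
  have hA : A.U9 = ⊤ := rfl
  by_cases h : specialLinear J9 F ≤ M
  · exact Or.inr h
  have hG : A.G9 = specialLinear J9 F := by rw [Amb.G9, hA, top_inf_eq]
  exact Or.inl (le_norm (A := A) ⟨hw, h2, three_ne_zero_of_root hw, hG.symm ▸ hM, hG.symm ▸ hle, hG.symm ▸ h⟩)

end CfsgLib.Geometric.SLNine
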