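import Cfsg.Agent.Lib.Geometric.SLNine.Defs
import Cfsg.Agent.Lib.BGRep.SymplecticGroup

/-!
A frame for an absolutely irreducible group of exponent three and symplectic type in dimension nine:
in a suitable basis it consists of the multiples of the standard Pauli matrices by cube roots of one.
-/

set_option autoImplicit false
set_option linter.style.haveILetI false
set_option linter.unusedSectionVars false

namespace CfsgLib.Geometric.SLNine

open Cfsg.Geo Matrix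
open scoped Matrix commutatorElement

namespace Frame

variable {F : Type*} [Field F] {ι : Type} [Fintype ι] [DecidableEq ι] {ω : F}

lemma ph0 : ph ω 0 = 1 := by simp [ph]

lemma phAdd (hω : ω ^ 3 = 1) (a b : ZMod 3) : ph ω (a + b) = ph ω a * ph ω b := by
  rw [ph, ph, ph, ZMod.val_add, ← pow_add, ← pow_eq_pow_mod _ hω]

lemma phNe (hω : IsPrimitiveRoot ω 3) (a : ZMod 3) : ph ω a ≠ 0 :=
  pow_ne_zero _ (hω.ne_zero (by norm_num))

lemma exists_ph (hω : IsPrimitiveRoot ω 3) {c : F} (hc : c ^ 3 = 1) : ∃ a, ph ω a = c := by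
  obtain ⟨i, hi, rfl⟩ := hω.eq_pow_of_pow_eq_one hc
  exact ⟨(i : ZMod 3), by rw [ph, ZMod.val_cast_of_lt hi]⟩

/-- The power with exponent modulo three. -/
def pw (X : Matrix ι ι F) (a : ZMod 3) : Matrix ι ι F := X ^ a.val

lemma pw_zero (X : Matrix ι ι F) : pw X 0 = 1 := by simp [pw]

lemma pw_one (X : Matrix ι ι F) : pw X 1 = X := by
  show X ^ 1 = X
  exact pow_one X

lemma pw_add {X : Matrix ι ι F} (h : X ^ 3 = 1) (a b : ZMod 3) : pw X (a + b) = pw X a * pw X b := by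
  rw [pw, pw, pw, ZMod.val_add, ← pow_add, ← pow_eq_pow_mod _ h]

/-- Commutation up to the scalar with exponent `a`. -/
def Cm (ω : F) (A B : Matrix ι ι F) (a : ZMod 3) : Prop := A * B = ph ω a • (B * A)

lemma cm_zero {A B : Matrix ι ι F} : Cm ω A B 0 ↔ A * B = B * A := by
  rw [Cm, ph0, one_smul]

lemma Cm.symm (hω : ω ^ 3 = 1) {A B : Matrix ι ι F} {a : ZMod 3} (h : Cm ω A B a) :
    Cm ω B A (-a) := by
  rw [Cm, show A * B = _ from h, smul_smul, ← phAdd hω, neg_add_cancel, ph0, one_smul]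

lemma Cm.mul (hω : ω ^ 3 = 1) {A B C : Matrix ι ι F} {a b : ZMod 3} (h : Cm ω A B a)
    (h' : Cm ω A C b) : Cm ω A (B * C) (a + b) := by
  show A * (B * C) = _
  rw [← mul_assoc, show A * B = _ from h, smul_mul_assoc, mul_assoc, show A * C = _ from h',
    mul_smul_comm, smul_smul, ← mul_assoc, phAdd hω]

lemma Cm.refl (A : Matrix ι ι F) : Cm ω A A 0 := cm_zero.2 rfl

lemma Cm.one (A : Matrix ι ι F) : Cm ω A 1 0 := cm_zero.2 (by rw [mul_one, one_mul])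

lemma Cm.pw (hω : ω ^ 3 = 1) {A B : Matrix ι ι F} {a : ZMod 3} (h : Cm ω A B a) (k : ZMod 3) :
    Cm ω A (pw B k) (a * k) := by
  have key : ∀ n : ℕ, Cm ω A (B ^ n) (a * n) := by
    intro n
    induction n with
    | zero => simpa using Cm.one A
    | succ n ih => rw [pow_succ, Nat.cast_succ, mul_add, mul_one]; exact ih.mul hω h
  have := key k.val
  rwa [ZMod.natCast_zmod_val] at this

/-- Projection to an eigenspace of an element of order three, times three. -/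
def pr (ω : F) (Z : Matrix ι ι F) (a : ZMod 3) : Matrix ι ι F :=
  1 + ph ω (-a) • Z + ph ω (-a + -a) • (Z * Z)

/-- The sum of the powers of a cube root of one. -/
def gsum (ω : F) (d : ZMod 3) : F := 1 + ph ω d + ph ω (d + d)

lemma gsum_zero : gsum ω 0 = 3 := by
  rw [gsum, add_zero, ph0]; norm_num

lemma gsum_ne (hω : IsPrimitiveRoot ω 3) {d : ZMod 3} (hd : d ≠ 0) : gsum ω d = 0 := by
  have hs : 1 + ω + ω ^ 2 = 0 := by
    have h := hω.geom_sum_eq_zero (by norm_num)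
    simpa [Finset.sum_range_succ] using h
  have hd' : d = 1 ∨ d = 2 := by revert hd; revert d; decide
  rcases hd' with rfl | rfl
  · show 1 + ω ^ 1 + ω ^ 2 = 0
    rw [pow_one, hs]
  · show 1 + ω ^ 2 + ω ^ 1 = 0
    rw [pow_one]; linear_combination hs

lemma pr_mulVec (hω : ω ^ 3 = 1) {Z : Matrix ι ι F} {u : ι → F} {i : ZMod 3}
    (hu : Z *ᵥ u = ph ω i • u) (a : ZMod 3) : pr ω Z a *ᵥ u = gsum ω (i - a) • u := by
  simp only [pr, add_mulVec, one_mulVec, smul_mulVec, ← mulVec_mulVec, hu, mulVec_smul,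
    smul_smul, gsum, add_smul, one_smul]
  congr 1
  · congr 2
    rw [← phAdd hω]; congr 1; ring
  · congr 1
    rw [← phAdd hω, ← phAdd hω]; congr 1; ring

lemma mulVec_pr (hω : ω ^ 3 = 1) {Z : Matrix ι ι F} (hZ : Z ^ 3 = 1) (u : ι → F) (a : ZMod 3) :
    Z *ᵥ (pr ω Z a *ᵥ u) = ph ω a • (pr ω Z a *ᵥ u) := by
  have h3 : Z * (Z * Z) = 1 := by rw [← hZ, pow_three]
  rw [mulVec_mulVec, ← smul_mulVec]
  congr 1
  simp only [pr, mul_add, mul_one, mul_smul_comm, h3, smul_add, smul_smul]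
  rw [← phAdd hω, ← phAdd hω, add_neg_cancel, ph0, one_smul,
    show a + (-a + -a) = -a by ring, show -a + -a = a by clear * - a; revert a; decide]
  abel

lemma exists_eigen (hω : IsPrimitiveRoot ω 3) (h3 : (3 : F) ≠ 0) {Z : Matrix ι ι F} (hZ : Z ^ 3 = 1)
    {u : ι → F} (hu : u ≠ 0) :
    ∃ a, pr ω Z a *ᵥ u ≠ 0 ∧ Z *ᵥ (pr ω Z a *ᵥ u) = ph ω a • (pr ω Z a *ᵥ u) := by
  by_contra h
  push Not at h
  have hz : ∀ a, pr ω Z a *ᵥ u = 0 := fun a => by
    by_contra hn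
    exact h a hn (mulVec_pr hω.pow_eq_one hZ u a)
  have hs : 1 + ω + ω ^ 2 = 0 := by
    have h := hω.geom_sum_eq_zero (by norm_num)
    simpa [Finset.sum_range_succ] using h
  have h0 : pr ω Z 0 + pr ω Z 1 + pr ω Z 2 = (3 : F) • (1 : Matrix ι ι F) := by
    have hsum : pr ω Z 0 + pr ω Z 1 + pr ω Z 2 = (1 + 1 + 1 : F) • (1 : Matrix ι ι F) +
        (ph ω (-0) + ph ω (-1) + ph ω (-2)) • Z +
        (ph ω (-0 + -0) + ph ω (-1 + -1) + ph ω (-2 + -2)) • (Z * Z) := by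
      simp only [pr, add_smul, one_smul]; abel
    have e1 : ph ω (-0 : ZMod 3) + ph ω (-1) + ph ω (-2) = 0 := by
      show ω ^ 0 + ω ^ 2 + ω ^ 1 = 0
      linear_combination hs
    have e2 : ph ω (-0 + -0 : ZMod 3) + ph ω (-1 + -1) + ph ω (-2 + -2) = 0 := by
      show ω ^ 0 + ω ^ 1 + ω ^ 2 = 0
      linear_combination hs
    rw [hsum, e1, e2, zero_smul, zero_smul, add_zero, add_zero]
    norm_num
  have := congrArg (· *ᵥ u) h0
  simp only [add_mulVec, hz, add_zero, smul_mulVec, one_mulVec] at this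
  exact hu ((smul_eq_zero.1 this.symm).resolve_left h3)

/-- What is used of the group: a set of matrices of exponent three, closed under products, whose
commutators are scalars, and which is absolutely irreducible. -/
structure Good (ω : F) (S : Set (Matrix ι ι F)) : Prop where
  one : (1 : Matrix ι ι F) ∈ S
  mul : ∀ A ∈ S, ∀ B ∈ S, A * B ∈ S
  cube : ∀ A ∈ S, A ^ 3 = 1
  comm : ∀ A ∈ S, ∀ B ∈ S, ∃ a, Cm ω A B a
  irr : ActsAbsolutelyIrreducibly S

variable {S : Set (Matrix ι ι F)}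

lemma Good.pw_mem (hS : Good ω S) {A : Matrix ι ι F} (hA : A ∈ S) (k : ZMod 3) : pw A k ∈ S := by
  rw [pw]
  induction k.val with
  | zero => simpa using hS.one
  | succ n ih => rw [pow_succ]; exact hS.mul _ ih _ hA

lemma Good.ne_zero [Nonempty ι] (hS : Good ω S) {A : Matrix ι ι F} (hA : A ∈ S) : A ≠ 0 := by
  rintro rfl
  have := hS.cube 0 hA
  rw [zero_pow (by norm_num)] at this
  exact zero_ne_one this

lemma Good.mulVec_ne (hS : Good ω S) {A : Matrix ι ι F} (hA : A ∈ S) {u : ι → F} (hu : u ≠ 0) :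
    A *ᵥ u ≠ 0 := fun h => hu (by
  have := congrArg ((A * A) *ᵥ ·) h
  simp only [mulVec_mulVec, mulVec_zero] at this
  rwa [show A * A * A = A ^ 3 by rw [pow_three, mul_assoc], hS.cube A hA, one_mulVec] at this)

/-- A noncommuting pair can be ordered so that the scalar is `ω`. -/
lemma exists_pair (hω : ω ^ 3 = 1) {A B : Matrix ι ι F} {a : ZMod 3} (h : Cm ω A B a) (ha : a ≠ 0) :
    Cm ω A B 1 ∨ Cm ω B A 1 := by
  have : a = 1 ∨ a = 2 := by clear h; revert ha; revert a; decide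
  rcases this with rfl | rfl
  · exact Or.inl h
  · exact Or.inr (h.symm hω)

/-- Removing the part of an element in a pair. -/
lemma Good.adjust (hω : IsPrimitiveRoot ω 3) (hS : Good ω S) {z x r : Matrix ι ι F} (hz : z ∈ S)
    (hx : x ∈ S) (hr : r ∈ S) (hzx : Cm ω z x 1) :
    ∃ i k, Cm ω z (pw x i * (pw z k * r)) 0 ∧ Cm ω x (pw x i * (pw z k * r)) 0 := by
  have h3 := hω.pow_eq_one
  obtain ⟨a, ha⟩ := hS.comm z hz r hr
  obtain ⟨b, hb⟩ := hS.comm x hx r hr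
  refine ⟨-a, b, ?_, ?_⟩
  · have h := (hzx.pw h3 (-a)).mul h3 (((Cm.refl z).pw h3 b).mul h3 ha)
    rwa [one_mul, zero_mul, zero_add, neg_add_cancel] at h
  · have h := ((Cm.refl x).pw h3 (-a)).mul h3 (((hzx.symm h3).pw h3 b).mul h3 hb)
    rwa [zero_mul, zero_add, neg_one_mul, neg_add_cancel] at h

/-- What is left after removing the part in a pair, multiplied back. -/
lemma unadjust {z x : Matrix ι ι F} (hz : z ^ 3 = 1) (hx : x ^ 3 = 1) (i k : ZMod 3)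
    (r : Matrix ι ι F) : pw z (-k) * (pw x (-i) * (pw x i * (pw z k * r))) = r := by
  rw [← mul_assoc (pw x (-i)), ← pw_add hx, neg_add_cancel, pw_zero, one_mul, ← mul_assoc,
    ← pw_add hz, neg_add_cancel, pw_zero, one_mul]

/-- Two commuting symplectic pairs. -/
structure Pairs (ω : F) (S : Set (Matrix ι ι F)) (z₁ x₁ z₂ x₂ : Matrix ι ι F) : Prop where
  z₁_mem : z₁ ∈ S
  x₁_mem : x₁ ∈ S
  z₂_mem : z₂ ∈ S
  x₂_mem : x₂ ∈ S
  zx₁ : Cm ω z₁ x₁ 1
  zx₂ : Cm ω z₂ x₂ 1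
  z₁z₂ : Cm ω z₁ z₂ 0
  z₁x₂ : Cm ω z₁ x₂ 0
  x₁z₂ : Cm ω x₁ z₂ 0
  x₁x₂ : Cm ω x₁ x₂ 0

theorem exists_pairs (hω : IsPrimitiveRoot ω 3) (h3 : (3 : F) ≠ 0) (hι : Fintype.card ι = 9)
    (hS : Good ω S) : ∃ z₁ x₁ z₂ x₂, Pairs ω S z₁ x₁ z₂ x₂ := by
  classical
  have hc := hω.pow_eq_one
  haveI : Nonempty ι := Fintype.card_pos_iff.1 (by omega)
  obtain ⟨i₀⟩ := ‹Nonempty ι›
  have hu : (Pi.single i₀ 1 : ι → F) ≠ 0 := by simp
  -- a subspace of small dimension is not invariant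
  have small : ∀ b : ZMod 3 → ι → F, (b 0 ≠ 0) →
      ¬ ∀ r ∈ S, ∀ j, r *ᵥ b j ∈ Submodule.span F (Set.range b) := by
    intro b hb h
    rcases hS.irr.1 (Submodule.span F (Set.range b)) (fun r hr => by
      rw [Submodule.map_span_le]
      rintro _ ⟨j, rfl⟩
      simpa using h r hr j) with hW | hW
    · exact hb ((Submodule.eq_bot_iff _).1 hW _ (Submodule.subset_span ⟨0, rfl⟩))
    · have h1 := finrank_range_le_card (R := F) b
      unfold Set.finrank at h1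
      rw [hW, finrank_top, Module.finrank_pi, hι, ZMod.card] at h1
      omega
  -- the first pair
  obtain ⟨z₁, hz₁, x₁, hx₁, hzx₁⟩ : ∃ z ∈ S, ∃ x ∈ S, Cm ω z x 1 := by
    by_contra h
    push Not at h
    have hab : ∀ A ∈ S, ∀ B ∈ S, A * B = B * A := by
      intro A hA B hB
      obtain ⟨a, ha⟩ := hS.comm A hA B hB
      by_cases h0 : a = 0
      · subst h0; exact cm_zero.1 ha
      · rcases exists_pair hc ha h0 with h' | h'
        · exact absurd h' (h A hA B hB)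
        · exact absurd h' (h B hB A hA)
    refine small (fun _ => Pi.single i₀ 1) hu fun r hr j => ?_
    obtain ⟨c, rfl⟩ := hS.irr.2 r fun s hs => hab r hr s hs
    rw [smul_mulVec, one_mulVec]
    exact Submodule.smul_mem _ _ (Submodule.subset_span ⟨j, rfl⟩)
  -- the second pair, in the centraliser of the first
  obtain ⟨z₂, hz₂, hz₂z, hz₂x, x₂, hx₂, hx₂z, hx₂x, hzx₂⟩ : ∃ z ∈ S, Cm ω z₁ z 0 ∧ Cm ω x₁ z 0 ∧
      ∃ x ∈ S, Cm ω z₁ x 0 ∧ Cm ω x₁ x 0 ∧ Cm ω z x 1 := by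
    by_contra h
    push Not at h
    have hab : ∀ A ∈ S, Cm ω z₁ A 0 → Cm ω x₁ A 0 → ∀ B ∈ S, Cm ω z₁ B 0 → Cm ω x₁ B 0 →
        Cm ω A B 0 := by
      intro A hA h1 h2 B hB h3' h4
      obtain ⟨a, ha⟩ := hS.comm A hA B hB
      by_cases h0 : a = 0
      · subst h0; exact ha
      · rcases exists_pair hc ha h0 with h' | h'
        · exact absurd h' (h A hA h1 h2 B hB h3' h4)
        · exact absurd h' (h B hB h3' h4 A hA h1 h2)
    have hsc : ∀ A ∈ S, Cm ω z₁ A 0 → Cm ω x₁ A 0 → ∃ c : F, A = c • (1 : Matrix ι ι F) := by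
      intro A hA h1 h2
      refine hS.irr.2 A fun s hs => ?_
      obtain ⟨i, k, e1, e2⟩ := hS.adjust hω hz₁ hx₁ hs hzx₁
      have hm : pw x₁ i * (pw z₁ k * s) ∈ S :=
        hS.mul _ (hS.pw_mem hx₁ i) _ (hS.mul _ (hS.pw_mem hz₁ k) _ hs)
      have := ((h1.symm hc).pw hc (-k)).mul hc (((h2.symm hc).pw hc (-i)).mul hc
        (hab A hA h1 h2 _ hm e1 e2))
      rw [unadjust (hS.cube _ hz₁) (hS.cube _ hx₁)] at this
      simpa [Cm, ph0] using this
    obtain ⟨a, hv, hzv⟩ := exists_eigen hω h3 (hS.cube _ hz₁) hu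
    set v := pr ω z₁ a *ᵥ Pi.single i₀ 1
    refine small (fun j => pw x₁ j *ᵥ v) (by simpa [pw_zero] using hv) fun r hr j => ?_
    obtain ⟨i, k, e1, e2⟩ := hS.adjust hω hz₁ hx₁ hr hzx₁
    obtain ⟨c, hcr⟩ := hsc _ (hS.mul _ (hS.pw_mem hx₁ i) _ (hS.mul _ (hS.pw_mem hz₁ k) _ hr)) e1 e2
    have hz : ∀ t : ZMod 3, ∃ d : F, z₁ *ᵥ (pw x₁ t *ᵥ v) = d • (pw x₁ t *ᵥ v) := fun t => by
      refine ⟨ph ω (1 * t) * ph ω a, ?_⟩
      rw [mulVec_mulVec, show z₁ * pw x₁ t = _ from hzx₁.pw hc t, smul_mulVec, ← mulVec_mulVec, hzv,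
        mulVec_smul, smul_smul]
    have hzp : ∀ n : ℕ, ∀ t : ZMod 3, ∃ d : F, (z₁ ^ n) *ᵥ (pw x₁ t *ᵥ v) = d • (pw x₁ t *ᵥ v) := by
      intro n t
      induction n with
      | zero => exact ⟨1, by simp⟩
      | succ n ih =>
        obtain ⟨d, hd⟩ := hz t
        obtain ⟨d', hd'⟩ := ih
        exact ⟨d * d', by rw [pow_succ, ← mulVec_mulVec, hd, mulVec_smul, hd', smul_smul]⟩
    rw [← unadjust (hS.cube _ hz₁) (hS.cube _ hx₁) i k r, hcr, mul_smul_comm, mul_one, mul_smul_comm,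
      smul_mulVec, ← mulVec_mulVec, mulVec_mulVec (M := pw x₁ (-i)), ← pw_add (hS.cube _ hx₁)]
    obtain ⟨d, hd⟩ := hzp (-k).val (-i + j)
    rw [pw, hd]
    exact Submodule.smul_mem _ _ (Submodule.smul_mem _ _ (Submodule.subset_span ⟨-i + j, rfl⟩))
  exact ⟨z₁, x₁, z₂, x₂, hz₁, hx₁, hz₂, hx₂, hzx₁, hzx₂, hz₂z, hx₂z, hz₂x, hx₂x⟩

/-- The element of the group that becomes the Pauli matrix with index `v`. -/
def yv (z₁ x₁ z₂ x₂ : Matrix ι ι F) (v : V9) : Matrix ι ι F :=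
  pw x₁ v.1.1 * (pw x₂ v.2.1 * (pw z₁ v.1.2 * pw z₂ v.2.2))

theorem exists_basis (hω : IsPrimitiveRoot ω 3) (h3 : (3 : F) ≠ 0) (hι : Fintype.card ι = 9)
    (hS : Good ω S) {z₁ x₁ z₂ x₂ : Matrix ι ι F} (hp : Pairs ω S z₁ x₁ z₂ x₂) :
    ∃ b : Module.Basis J9 F (ι → F), ∀ (v : V9) (j : J9), yv z₁ x₁ z₂ x₂ v *ᵥ b j =
      ph ω (v.1.2 * j.1 + v.2.2 * j.2) • b (j.1 + v.1.1, j.2 + v.2.1) ∧
      ∀ u, z₁ *ᵥ u = u → z₂ *ᵥ u = u → ∃ c : F, u = c • b (0, 0) := by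
  classical
  have hc := hω.pow_eq_one
  haveI : Nonempty ι := Fintype.card_pos_iff.1 (by omega)
  obtain ⟨i₀⟩ := ‹Nonempty ι›
  have hcube := hS.cube
  obtain ⟨a, hu, hzu⟩ := exists_eigen hω h3 (hcube _ hp.z₁_mem)
    (u := (Pi.single i₀ 1 : ι → F)) (by simp)
  set u := pr ω z₁ a *ᵥ Pi.single i₀ 1
  obtain ⟨b', hv, hzv⟩ := exists_eigen hω h3 (hcube _ hp.z₂_mem) hu
  set v := pr ω z₂ b' *ᵥ u with hvdef
  have hz₁v : z₁ *ᵥ v = ph ω a • v := by
    have hcm : z₁ * z₂ = z₂ * z₁ := cm_zero.1 hp.z₁z₂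
    have hcm2 : z₁ * (z₂ * z₂) = z₂ * z₂ * z₁ := by rw [← mul_assoc, hcm, mul_assoc, hcm, ← mul_assoc]
    rw [hvdef, mulVec_mulVec, show z₁ * pr ω z₂ b' = pr ω z₂ b' * z₁ by
      simp only [pr, mul_add, add_mul, mul_one, one_mul, mul_smul_comm, smul_mul_assoc, hcm, hcm2],
      ← mulVec_mulVec, hzu, mulVec_smul]
  -- the basis vectors
  set b : J9 → ι → F := fun j => pw x₁ (j.1 - a) *ᵥ (pw x₂ (j.2 - b') *ᵥ v) with hb
  have hmem : ∀ j : J9, pw x₁ (j.1 - a) * pw x₂ (j.2 - b') ∈ S := fun j =>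
    hS.mul _ (hS.pw_mem hp.x₁_mem _) _ (hS.pw_mem hp.x₂_mem _)
  have hbne : ∀ j, b j ≠ 0 := fun j => by
    simp only [hb, mulVec_mulVec]
    exact hS.mulVec_ne (hmem j) hv
  have hb1 : ∀ j, z₁ *ᵥ b j = ph ω j.1 • b j := by
    intro j
    simp only [hb, mulVec_mulVec]
    rw [show z₁ * (pw x₁ (j.1 - a) * pw x₂ (j.2 - b')) = _ from
      (hp.zx₁.pw hc (j.1 - a)).mul hc (hp.z₁x₂.pw hc (j.2 - b')), smul_mulVec, ← mulVec_mulVec, hz₁v,
      mulVec_smul, smul_smul, ← phAdd hc, one_mul, zero_mul, add_zero, sub_add_cancel]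
  have hb2 : ∀ j, z₂ *ᵥ b j = ph ω j.2 • b j := by
    intro j
    simp only [hb, mulVec_mulVec]
    rw [show z₂ * (pw x₁ (j.1 - a) * pw x₂ (j.2 - b')) = _ from
      ((hp.x₁z₂.symm hc).pw hc (j.1 - a)).mul hc (hp.zx₂.pw hc (j.2 - b')), smul_mulVec,
      ← mulVec_mulVec, hzv, mulVec_smul, smul_smul, ← phAdd hc, one_mul, neg_zero, zero_mul, zero_add,
      sub_add_cancel]
  have hproj : ∀ (c : J9 → F) (j₀ : J9),
      pr ω z₂ j₀.2 *ᵥ (pr ω z₁ j₀.1 *ᵥ ∑ j, c j • b j) = (9 * c j₀) • b j₀ := by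
    intro c j₀
    rw [mulVec_sum, mulVec_sum, Finset.sum_eq_single j₀]
    · rw [mulVec_smul, pr_mulVec hc (hb1 _), smul_smul, mulVec_smul, pr_mulVec hc (hb2 _), smul_smul,
        sub_self, sub_self, gsum_zero]
      congr 1
      ring
    · intro j _ hj
      rw [mulVec_smul, pr_mulVec hc (hb1 _), smul_smul, mulVec_smul, pr_mulVec hc (hb2 _), smul_smul]
      by_cases h1 : j.1 = j₀.1
      · have h2 : j.2 ≠ j₀.2 := fun h2 => hj (Prod.ext h1 h2)
        rw [gsum_ne hω (sub_ne_zero.2 h2), mul_zero, zero_smul]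
      · rw [gsum_ne hω (sub_ne_zero.2 h1), mul_zero, zero_mul, zero_smul]
    · simp
  have h9 : (9 : F) ≠ 0 := by
    rw [show (9 : F) = 3 * 3 by norm_num]; exact mul_ne_zero h3 h3
  have hli : LinearIndependent F b := by
    rw [Fintype.linearIndependent_iff]
    intro c hsum j₀
    have h := hproj c j₀
    rw [hsum, mulVec_zero, mulVec_zero] at h
    exact (mul_eq_zero.1 ((smul_eq_zero.1 h.symm).resolve_right (hbne _))).resolve_left h9
  have hcard : Fintype.card J9 = Module.finrank F (ι → F) := by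
    rw [Module.finrank_pi, hι]; rfl
  refine ⟨basisOfLinearIndependentOfCardEqFinrank hli hcard, fun w j => ⟨?_, fun u h1 h2 => ?_⟩⟩
  · simp only [coe_basisOfLinearIndependentOfCardEqFinrank]
    have hzp : ∀ (z : Matrix ι ι F) (t : ZMod 3) (k : ZMod 3) (y : ι → F), z *ᵥ y = ph ω k • y →
        pw z t *ᵥ y = ph ω (t * k) • y := by
      intro z t k y hy
      have key : ∀ n : ℕ, (z ^ n) *ᵥ y = ph ω ((n : ZMod 3) * k) • y := by
        intro n
        induction n with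
        | zero => simp [ph0]
        | succ n ih =>
          rw [pow_succ, ← mulVec_mulVec, hy, mulVec_smul, ih, smul_smul, ← phAdd hc, Nat.cast_succ]
          congr 2
          ring
      have := key t.val
      rwa [ZMod.natCast_zmod_val] at this
    rw [yv, ← mulVec_mulVec, ← mulVec_mulVec, ← mulVec_mulVec, hzp z₂ _ _ _ (hb2 j), mulVec_smul,
      hzp z₁ _ _ _ (hb1 j), smul_smul, mulVec_smul, mulVec_smul, ← phAdd hc, add_comm]
    congr 1
    simp only [hb, mulVec_mulVec]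
    have hsw : pw x₂ w.2.1 * pw x₁ (j.1 - a) = pw x₁ (j.1 - a) * pw x₂ w.2.1 :=
      cm_zero.1 (by
        have h := (((hp.x₁x₂.pw hc w.2.1).symm hc)).pw hc (j.1 - a)
        rwa [zero_mul, neg_zero, zero_mul] at h)
    congr 1
    rw [← mul_assoc (pw x₂ w.2.1), hsw, mul_assoc, ← pw_add (hcube _ hp.x₂_mem), ← mul_assoc,
      ← pw_add (hcube _ hp.x₁_mem)]
    congr 2 <;> ring
  · simp only [coe_basisOfLinearIndependentOfCardEqFinrank]
    set B := basisOfLinearIndependentOfCardEqFinrank hli hcard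
    have hu' : u = ∑ j, B.repr u j • b j := by
      conv_lhs => rw [← B.sum_repr u]
      simp [B]
    refine ⟨B.repr u (0, 0), ?_⟩
    have h := hproj (fun j => B.repr u j) (0, 0)
    rw [← hu'] at h
    have e1 : z₁ *ᵥ u = ph ω 0 • u := by rw [ph0, one_smul, h1]
    have e2 : z₂ *ᵥ u = ph ω 0 • u := by rw [ph0, one_smul, h2]
    rw [pr_mulVec hc e1, mulVec_smul, pr_mulVec hc e2, smul_smul, sub_self, gsum_zero,
      show (3 : F) * 3 = 9 by norm_num, ← smul_smul] at h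
    exact smul_right_injective _ h9 h

/-- Every element is a cube root of one times one of the standard elements. -/
theorem exists_eq_smul (hω : IsPrimitiveRoot ω 3) (hS : Good ω S) {z₁ x₁ z₂ x₂ : Matrix ι ι F}
    (hp : Pairs ω S z₁ x₁ z₂ x₂) (b : Module.Basis J9 F (ι → F))
    (hb : ∀ (v : V9) (j : J9), yv z₁ x₁ z₂ x₂ v *ᵥ b j =
      ph ω (v.1.2 * j.1 + v.2.2 * j.2) • b (j.1 + v.1.1, j.2 + v.2.1) ∧
      ∀ u, z₁ *ᵥ u = u → z₂ *ᵥ u = u → ∃ c : F, u = c • b (0, 0))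
    {r : Matrix ι ι F} (hr : r ∈ S) : ∃ (a : ZMod 3) (v : V9), r = ph ω a • yv z₁ x₁ z₂ x₂ v := by
  classical
  have hc := hω.pow_eq_one
  have hcube := hS.cube
  obtain ⟨i, k, e1, e2⟩ := hS.adjust hω hp.z₁_mem hp.x₁_mem hr hp.zx₁
  set r₁ := pw x₁ i * (pw z₁ k * r) with hr₁
  have hm₁ : r₁ ∈ S := hS.mul _ (hS.pw_mem hp.x₁_mem i) _ (hS.mul _ (hS.pw_mem hp.z₁_mem k) _ hr)
  obtain ⟨i', k', f1, f2⟩ := hS.adjust hω hp.z₂_mem hp.x₂_mem hm₁ hp.zx₂
  set r₂ := pw x₂ i' * (pw z₂ k' * r₁) with hr₂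
  have g1 : Cm ω z₁ r₂ 0 := by
    have := (hp.z₁x₂.pw hc i').mul hc ((hp.z₁z₂.pw hc k').mul hc e1)
    rwa [zero_mul, zero_add, zero_mul, zero_add] at this
  have g2 : Cm ω x₁ r₂ 0 := by
    have := (hp.x₁x₂.pw hc i').mul hc ((hp.x₁z₂.pw hc k').mul hc e2)
    rwa [zero_mul, zero_add, zero_mul, zero_add] at this
  have hm₂ : r₂ ∈ S := hS.mul _ (hS.pw_mem hp.x₂_mem i') _ (hS.mul _ (hS.pw_mem hp.z₂_mem k') _ hm₁)
  have hz00 : ∀ v : V9, v.1.1 = 0 → v.2.1 = 0 →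
      yv z₁ x₁ z₂ x₂ v *ᵥ b (0, 0) = b (0, 0) := by
    intro v h1 h2
    rw [(hb v (0, 0)).1]
    simp [h1, h2, ph0]
  have b1 : z₁ *ᵥ b (0, 0) = b (0, 0) := by
    simpa [yv, pw_zero, pw_one] using hz00 ((0, 1), (0, 0)) rfl rfl
  have b2 : z₂ *ᵥ b (0, 0) = b (0, 0) := by
    simpa [yv, pw_zero, pw_one] using hz00 ((0, 0), (0, 1)) rfl rfl
  obtain ⟨c, hcv⟩ := (hb 0 (0, 0)).2 (r₂ *ᵥ b (0, 0))
    (by rw [mulVec_mulVec, cm_zero.1 g1, ← mulVec_mulVec, b1])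
    (by rw [mulVec_mulVec, cm_zero.1 f1, ← mulVec_mulVec, b2])
  -- `r₂` is the scalar `c`
  have hall : ∀ j, r₂ *ᵥ b j = c • b j := by
    intro j
    have hgen := (hb ((j.1, 0), (j.2, 0)) (0, 0)).1
    simp only [yv, pw_zero, mul_one, mul_zero, add_zero, ph0, one_smul, zero_add] at hgen
    have hcomm : r₂ * (pw x₁ j.1 * pw x₂ j.2) = pw x₁ j.1 * pw x₂ j.2 * r₂ := cm_zero.1 (by
      have h := ((g2.symm hc).pw hc j.1).mul hc ((f2.symm hc).pw hc j.2)
      rwa [neg_zero, zero_mul, zero_mul, zero_add] at h)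
    rw [show b j = b (j.1, j.2) from rfl, ← hgen, mulVec_mulVec, hcomm, ← mulVec_mulVec, hcv,
      mulVec_smul]
  have hr₂c : r₂ = c • (1 : Matrix ι ι F) := by
    apply Matrix.toLin'.injective
    apply b.ext
    intro j
    simp [hall j]
  have hc3 : c ^ 3 = 1 := by
    have h := hcube r₂ hm₂
    rw [hr₂c, smul_pow, one_pow] at h
    have hne : b (0, 0) ≠ 0 := b.ne_zero _
    have := congrArg (· *ᵥ b (0, 0)) h
    simp only [smul_mulVec, one_mulVec] at this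
    exact smul_left_injective F hne (show c ^ 3 • b (0, 0) = (1 : F) • b (0, 0) by rw [this, one_smul])
  obtain ⟨a, rfl⟩ := exists_ph hω hc3
  have hrr : r = pw z₁ (-k) * (pw x₁ (-i) * (pw z₂ (-k') * (pw x₂ (-i') * r₂))) := by
    rw [hr₂, unadjust (hcube _ hp.z₂_mem) (hcube _ hp.x₂_mem), hr₁,
      unadjust (hcube _ hp.z₁_mem) (hcube _ hp.x₁_mem)]
  have s1 : pw z₁ (-k) * pw x₁ (-i) = ph ω (k * i) • (pw x₁ (-i) * pw z₁ (-k)) := by
    have := ((((hp.zx₁.pw hc (-i)).symm hc)).pw hc (-k)).symm hc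
    rw [show -(-(1 * -i) * -k) = k * i by ring] at this
    exact this
  have s2 : pw z₂ (-k') * pw x₂ (-i') = ph ω (k' * i') • (pw x₂ (-i') * pw z₂ (-k')) := by
    have := ((((hp.zx₂.pw hc (-i')).symm hc)).pw hc (-k')).symm hc
    rw [show -(-(1 * -i') * -k') = k' * i' by ring] at this
    exact this
  have s3 : pw z₁ (-k) * pw x₂ (-i') = pw x₂ (-i') * pw z₁ (-k) := cm_zero.1 (by
    have h := ((((hp.z₁x₂.pw hc (-i')).symm hc)).pw hc (-k)).symm hc
    rwa [zero_mul, neg_zero, zero_mul, neg_zero] at h)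
  refine ⟨a + (k * i + k' * i'), ((-i, -k), (-i', -k')), ?_⟩
  rw [hrr, hr₂c, mul_smul_comm, mul_one, mul_smul_comm, mul_smul_comm, mul_smul_comm, phAdd hc,
    ← smul_smul]
  congr 1
  rw [← mul_assoc, s1, s2, smul_mul_assoc, mul_smul_comm, smul_smul, ← phAdd hc, mul_assoc,
    ← mul_assoc (pw z₁ (-k)), s3]
  simp only [yv, mul_assoc]

end Frame

end CfsgLib.Geometric.SLNine
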