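import Cfsg.Agent.Lib.Geometric.SLNine.Frame
import Cfsg.Agent.Lib.Geometric.Basic

/-!
An absolutely irreducible group of exponent three and symplectic type in dimension nine is the image
of the standard Pauli group under a change of coordinates, and so is its normaliser.
-/

set_option autoImplicit false
set_option linter.style.haveILetI false
set_option linter.unusedSectionVars false

namespace CfsgLib.Geometric.SLNine

open Cfsg.Geo Matrix
open scoped Matrix commutatorElement

namespace Frame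

variable {F : Type*} [Field F] {ι : Type} [Fintype ι] [DecidableEq ι] {ω : F}

/-- The matrices of a group of exponent three and symplectic type have scalar commutators. -/
theorem good_of_sympType [Finite F] (hω : IsPrimitiveRoot ω 3) {R : Subgroup (GL ι F)}
    (hS : IsSymplecticTypeGroup 3 R) (hA : ActsAbsolutelyIrreducibly (matrixSet R)) :
    Good ω (matrixSet R) := by
  classical
  haveI : Fact (Nat.Prime 3) := ⟨Nat.prime_three⟩
  have hexp : ∀ x : R, x ^ 3 = 1 := fun x => by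
    have h := Monoid.pow_exponent_eq_one x
    rwa [hS.exponent_eq, show 3 * Nat.gcd 2 3 = 3 by norm_num] at h
  have hcube : ∀ A ∈ matrixSet R, A ^ 3 = 1 := by
    rintro _ ⟨g, hg, rfl⟩
    have h := congrArg (fun r : R => ((r : GL ι F) : Matrix ι ι F)) (hexp ⟨g, hg⟩)
    simpa using h
  refine ⟨⟨1, one_mem _, rfl⟩, ?_, hcube, ?_, hA⟩
  · rintro _ ⟨g, hg, rfl⟩ _ ⟨h, hh, rfl⟩
    exact ⟨g * h, R.mul_mem hg hh, rfl⟩
  rintro _ ⟨g, hg, rfl⟩ _ ⟨h, hh, rfl⟩
  by_cases hab : g * h = h * g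
  · exact ⟨0, cm_zero.2 (congrArg Units.val hab)⟩
  have hnab : ∃ a b : R, a * b ≠ b * a :=
    ⟨⟨g, hg⟩, ⟨h, hh⟩, fun e => hab (congrArg Subtype.val e)⟩
  have hchar : ∀ C : Subgroup R, C.Characteristic → IsMulCommutative C →
      C ≤ Subgroup.center R ∧ IsCyclic C := by
    intro C hC hCc
    have hcy := hS.cyclic_of_characteristic C hC hCc
    refine ⟨?_, hcy⟩
    have hle : Nat.card C ≤ 3 := by
      obtain ⟨c, hc⟩ := IsCyclic.exists_generator (α := C)
      rw [← orderOf_eq_card_of_forall_mem_zpowers hc]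
      exact orderOf_le_of_pow_eq_one (by norm_num) (Subtype.ext (hexp (c : R)))
    intro c hc
    have hpR : IsPGroup 3 R := hS.pGroup
    by_cases hbot : C = ⊥
    · subst hbot
      rw [Subgroup.mem_bot] at hc
      subst hc
      exact one_mem _
    haveI : Group.IsNilpotent R := hpR.isNilpotent
    haveI : C.Normal := inferInstance
    have hne := PSolvable.inf_center_ne_bot hbot
    have hC1 : 1 < Nat.card ↥(C ⊓ Subgroup.center R) := (Subgroup.one_lt_card_iff_ne_bot _).2 hne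
    have hdvd : Nat.card ↥(C ⊓ Subgroup.center R) ∣ Nat.card C := Subgroup.card_dvd_of_le inf_le_left
    obtain ⟨n, hn⟩ := IsPGroup.iff_card.mp (hpR.to_subgroup (C ⊓ Subgroup.center R))
    have h3le : 3 ≤ Nat.card ↥(C ⊓ Subgroup.center R) := by
      rw [hn] at hC1 ⊢
      exact le_self_pow₀ (by norm_num) (by rintro rfl; simp at hC1)
    have heq : C ⊓ Subgroup.center R = C := by
      apply SetLike.coe_injective
      refine Set.eq_of_subset_of_ncard_le inf_le_left ?_ (Set.toFinite _)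
      rw [← Nat.card_coe_set_eq, ← Nat.card_coe_set_eq]
      exact le_trans hle h3le
    exact ((SetLike.ext_iff.1 heq c).2 hc).2
  obtain ⟨hcl, -, -, -⟩ := BGRep.symplectic_type (q := 3) (by norm_num) hS.pGroup hnab hchar
  set d : R := ⁅(⟨g, hg⟩ : R), ⟨h, hh⟩⁆ with hd
  have hdc : d ∈ Subgroup.center R := hcl (Subgroup.commutator_mem_commutator trivial trivial)
  obtain ⟨c, hc⟩ := hA.2 ((d : GL ι F) : Matrix ι ι F) (by
    rintro _ ⟨s, hs, rfl⟩
    exact congrArg (fun r : R => ((r : GL ι F) : Matrix ι ι F))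
      (Subgroup.mem_center_iff.1 hdc ⟨s, hs⟩).symm)
  have hgh : (g : Matrix ι ι F) * h = c • ((h : Matrix ι ι F) * g) := by
    have e : g * h = (d : GL ι F) * (h * g) := by
      simp only [hd, commutatorElement_def, Subgroup.coe_mul, Subgroup.coe_inv]
      group
    have := congrArg Units.val e
    rwa [Units.val_mul, Units.val_mul, Units.val_mul, hc, smul_mul_assoc, one_mul] at this
  have hc3 : c ^ 3 • (1 : Matrix ι ι F) = 1 := by
    have h' : ((d : GL ι F) : Matrix ι ι F) ^ 3 = 1 := hcube _ ⟨d, d.2, rfl⟩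
    rwa [hc, smul_pow, one_pow] at h'
  rcases isEmpty_or_nonempty ι with hι | hι
  · exact ⟨0, Matrix.ext fun i => hι.elim i⟩
  obtain ⟨a, ha⟩ := exists_ph hω (c := c)
    (smul_left_injective F (one_ne_zero (α := Matrix ι ι F)) (show _ = (1 : F) • (1 : Matrix ι ι F) by
      rw [one_smul]; exact hc3))
  exact ⟨a, by rw [Cm, ha]; exact hgh⟩

lemma T9_apply (v : V9) (i j : J9) : T9 ω v i j =
    if i = (j.1 + v.1.1, j.2 + v.2.1) then ph ω (v.1.2 * j.1) * ph ω (v.2.2 * j.2) else 0 := by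
  simp only [T9, P3, Matrix.kroneckerMap_apply, Matrix.of_apply]
  by_cases h1 : i.1 = j.1 + v.1.1 <;> by_cases h2 : i.2 = j.2 + v.2.1 <;>
    simp [Prod.ext_iff, h1, h2]

/-- A group as above is the image of the standard Pauli group, with normaliser the image of `N9`,
under an isomorphism of general linear groups induced by a change of coordinates `L`. -/
theorem exists_frame_coord [Finite F] (hω : IsPrimitiveRoot ω 3) (h3 : (3 : F) ≠ 0)
    (hι : Fintype.card ι = 9) {R : Subgroup (GL ι F)} (hS : IsSymplecticTypeGroup 3 R)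
    (hA : ActsAbsolutelyIrreducibly (matrixSet R)) :
    ∃ (φ : GL J9 F ≃* GL ι F) (L : (J9 → F) ≃ₗ[F] (ι → F)),
      (∀ g x, (φ g : Matrix ι ι F) *ᵥ L x = L ((g : Matrix J9 J9 F) *ᵥ x)) ∧
      (∀ g, φ g ∈ specialLinear ι F ↔ g ∈ specialLinear J9 F) ∧
      (∀ g, φ g ∈ R ↔ ∃ (a : ZMod 3) (v : V9), (g : Matrix J9 J9 F) = ph ω a • T9 ω v) ∧
      (∀ v, ∃ g : GL J9 F, (g : Matrix J9 J9 F) = T9 ω v ∧ φ g ∈ R) ∧
      ∀ g, φ g ∈ subgroupNormalizer R ↔ g ∈ N9 ω := by
  classical
  have hc := hω.pow_eq_one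
  haveI : Nonempty ι := Fintype.card_pos_iff.1 (by omega)
  have hG := good_of_sympType hω hS hA
  obtain ⟨z₁, x₁, z₂, x₂, hp⟩ := exists_pairs hω h3 hι hG
  obtain ⟨b, hb⟩ := exists_basis hω h3 hι hG hp
  set e : J9 ≃ ι := Fintype.equivOfCardEq (by rw [hι]; rfl)
  -- the matrix with the basis as columns
  set Pm : Matrix ι ι F := (Pi.basisFun F ι).toMatrix (b.reindex e) with hPm
  haveI : Invertible Pm := (Pi.basisFun F ι).invertibleToMatrix (b.reindex e)
  set P : GL ι F := unitOfInvertible Pm with hP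
  have hPcol : ∀ j : J9, (P : Matrix ι ι F) *ᵥ Pi.single (e j) 1 = b j := by
    intro j
    ext i
    simp [hP, hPm, Module.Basis.toMatrix]
  set φ : GL J9 F ≃* GL ι F := (glReindex e).trans (MulAut.conj P) with hφ
  have hval : ∀ g : GL J9 F, (φ g : Matrix ι ι F) =
      (P : Matrix ι ι F) * Matrix.reindex e e (g : Matrix J9 J9 F) * ((P⁻¹ : GL ι F) : Matrix ι ι F) :=
    fun g => rfl
  have hdet : ∀ g, φ g ∈ specialLinear ι F ↔ g ∈ specialLinear J9 F := by
    intro g
    simp only [specialLinear, MonoidHom.mem_ker]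
    have : Matrix.GeneralLinearGroup.det (φ g) = Matrix.GeneralLinearGroup.det g := by
      apply Units.ext
      simp only [Matrix.GeneralLinearGroup.val_det_apply, hval, Matrix.det_mul, Matrix.det_reindex_self]
      rw [mul_comm (Matrix.det (P : Matrix ι ι F)), mul_assoc, ← Matrix.det_mul, Units.mul_inv,
        Matrix.det_one, mul_one]
    rw [this]
  have hcol : ∀ (g : GL J9 F) (v : V9), (g : Matrix J9 J9 F) = T9 ω v ↔
      (φ g : Matrix ι ι F) = yv z₁ x₁ z₂ x₂ v := by
    have key : ∀ v : V9, (P : Matrix ι ι F) * Matrix.reindex e e (T9 ω v) *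
        ((P⁻¹ : GL ι F) : Matrix ι ι F) = yv z₁ x₁ z₂ x₂ v := by
      intro v
      have h1 : (P : Matrix ι ι F) * Matrix.reindex e e (T9 ω v) = yv z₁ x₁ z₂ x₂ v * P := by
        refine Matrix.ext_of_mulVec_single fun k => ?_
        obtain ⟨j, rfl⟩ := e.surjective k
        rw [← mulVec_mulVec, ← mulVec_mulVec, hPcol, (hb v j).1, phAdd hc,
          ← hPcol, ← mulVec_smul]
        congr 1
        ext i
        obtain ⟨i, rfl⟩ := e.surjective i
        rw [Matrix.mulVec_single_one]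
        simp [T9_apply, Pi.single_apply, e.injective.eq_iff]
      rw [h1, mul_assoc, Units.mul_inv, mul_one]
    intro g v
    constructor
    · intro h; rw [hval, h, key]
    · intro h
      rw [hval, ← key] at h
      apply (Matrix.reindex e e).injective
      have := congrArg (fun M : Matrix ι ι F => ((P⁻¹ : GL ι F) : Matrix ι ι F) * M * (P : Matrix ι ι F)) h
      simpa [mul_assoc] using this
  have hyv : ∀ v, yv z₁ x₁ z₂ x₂ v ∈ matrixSet R := fun v =>
    hG.mul _ (hG.pw_mem hp.x₁_mem _) _ (hG.mul _ (hG.pw_mem hp.x₂_mem _) _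
      (hG.mul _ (hG.pw_mem hp.z₁_mem _) _ (hG.pw_mem hp.z₂_mem _)))
  have hT : ∀ v, ∃ g : GL J9 F, (g : Matrix J9 J9 F) = T9 ω v ∧ φ g ∈ R := by
    intro v
    obtain ⟨y, hy, hye⟩ := hyv v
    exact ⟨φ.symm y, (hcol _ v).2 (by rw [MulEquiv.apply_symm_apply]; exact hye),
      by rwa [MulEquiv.apply_symm_apply]⟩
  have hz : ∃ s ∈ R, (s : Matrix ι ι F) = ω • 1 := by
    obtain ⟨z, hz, hze⟩ := hp.z₁_mem
    obtain ⟨x, hx, hxe⟩ := hp.x₁_mem
    refine ⟨z * x * z⁻¹ * x⁻¹, R.mul_mem (R.mul_mem (R.mul_mem hz hx) (R.inv_mem hz)) (R.inv_mem hx), ?_⟩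
    have h1 : (z : Matrix ι ι F) * x = ω • ((x : Matrix ι ι F) * z) := by
      have := hp.zx₁
      unfold Cm at this
      simp only [hze, hxe]
      rw [this, show ph ω (1 : ZMod 3) = ω from pow_one ω]
    simp only [Units.val_mul]
    rw [h1, smul_mul_assoc, smul_mul_assoc, mul_assoc (x : Matrix ι ι F), Units.mul_inv, mul_one,
      Units.mul_inv]
  have hR : ∀ g, φ g ∈ R ↔ ∃ (a : ZMod 3) (v : V9), (g : Matrix J9 J9 F) = ph ω a • T9 ω v := by
    intro g
    constructor
    · intro hg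
      obtain ⟨a, v, hav⟩ := exists_eq_smul hω hG hp b hb ⟨φ g, hg, rfl⟩
      obtain ⟨t, ht, -⟩ := hT v
      refine ⟨a, v, ?_⟩
      apply (Matrix.reindex e e).injective
      have h1 : (φ g : Matrix ι ι F) = ph ω a • (φ t : Matrix ι ι F) := by
        rw [(hcol t v).1 ht]; exact hav
      rw [hval, hval, ← smul_mul_assoc, ← mul_smul_comm] at h1
      have := congrArg (fun M : Matrix ι ι F => ((P⁻¹ : GL ι F) : Matrix ι ι F) * M * (P : Matrix ι ι F)) h1
      rw [← ht]
      simpa [mul_assoc, Matrix.submatrix_smul] using this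
    · rintro ⟨a, v, hav⟩
      obtain ⟨t, ht, htR⟩ := hT v
      obtain ⟨s, hs, hse⟩ := hz
      have : φ g = s ^ a.val * φ t := by
        apply Units.ext
        rw [Units.val_mul, Units.val_pow_eq_pow_val, hse, smul_pow, one_pow, smul_mul_assoc, one_mul,
          hval, hval, hav, ht, ← smul_mul_assoc, ← mul_smul_comm]
        rfl
      rw [this]
      exact R.mul_mem (R.pow_mem hs _) htR
  set L : (J9 → F) ≃ₗ[F] (ι → F) :=
    (LinearEquiv.funCongrLeft F F e.symm).trans (Geometric.apEquiv P) with hL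
  have hφL : ∀ g x, (φ g : Matrix ι ι F) *ᵥ L x = L ((g : Matrix J9 J9 F) *ᵥ x) := by
    intro g x
    have hLx : ∀ y : J9 → F, L y = (P : Matrix ι ι F) *ᵥ (y ∘ e.symm) := fun y => rfl
    rw [hLx, hLx, hval, mulVec_mulVec, mul_assoc, mul_assoc, Units.inv_mul, mul_one, ← mulVec_mulVec,
      Matrix.reindex_apply, Matrix.submatrix_mulVec_equiv]
    simp [Function.comp_assoc]
  refine ⟨φ, L, hφL, hdet, hR, hT, fun g => ?_⟩
  have step : ∀ g : GL J9 F, (∀ v, ∃ (w : V9) (c : F), (g : Matrix J9 J9 F) * T9 ω v =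
      c • (T9 ω w * (g : Matrix J9 J9 F))) ↔ ∀ x ∈ R, φ g * x * (φ g)⁻¹ ∈ R := by
    intro g
    constructor
    · intro h x hx
      obtain ⟨y, rfl⟩ := φ.surjective x
      obtain ⟨a, v, hy⟩ := (hR y).1 hx
      obtain ⟨w, c, hw⟩ := h v
      rw [← map_inv, ← map_mul, ← map_mul, hR]
      obtain ⟨t, ht, htR⟩ := hT w
      have hval' : ((g * y * g⁻¹ : GL J9 F) : Matrix J9 J9 F) = (ph ω a * c) • T9 ω w := by
        rw [Units.val_mul, Units.val_mul, hy, mul_smul_comm, hw, smul_smul, smul_mul_assoc, mul_assoc,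
          Units.mul_inv, mul_one]
      have hy3 : ∀ z : GL J9 F, φ z ∈ R → z ^ 3 = 1 := fun z hz => φ.injective (Units.ext (by
        rw [map_pow, map_one, Units.val_pow_eq_pow_val]
        exact hG.cube _ ⟨_, hz, rfl⟩))
      have h3' := congrArg Units.val (show (g * y * g⁻¹) ^ 3 = 1 by
        rw [conj_pow, hy3 y hx, mul_one, mul_inv_cancel])
      rw [Units.val_pow_eq_pow_val, hval', smul_pow, ← ht, ← Units.val_pow_eq_pow_val, hy3 t htR,
        Units.val_one] at h3'
      obtain ⟨a', ha'⟩ := exists_ph hω (c := ph ω a * c)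
        (smul_left_injective F (one_ne_zero (α := Matrix J9 J9 F))
          (show _ = (1 : F) • (1 : Matrix J9 J9 F) by rw [one_smul]; exact h3'))
      exact ⟨a', w, by rw [hval', ha']⟩
    · intro h v
      obtain ⟨t, ht, htR⟩ := hT v
      have := h _ htR
      rw [← map_inv, ← map_mul, ← map_mul, hR] at this
      obtain ⟨a, w, hw⟩ := this
      refine ⟨w, ph ω a, ?_⟩
      rw [← smul_mul_assoc, ← hw, ← ht]
      simp [Units.val_mul, mul_assoc]
  rw [subgroupNormalizer]
  constructor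
  · intro hg
    rw [Subgroup.mem_normalizer_iff] at hg
    refine ⟨(step g).2 fun x hx => (hg x).1 hx, (step g⁻¹).2 fun x hx => ?_⟩
    rw [map_inv, inv_inv]
    refine (hg _).2 ?_
    simpa [mul_assoc] using hx
  · intro hg
    rw [Subgroup.mem_normalizer_iff]
    refine fun x => ⟨fun hx => (step g).1 hg.1 x hx, fun hx => ?_⟩
    have := (step g⁻¹).1 hg.2 _ hx
    simpa [mul_assoc] using this

/-- The same without the coordinates. -/
theorem exists_frame_group [Finite F] (hω : IsPrimitiveRoot ω 3) (h3 : (3 : F) ≠ 0)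
    (hι : Fintype.card ι = 9) {R : Subgroup (GL ι F)} (hS : IsSymplecticTypeGroup 3 R)
    (hA : ActsAbsolutelyIrreducibly (matrixSet R)) :
    ∃ φ : GL J9 F ≃* GL ι F, (∀ g, φ g ∈ specialLinear ι F ↔ g ∈ specialLinear J9 F) ∧
      (∀ g, φ g ∈ R ↔ ∃ (a : ZMod 3) (v : V9), (g : Matrix J9 J9 F) = ph ω a • T9 ω v) ∧
      (∀ v, ∃ g : GL J9 F, (g : Matrix J9 J9 F) = T9 ω v ∧ φ g ∈ R) ∧
      ∀ g, φ g ∈ subgroupNormalizer R ↔ g ∈ N9 ω :=
  let ⟨φ, _, _, h⟩ := exists_frame_coord hω h3 hι hS hA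
  ⟨φ, h⟩

end Frame

end CfsgLib.Geometric.SLNine
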