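import Cfsg.Agent.Lib.Geometric.SLNine.Three
import Cfsg.Agent.Lib.Involutions.BrauerSuzuki

/-!
In a proper overgroup of the Pauli normaliser in dimension nine in which the centraliser of the
parity `tA` normalises, the parity of both factors is isolated in a Sylow subgroup, so by the Z*
theorem the Pauli group lies in the odd core.
-/

set_option autoImplicit false
set_option linter.unusedSectionVars false

namespace CfsgLib.Geometric.SLNine

open scoped Kronecker

namespace Glob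

variable {F : Type*} [Field F] {ω : F}

lemma T9_ne_zero (hω : IsPrimitiveRoot ω 3) (v : V9) : T9 ω v ≠ 0 := (T9_li hω).ne_zero v

lemma coeff9_ne_zero (hω : IsPrimitiveRoot ω 3) {g : GL J9 F} {v w : V9} {c : F}
    (h : (g : Matrix J9 J9 F) * T9 ω v = c • (T9 ω w * (g : Matrix J9 J9 F))) : c ≠ 0 := by
  rintro rfl
  rw [zero_smul] at h
  exact T9_ne_zero hω v (g.isUnit.mul_right_eq_zero.mp h)

lemma act9_eq (hω : IsPrimitiveRoot ω 3) {g : GL J9 F} (hg : g ∈ N9 ω) {v w : V9} {c : F}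
    (h : (g : Matrix J9 J9 F) * T9 ω v = c • (T9 ω w * (g : Matrix J9 J9 F))) : act (T9 ω) g v = w :=
  act_eq (T9_li hω) hg h

lemma act9_one (hω : IsPrimitiveRoot ω 3) (v : V9) : act (T9 ω) (1 : GL J9 F) v = v :=
  act9_eq hω (one_mem _) (c := 1) (by simp)

lemma act9_mul (hω : IsPrimitiveRoot ω 3) {g h : GL J9 F} (hg : g ∈ N9 ω) (hh : h ∈ N9 ω) (v : V9) :
    act (T9 ω) (g * h) v = act (T9 ω) g (act (T9 ω) h v) := act_mul (T9_li hω) hg hh v

lemma act9_inv (hω : IsPrimitiveRoot ω 3) {g : GL J9 F} (hg : g ∈ N9 ω) {v w : V9}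
    (h : act (T9 ω) g v = w) : act (T9 ω) g⁻¹ w = v := by
  rw [← h, ← act9_mul hω (inv_mem hg) hg, inv_mul_cancel, act9_one hω]

lemma act9_add (hω : IsPrimitiveRoot ω 3) {g : GL J9 F} (hg : g ∈ N9 ω) (v w : V9) :
    act (T9 ω) g (v + w) = act (T9 ω) g v + act (T9 ω) g w := by
  have h3 := hω.pow_eq_one
  obtain ⟨c, hc⟩ := act_spec hg v
  obtain ⟨d, hd⟩ := act_spec hg w
  set k := v.1.2 * w.1.1 + v.2.2 * w.2.1
  set k' := (act (T9 ω) g v).1.2 * (act (T9 ω) g w).1.1 + (act (T9 ω) g v).2.2 * (act (T9 ω) g w).2.1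
  refine act9_eq hω hg (c := (ph ω k)⁻¹ * (d * c * ph ω k')) ?_
  have e : T9 ω (v + w) = (ph ω k)⁻¹ • (T9 ω v * T9 ω w) := by
    rw [T9_mul h3, smul_smul, inv_mul_cancel₀ (ph_ne_zero h3 _), one_smul]
  rw [e, Matrix.mul_smul, ← mul_assoc, hc, Matrix.smul_mul, mul_assoc, hd, Matrix.mul_smul,
    ← mul_assoc, T9_mul h3, Matrix.smul_mul, smul_smul, smul_smul, smul_smul]
  congr 1; ring

lemma act9_zero (hω : IsPrimitiveRoot ω 3) {g : GL J9 F} (hg : g ∈ N9 ω) : act (T9 ω) g 0 = 0 := by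
  simpa using act9_add hω hg 0 0

lemma act9_neg (hω : IsPrimitiveRoot ω 3) {g : GL J9 F} (hg : g ∈ N9 ω) (v : V9) :
    act (T9 ω) g (-v) = -act (T9 ω) g v :=
  eq_neg_of_add_eq_zero_left (by rw [← act9_add hω hg, neg_add_cancel, act9_zero hω hg])

lemma act9_B9 (hω : IsPrimitiveRoot ω 3) {g : GL J9 F} (hg : g ∈ N9 ω) (v w : V9) :
    B9 (act (T9 ω) g v) (act (T9 ω) g w) = B9 v w := by
  have h3 := hω.pow_eq_one
  obtain ⟨c, hc⟩ := act_spec hg v
  obtain ⟨d, hd⟩ := act_spec hg w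
  set v' := act (T9 ω) g v
  set w' := act (T9 ω) g w
  have e1 : (g : Matrix J9 J9 F) * (T9 ω v * T9 ω w) =
      (c * d * ph ω (B9 v' w')) • (T9 ω w' * T9 ω v' * (g : Matrix J9 J9 F)) := by
    rw [← mul_assoc, hc, Matrix.smul_mul, mul_assoc, hd, Matrix.mul_smul, ← mul_assoc, T9_comm h3,
      Matrix.smul_mul, smul_smul, smul_smul, mul_assoc]
  have e2 : (g : Matrix J9 J9 F) * (T9 ω v * T9 ω w) =
      (c * d * ph ω (B9 v w)) • (T9 ω w' * T9 ω v' * (g : Matrix J9 J9 F)) := by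
    rw [T9_comm h3, Matrix.mul_smul, ← mul_assoc, hd, Matrix.smul_mul, mul_assoc, hc, Matrix.mul_smul,
      ← mul_assoc, smul_smul, smul_smul]
    congr 1; ring
  have hne : T9 ω w' * T9 ω v' * (g : Matrix J9 J9 F) ≠ 0 :=
    ((((T9gl h3 _).isUnit).mul (T9gl h3 _).isUnit).mul g.isUnit).ne_zero
  have h := smul_left_injective F hne (e1.symm.trans e2)
  exact ph_inj hω (mul_left_cancel₀ (mul_ne_zero (coeff9_ne_zero hω hc) (coeff9_ne_zero hω hd)) h)

/-- An element fixing all indices is a Pauli matrix times a scalar. -/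
lemma eq_T9_of_act_id (hω : IsPrimitiveRoot ω 3) {g : GL J9 F} (hg : g ∈ N9 ω)
    (h : ∀ v, act (T9 ω) g v = v) :
    ∃ (c : F) (v : V9), (g : Matrix J9 J9 F) = c • T9 ω v := by
  have h3 := hω.pow_eq_one
  set G := (g : Matrix J9 J9 F) with hG
  have key : ∀ u, ∃ a, G * T9 ω u = ph ω a • (T9 ω u * G) := by
    intro u
    obtain ⟨c, hc⟩ := act_spec hg u
    rw [h u] at hc
    change G * T9 ω u = c • (T9 ω u * G) at hc
    have e : G = (c * c * c) • G := by
      calc G = G * (T9 ω u * T9 ω u * T9 ω u) := by rw [T9_cube h3, mul_one]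
        _ = (c * c * c) • (T9 ω u * T9 ω u * T9 ω u * G) := by
            rw [← mul_assoc, ← mul_assoc, hc, Matrix.smul_mul, mul_assoc (T9 ω u) G, hc, Matrix.mul_smul,
              Matrix.smul_mul, ← mul_assoc, Matrix.smul_mul, mul_assoc (T9 ω u * T9 ω u) G, hc,
              Matrix.mul_smul, ← mul_assoc, smul_smul, smul_smul]
        _ = (c * c * c) • G := by rw [T9_cube h3, one_mul]
    have hc3 : c ^ 3 = 1 := by
      have h' := smul_left_injective F g.isUnit.ne_zero ((one_smul F G).trans e)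
      rw [pow_three]; simpa [mul_assoc] using h'.symm
    obtain ⟨a, rfl⟩ := exists_ph_eq hω hc3
    exact ⟨a, hc⟩
  choose k hk using key
  set v : V9 := ((-k ((0, 1), 0), k ((1, 0), 0)), (-k (0, (0, 1)), k (0, (1, 0)))) with hv
  set X := T9 ω (-v) * G with hX
  have hgen : ∀ u, B9 v u = k u → X * T9 ω u = T9 ω u * X := by
    intro u hu
    rw [hX, mul_assoc, hk, Matrix.mul_smul, ← mul_assoc, T9_comm h3 (-v) u, Matrix.smul_mul, smul_smul,
      ← ph_add h3, mul_assoc]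
    have hneg : B9 (-v) u = -B9 v u := by unfold B9 B3; simp; ring
    rw [show k u + B9 (-v) u = 0 by rw [hneg, hu, add_neg_cancel], ph_zero, one_smul]
  have hadd : ∀ u w, X * T9 ω u = T9 ω u * X → X * T9 ω w = T9 ω w * X →
      X * T9 ω (u + w) = T9 ω (u + w) * X := by
    intro u w hu hw
    have e : T9 ω (u + w) = (ph ω (u.1.2 * w.1.1 + u.2.2 * w.2.1))⁻¹ • (T9 ω u * T9 ω w) := by
      rw [T9_mul h3, smul_smul, inv_mul_cancel₀ (ph_ne_zero h3 _), one_smul]
    rw [e, Matrix.mul_smul, Matrix.smul_mul, ← mul_assoc, hu, mul_assoc, hw, mul_assoc]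
  have hns : ∀ (n : ℕ) u, X * T9 ω u = T9 ω u * X → X * T9 ω (n • u) = T9 ω (n • u) * X := by
    intro n u hu
    induction n with
    | zero => simp
    | succ n ih => rw [succ_nsmul]; exact hadd _ _ ih hu
  have h1 := hgen ((1, 0), 0) (by simp [hv, B9, B3])
  have h2 := hgen ((0, 1), 0) (by simp [hv, B9, B3])
  have h3' := hgen (0, (1, 0)) (by simp [hv, B9, B3])
  have h4 := hgen (0, (0, 1)) (by simp [hv, B9, B3])
  obtain ⟨c, hc⟩ := eq_smul_one_of_commute_T9 hω (A := X) (by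
    rintro ⟨⟨a, b⟩, x, y⟩
    have e : (((a, b), (x, y)) : V9) =
        a.val • (((1, 0), 0) : V9) + b.val • (((0, 1), 0) : V9) + x.val • ((0, (1, 0)) : V9) +
          y.val • ((0, (0, 1)) : V9) := by
      ext <;> simp
    rw [e]
    exact hadd _ _ (hadd _ _ (hadd _ _ (hns _ _ h1) (hns _ _ h2)) (hns _ _ h3')) (hns _ _ h4))
  refine ⟨(ph ω (v.1.2 * (-v).1.1 + v.2.2 * (-v).2.1))⁻¹ * c, v, ?_⟩
  have h' := congrArg (fun Y => T9 ω v * Y) hc
  simp only [hX, ← mul_assoc, Matrix.mul_smul, mul_one] at h'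
  rw [T9_mul h3, add_neg_cancel, T9_zero, Matrix.smul_mul, one_mul] at h'
  rw [← smul_smul, ← h', smul_smul, inv_mul_cancel₀ (ph_ne_zero h3 _), one_smul]

lemma coe_jJ_conj (hω : IsPrimitiveRoot ω 3) (v : V9) :
    ((jJ : GL J9 F) : Matrix J9 J9 F) * T9 ω v = T9 ω (-v) * ((jJ : GL J9 F) : Matrix J9 J9 F) := by
  have h3 := hω.pow_eq_one
  change pmat _ * T9 ω v = T9 ω (-v) * pmat _
  ext i j
  rw [Matrix.mul_apply, Matrix.mul_apply, Finset.sum_eq_single (j + (v.1.1, v.2.1)),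
    Finset.sum_eq_single (-j : J9)]
  · simp [pmat, T9_apply h3, add_comm, mul_comm]
  · intro x _ hx; simp [pmat, hx]
  · simp
  · intro x _ hx; simp [T9_apply h3, hx]
  · simp

lemma tA_sq : (tA : GL J9 F) * tA = 1 := by
  rw [tA, ← map_mul]
  convert map_one (pmHom (F := F))
  decide

lemma jJ_sq : (jJ : GL J9 F) * jJ = 1 := by
  rw [jJ, ← map_mul]
  convert map_one (pmHom (F := F))
  decide

lemma trace_jJ : ((jJ : GL J9 F) : Matrix J9 J9 F).trace = 1 := by
  have hs : Equiv.Perm.sign (Equiv.neg J9) = 1 := by decide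
  change (pmat (Equiv.neg J9)).trace = 1
  simp only [Matrix.trace, Matrix.diag_apply, pmat, Matrix.of_apply, hs, Fintype.sum_prod_type, sum_zmod]
  simp +decide

lemma trace_tA : ((tA : GL J9 F) : Matrix J9 J9 F).trace = -3 := by
  have hs : Equiv.Perm.sign ((Equiv.neg (ZMod 3)).prodCongr (Equiv.refl (ZMod 3))) = -1 := by decide
  change (pmat ((Equiv.neg (ZMod 3)).prodCongr (Equiv.refl (ZMod 3)))).trace = -3
  simp only [Matrix.trace, Matrix.diag_apply, pmat, Matrix.of_apply, hs, Fintype.sum_prod_type, sum_zmod]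
  simp +decide
  ring

lemma trace_conj (k g : GL J9 F) :
    ((k * g * k⁻¹ : GL J9 F) : Matrix J9 J9 F).trace = (g : Matrix J9 J9 F).trace := by
  rw [Units.val_mul, Units.val_mul, Matrix.trace_units_conj]

lemma act_tA (A : Amb ω) (hω : IsPrimitiveRoot ω 3) (v : V9) : act (T9 ω) tA v = (-v.1, v.2) :=
  act9_eq hω (tA_mem A hω).1 (c := 1) (by rw [one_smul]; exact coe_tA_conj hω v)

lemma act_jJ (A : Amb ω) (hω : IsPrimitiveRoot ω 3) (v : V9) : act (T9 ω) jJ v = -v :=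
  act9_eq hω (jJ_mem A hω).1 (c := 1) (by rw [one_smul]; exact coe_jJ_conj hω v)

lemma shear_act (A : Amb ω) (hω : IsPrimitiveRoot ω 3) (v : V9) :
    act (T9 ω) (pmHom shearPerm) v = ((v.1.1, v.1.2 - v.2.2), (v.2.1 + v.1.1, v.2.2)) := by
  refine act9_eq hω (pm_shear_mem A hω).1 (c := 1) ?_
  have h3 := hω.pow_eq_one
  rw [one_smul]
  change pmat _ * T9 ω v = T9 ω _ * pmat _
  ext i j
  rw [Matrix.mul_apply, Matrix.mul_apply, Finset.sum_eq_single (j + (v.1.1, v.2.1)),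
    Finset.sum_eq_single (j.1, j.2 + j.1)]
  · obtain ⟨j1, j2⟩ := j
    obtain ⟨i1, i2⟩ := i
    have e1 : (v.1.2 - v.2.2) * j1 + v.2.2 * (j2 + j1) = v.1.2 * j1 + v.2.2 * j2 := by ring
    have e2 : j2 + v.2.1 + (j1 + v.1.1) = j2 + j1 + (v.2.1 + v.1.1) := by ring
    simp [pmat, T9_apply h3, shearPerm, e1, e2]
    split_ifs <;> ring
  · intro x _ hx; simp [pmat, shearPerm, hx]
  · simp
  · intro x _ hx; simp [T9_apply h3, hx]
  · simp

/-- An involution which is a Pauli multiple of an involution inverting it is a conjugate of that. -/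
lemma eq_conj (A : Amb ω) (hω : IsPrimitiveRoot ω 3) {n τ : GL J9 F} (hn : n ∈ N9 ω ⊓ A.G9)
    (hn2 : n * n = 1) (hτ : τ ∈ N9 ω ⊓ A.G9) (hτ2 : τ * τ = 1) {c : F} {v : V9}
    (hτv : (τ : Matrix J9 J9 F) * T9 ω v = T9 ω (-v) * (τ : Matrix J9 J9 F))
    (h : (n : Matrix J9 J9 F) = c • (T9 ω v * (τ : Matrix J9 J9 F))) :
    ∃ k ∈ N9 ω ⊓ A.G9, n = k * τ * k⁻¹ := by
  have h3 := hω.pow_eq_one
  set k := T9gl h3 (-v)
  refine ⟨k, T9gl_mem A hω _, ?_⟩
  have hvv : ∀ x : V9, -x + -x = x := by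
    have e : ∀ a : ZMod 3, -a + -a = a := by decide
    intro x; exact Prod.ext (Prod.ext (e _) (e _)) (Prod.ext (e _) (e _))
  have hinv : ((k⁻¹ : GL J9 F) : Matrix J9 J9 F) = T9 ω (-v) * T9 ω (-v) := by
    change (P3 ω (-v).1 * P3 ω (-v).1) ⊗ₖ (P3 ω (-v).2 * P3 ω (-v).2) = _
    rw [T9, ← Matrix.mul_kronecker_mul]
  obtain ⟨d, hd⟩ : ∃ d : F, (n : Matrix J9 J9 F) = d • ((k * τ * k⁻¹ : GL J9 F) : Matrix J9 J9 F) := by
    rw [T9_mul h3, hvv] at hinv
    refine ⟨c * (ph ω ((-v).1.2 * (-v).1.1 + (-v).2.2 * (-v).2.1) *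
      ph ω ((-v).1.2 * (-v).1.1 + (-v).2.2 * (-v).2.1))⁻¹, ?_⟩
    rw [Units.val_mul, Units.val_mul, hinv, coe_T9gl, Matrix.mul_smul, mul_assoc, hτv, ← mul_assoc,
      T9_mul h3, hvv, Matrix.smul_mul, smul_smul, smul_smul, h]
    congr 1
    field_simp [ph_ne_zero h3]
  have hk2 : (k * τ * k⁻¹) * (k * τ * k⁻¹) = 1 := by
    rw [show k * τ * k⁻¹ * (k * τ * k⁻¹) = k * (τ * τ) * k⁻¹ by group, hτ2]; group
  have hd2 : d * d = 1 := by
    have e := congrArg (fun g : GL J9 F => (g : Matrix J9 J9 F)) hn2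
    simp only [Units.val_mul, Units.val_one, hd, Matrix.smul_mul, Matrix.mul_smul, smul_smul] at e
    have e' := congrArg (fun g : GL J9 F => (g : Matrix J9 J9 F)) hk2
    simp only [Units.val_mul, Units.val_one] at e'
    rw [e'] at e
    exact smul_left_injective F (one_ne_zero (α := Matrix J9 J9 F)) (e.trans (one_smul F _).symm)
  have hd9 : d ^ 9 = 1 := by
    have e := congrArg Matrix.det hd
    rw [mem_specialLinear.mp hn.2.2, Matrix.det_smul,
      mem_specialLinear.mp (mul_mem (mul_mem (T9gl_mem A hω (-v)) hτ) (inv_mem (T9gl_mem A hω (-v)))).2.2] at e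
    simpa using e.symm
  have hd1 : d = 1 := by
    rw [show d ^ 9 = d * (d * d) ^ 4 by ring, hd2, one_pow, mul_one] at hd9
    exact hd9
  exact Units.ext (by rw [hd, hd1, one_smul])

/-- A symplectic involution of a plane is a sign. -/
lemma plane_involution : ∀ a b c d : ZMod 3, a * d - b * c = 1 →
    a * a + b * c = 1 → c * a + d * c = 0 → a * b + b * d = 0 → c * b + d * d = 1 →
    (a = 1 ∧ b = 0 ∧ c = 0 ∧ d = 1) ∨ (a = -1 ∧ b = 0 ∧ c = 0 ∧ d = -1) := by decide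

/-- The involutions of the normaliser are conjugate to the two parities. -/
theorem involution_cases (A : Amb ω) (hω : IsPrimitiveRoot ω 3) {n : GL J9 F}
    (hn : n ∈ N9 ω ⊓ A.G9) (hn2 : n * n = 1) (hn1 : n ≠ 1) :
    (∃ k ∈ N9 ω ⊓ A.G9, n = k * jJ * k⁻¹) ∨ ∃ k ∈ N9 ω ⊓ A.G9, n = k * tA * k⁻¹ := by
  have h3 := hω.pow_eq_one
  -- acting as minus the identity
  have minus : (∀ v, act (T9 ω) n v = -v) → ∃ k ∈ N9 ω ⊓ A.G9, n = k * jJ * k⁻¹ := by
    intro h
    obtain ⟨c, v, hv⟩ := eq_T9_of_act_id hω (mul_mem hn.1 (jJ_mem A hω).1) fun u => by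
      rw [act9_mul hω hn.1 (jJ_mem A hω).1, act_jJ A hω, h, neg_neg]
    have e : (n : Matrix J9 J9 F) = c • (T9 ω v * ((jJ : GL J9 F) : Matrix J9 J9 F)) := by
      rw [← Matrix.smul_mul, ← hv, ← Units.val_mul, mul_assoc, jJ_sq, mul_one]
    obtain ⟨k, hk, hk'⟩ := eq_conj A hω hn hn2 (jJ_mem A hω) jJ_sq (coe_jJ_conj hω v) e
    exact ⟨k, hk, hk'⟩
  by_cases hex : ∃ e, act (T9 ω) n e ≠ e
  swap
  · push Not at hex
    obtain ⟨c, v, hv⟩ := eq_T9_of_act_id hω hn.1 hex
    refine absurd ?_ hn1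
    have e := congrArg (fun g : GL J9 F => (g : Matrix J9 J9 F)) hn2
    simp only [Units.val_mul, Units.val_one, hv, Matrix.smul_mul, Matrix.mul_smul, smul_smul,
      T9_mul h3] at e
    have hv0 : v = 0 := by
      by_contra hne
      have hne' : v + v ≠ 0 := by
        intro h0
        have e3 : ∀ a : ZMod 3, a + a = 0 → a = 0 := by decide
        simp only [Prod.ext_iff, Prod.fst_add, Prod.snd_add, Prod.fst_zero, Prod.snd_zero] at h0
        exact hne (Prod.ext (Prod.ext (e3 _ h0.1.1) (e3 _ h0.1.2)) (Prod.ext (e3 _ h0.2.1) (e3 _ h0.2.2)))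
      have := li_pair (T9_li hω) hne'.symm (c := -1) (d := c * c * ph ω (v.1.2 * v.1.1 + v.2.2 * v.2.1))
        (by rw [T9_zero, mul_assoc, e]; simp)
      exact one_ne_zero (α := F) (neg_eq_zero.mp this)
    subst hv0
    simp at e hv
    have hc2 : c * c = 1 := by
      have := congrFun (congrFun e (0 : J9)) 0
      simpa using this
    have hc9 : c ^ 9 = 1 := by
      have h := mem_specialLinear.mp hn.2.2
      rw [hv, Matrix.det_smul] at h
      simpa using h
    have hc1 : c = 1 := by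
      rw [show c ^ 9 = c * (c * c) ^ 4 by ring, hc2, one_pow, mul_one] at hc9
      exact hc9
    exact Units.ext (by rw [hv, hc1, one_smul, Units.val_one])
  obtain ⟨u, hu⟩ := hex
  set σ := act (T9 ω) n with hσ
  have hσσ : ∀ x, σ (σ x) = x := fun x => by rw [hσ, ← act9_mul hω hn.1 hn.1, hn2, act9_one hω]
  have hσadd : ∀ x y, σ (x + y) = σ x + σ y := act9_add hω hn.1
  have hσneg : ∀ x, σ (-x) = -σ x := act9_neg hω hn.1
  -- a hyperbolic pair in the minus space
  set e := u - σ u with he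
  have he0 : e ≠ 0 := sub_ne_zero.mpr (Ne.symm hu)
  have hσe : σ e = -e := by rw [he, sub_eq_add_neg, hσadd, hσneg, hσσ]; abel
  obtain ⟨g, hg⟩ : ∃ g, B9 e g = 1 := by
    have e3 : ∀ x : V3, x ≠ 0 → ∃ y, B3 x y = 1 := by decide
    by_cases h1 : e.1 = 0
    · obtain ⟨y, hy⟩ := e3 e.2 fun h' => he0 (Prod.ext h1 h')
      exact ⟨(0, y), by rw [← hy]; simp [B9, h1, B3]⟩
    · obtain ⟨y, hy⟩ := e3 e.1 h1
      exact ⟨(y, 0), by rw [← hy]; simp [B9, B3]⟩
  set f := -(g - σ g) with hf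
  have hσf : σ f = -f := by rw [hf, hσneg, sub_eq_add_neg, hσadd, hσneg, hσσ]; abel
  have hneg : ∀ x y, B9 x (-y) = -B9 x y := fun x y => by unfold B9 B3; simp; ring
  have hadd' : ∀ x y z, B9 x (y + z) = B9 x y + B9 x z := fun x y z => by unfold B9 B3; simp; ring
  have hef : B9 e f = 1 := by
    have h1 : B9 e (σ g) = -1 := by
      rw [← act9_B9 hω hn.1 e (σ g)]
      change B9 (σ e) (σ (σ g)) = -1
      rw [hσe, hσσ, ← hg]
      unfold B9 B3; simp; ring
    rw [hf, hneg, sub_eq_add_neg, hadd', hneg, hg, h1]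
    decide
  -- move the pair to the first factor
  obtain ⟨k0, hk0, c0, -, hk0c⟩ := exists_conj A hω he0 (show (((0, 1), 0) : V9) ≠ 0 by decide)
  have hk0e := act9_eq hω hk0.1 hk0c
  obtain ⟨b, x, hf0⟩ : ∃ b x, act (T9 ω) k0 f = ((1, b), x) := by
    refine ⟨(act (T9 ω) k0 f).1.2, (act (T9 ω) k0 f).2, Prod.ext (Prod.ext ?_ rfl) rfl⟩
    have h := act9_B9 hω hk0.1 e f
    rw [hef, hk0e] at h
    simpa [B9, B3] using h
  obtain ⟨k1, hk1, hk1e, b1, hk1f⟩ : ∃ k ∈ N9 ω ⊓ A.G9,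
      act (T9 ω) k ((0, 1), 0) = ((0, 1), 0) ∧ ∃ b' : ZMod 3, act (T9 ω) k ((1, b), x) = ((1, b'), 0) := by
    by_cases hx : x = 0
    · subst hx; exact ⟨1, one_mem _, act9_one hω _, b, act9_one hω _⟩
    · obtain ⟨r1, hr1, hr1x⟩ := exists_word_to hω hx
      obtain ⟨r2, hr2, hr2x⟩ := exists_word_to hω (show ((2, 0) : V3) ≠ 0 by decide)
      have hr : r2 * r1⁻¹ ∈ wordGroup hω := mul_mem hr2 (inv_mem hr1)
      have hrN := wordGroup_le_N3 hω hr
      have hrx : act (P3 ω) (r2 * r1⁻¹) x = (2, 0) := by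
        have h1N := wordGroup_le_N3 hω hr1
        rw [act_mul (P3_li hω) (wordGroup_le_N3 hω hr2) (inv_mem h1N), ← hr1x,
          ← act_mul (P3_li hω) (inv_mem h1N) h1N, inv_mul_cancel, act3_one hω, hr2x]
      have hkr := kron_word_right_mem A hω hr
      have hact : ∀ p : V9, act (T9 ω) (kronHom (1, r2 * r1⁻¹)) p = (p.1, act (P3 ω) (r2 * r1⁻¹) p.2) := by
        intro p
        obtain ⟨d, hd⟩ := act_spec hrN p.2
        refine act9_eq hω hkr.1 (c := d) ?_
        simp only [coe_kronHom, T9, ← Matrix.mul_kronecker_mul, Units.val_one, one_mul, mul_one]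
        rw [hd, Matrix.kronecker_smul]
      refine ⟨pmHom shearPerm * kronHom (1, r2 * r1⁻¹), mul_mem (pm_shear_mem A hω) hkr, ?_, b, ?_⟩
      · rw [act9_mul hω (pm_shear_mem A hω).1 hkr.1, hact]
        simp only [act3_zero hω hrN]
        exact shear_act A hω _ |>.trans (by simp)
      · rw [act9_mul hω (pm_shear_mem A hω).1 hkr.1, hact, hrx]
        exact shear_act A hω _ |>.trans (by simp; decide)
  obtain ⟨k2, hk2, hk2e, hk2f⟩ : ∃ k ∈ N9 ω ⊓ A.G9, act (T9 ω) k ((0, 1), 0) = ((0, 1), 0) ∧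
      act (T9 ω) k ((1, b1), 0) = ((1, 0), 0) := by
    have hq := kron_quad_left_mem A hω
    have hqa : ∀ p : V9, act (T9 ω) (kronHom (quadGL hω, 1)) p = ((p.1.1, p.1.2 + 2 * p.1.1), p.2) := by
      intro p
      refine act9_eq hω hq.1 (c := ph ω (p.1.1 * p.1.1)) ?_
      simp only [coe_kronHom, coe_quadGL, T9, ← Matrix.mul_kronecker_mul, quad_conj hω,
        Matrix.smul_kronecker, Units.val_one, one_mul, mul_one]
    have hpow : ∀ (m : ℕ) (p : V9), act (T9 ω) (kronHom (quadGL hω, 1) ^ m) p =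
        ((p.1.1, p.1.2 + m * (2 * p.1.1)), p.2) := by
      intro m
      induction m with
      | zero => intro p; simp [act9_one hω]
      | succ m ih =>
        intro p
        rw [pow_succ, act9_mul hω (pow_mem hq.1 m) hq.1, hqa, ih]
        push_cast
        exact Prod.ext (Prod.ext rfl (by ring)) rfl
    refine ⟨_, pow_mem hq b1.val, by rw [hpow]; simp, ?_⟩
    rw [hpow]
    have : ∀ y : ZMod 3, y + y * (2 * 1) = 0 := by decide
    simp only [ZMod.natCast_val, ZMod.cast_id', id_eq, this b1]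
  set k := k2 * k1 * k0 with hk
  have hkN : k ∈ N9 ω ⊓ A.G9 := mul_mem (mul_mem hk2 hk1) hk0
  have hke : act (T9 ω) k e = ((0, 1), 0) := by
    rw [hk, act9_mul hω (mul_mem hk2.1 hk1.1) hk0.1, hk0e, act9_mul hω hk2.1 hk1.1, hk1e, hk2e]
  have hkf : act (T9 ω) k f = ((1, 0), 0) := by
    rw [hk, act9_mul hω (mul_mem hk2.1 hk1.1) hk0.1, hf0, act9_mul hω hk2.1 hk1.1, hk1f, hk2f]
  set n' := k * n * k⁻¹ with hn'
  have hn'N : n' ∈ N9 ω ⊓ A.G9 := mul_mem (mul_mem hkN hn) (inv_mem hkN)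
  have hn'2 : n' * n' = 1 := by
    rw [hn', show k * n * k⁻¹ * (k * n * k⁻¹) = k * (n * n) * k⁻¹ by group, hn2]; group
  set s := act (T9 ω) n'
  have hsadd := act9_add hω hn'N.1
  have hsneg := act9_neg hω hn'N.1
  have hmove : ∀ p q : V9, act (T9 ω) k p = q → σ p = -p → s q = -q := by
    intro p q hpq hp
    change act (T9 ω) n' q = -q
    rw [hn', act9_mul hω (mul_mem hkN.1 hn.1) (inv_mem hkN.1), act9_inv hω hkN.1 hpq,
      act9_mul hω hkN.1 hn.1]
    change act (T9 ω) k (σ p) = -q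
    rw [hp, act9_neg hω hkN.1, hpq]
  have hs1 := hmove e _ hke hσe
  have hs2 := hmove f _ hkf hσf
  have hdec : ∀ (m : ℕ) p, s (m • p) = m • s p := by
    intro m p
    induction m with
    | zero => simp [s, act9_zero hω hn'N.1]
    | succ m ih => rw [succ_nsmul, succ_nsmul]; change act (T9 ω) n' _ = _; rw [hsadd]; rw [← ih]
  have hA1 : ∀ a : V3, s (a, 0) = (-a, 0) := by
    rintro ⟨a1, a2⟩
    have e : ((((a1, a2)), 0) : V9) = a2.val • (((0, 1), 0) : V9) + a1.val • (((1, 0), 0) : V9) := by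
      ext <;> simp
    conv_lhs => rw [e]
    change act (T9 ω) n' _ = _
    rw [hsadd]
    change s _ + s _ = _
    rw [hdec, hdec, hs1, hs2]
    ext <;> simp
  have hB1 : ∀ y : V3, (s (0, y)).1 = 0 := by
    intro y
    have hB : ∀ a : V3, B3 (-a) (s (0, y)).1 = 0 := by
      intro a
      have h := act9_B9 hω hn'N.1 (a, 0) (0, y)
      change B9 (s (a, 0)) (s (0, y)) = _ at h
      rw [hA1] at h
      simpa [B9, B3] using h
    have e3 : ∀ p : V3, (∀ a : V3, B3 (-a) p = 0) → p = 0 := by decide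
    exact e3 _ hB
  set t : V3 → V3 := fun y => (s (0, y)).2
  have ht : ∀ y, s (0, y) = (0, t y) := fun y => Prod.ext (hB1 y) rfl
  have hss : ∀ p, s (s p) = p := fun p => by
    change act (T9 ω) n' (act (T9 ω) n' p) = p
    rw [← act9_mul hω hn'N.1 hn'N.1, hn'2, act9_one hω]
  have htadd : ∀ y z, t (y + z) = t y + t z := fun y z => by
    have h : s (0, y + z) = s (0, y) + s (0, z) := by
      change act (T9 ω) n' _ = _
      rw [← hsadd]; simp
    exact congrArg Prod.snd h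
  have htlin : ∀ y, t y = y.1.val • t (1, 0) + y.2.val • t (0, 1) := by
    intro y
    let T : V3 →+ V3 := AddMonoidHom.mk' t htadd
    have e : y = y.1.val • ((1, 0) : V3) + y.2.val • ((0, 1) : V3) := by ext <;> simp
    conv_lhs => rw [e]
    change T _ = _
    rw [map_add, map_nsmul, map_nsmul]
    rfl
  have htt : ∀ y, t (t y) = y := fun y => by
    have h := hss (0, y)
    rw [ht, ht] at h
    exact congrArg Prod.snd h
  have htB : B3 (t (1, 0)) (t (0, 1)) = B3 (1, 0) (0, 1) := by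
    have h := act9_B9 hω hn'N.1 ((0, (1, 0)) : V9) (0, (0, 1))
    change B9 (s _) (s _) = _ at h
    rw [ht, ht] at h
    simpa [B9, B3] using h
  obtain ⟨⟨a, c⟩, ha⟩ : ∃ p, t (1, 0) = p := ⟨_, rfl⟩
  obtain ⟨⟨b', d⟩, hb⟩ : ∃ p, t (0, 1) = p := ⟨_, rfl⟩
  have q1 := htt (1, 0)
  have q2 := htt (0, 1)
  rw [ha, htlin, ha, hb] at q1
  rw [hb, htlin, ha, hb] at q2
  rw [ha, hb] at htB
  simp [Prod.ext_iff, B3] at q1 q2 htB
  rcases plane_involution a b' c d (by linear_combination -htB) (by linear_combination q1.1)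
      (by linear_combination q1.2) (by linear_combination q2.1) (by linear_combination q2.2) with
    ⟨rfl, rfl, rfl, rfl⟩ | ⟨rfl, rfl, rfl, rfl⟩
  · -- conjugate to `tA`
    have hst : ∀ p, s p = (-p.1, p.2) := by
      rintro ⟨p, y⟩
      have e : ((p, y) : V9) = (p, 0) + (0, y) := by simp
      conv_lhs => rw [e]
      change act (T9 ω) n' _ = _
      rw [hsadd]
      change s _ + s _ = _
      rw [hA1, ht, htlin, ha, hb]
      ext <;> simp
    obtain ⟨c', v, hv⟩ := eq_T9_of_act_id hω (mul_mem hn'N.1 (tA_mem A hω).1) fun p => by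
      rw [act9_mul hω hn'N.1 (tA_mem A hω).1, act_tA A hω]
      change s _ = _
      rw [hst]
      simp
    have e' : (n' : Matrix J9 J9 F) = c' • (T9 ω v * ((tA : GL J9 F) : Matrix J9 J9 F)) := by
      rw [← Matrix.smul_mul, ← hv, ← Units.val_mul, mul_assoc, tA_sq, mul_one]
    have hv2 : v.2 = 0 := by
      have e2 := congrArg (fun g : GL J9 F => (g : Matrix J9 J9 F)) hn'2
      simp only [Units.val_mul, Units.val_one, e', Matrix.smul_mul, Matrix.mul_smul, smul_smul] at e2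
      rw [mul_assoc, ← mul_assoc _ (T9 ω v), coe_tA_conj hω, mul_assoc (T9 ω (-v.1, v.2)),
        ← Units.val_mul, tA_sq, Units.val_one, mul_one, T9_mul h3, smul_smul] at e2
      by_contra hne
      have e3 : ∀ y : ZMod 3, y + y = 0 → y = 0 := by decide
      have hne' : v + (-v.1, v.2) ≠ 0 := fun h0 => by
        simp only [Prod.ext_iff, Prod.fst_add, Prod.snd_add, Prod.fst_zero, Prod.snd_zero] at h0
        exact hne (Prod.ext (e3 _ h0.2.1) (e3 _ h0.2.2))
      have := li_pair (T9_li hω) hne'.symm (c := -1)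
        (d := c' * c' * ph ω (v.1.2 * (-v.1).1 + v.2.2 * v.2.1)) (by rw [T9_zero, e2]; simp)
      exact one_ne_zero (α := F) (neg_eq_zero.mp this)
    have hτv : ((tA : GL J9 F) : Matrix J9 J9 F) * T9 ω v = T9 ω (-v) * ((tA : GL J9 F) : Matrix J9 J9 F) := by
      rw [coe_tA_conj hω, show (-v : V9) = (-v.1, v.2) from Prod.ext rfl (by simp [hv2])]
    obtain ⟨j, hj, hj'⟩ := eq_conj A hω hn'N hn'2 (tA_mem A hω) tA_sq hτv e'
    refine Or.inr ⟨k⁻¹ * j, mul_mem (inv_mem hkN) hj, ?_⟩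
    rw [show n = k⁻¹ * n' * k by rw [hn']; group, hj']; group
  · refine Or.inl (minus fun p => ?_)
    have hsm : ∀ p, s p = -p := by
      rintro ⟨p, y⟩
      have e : ((p, y) : V9) = (p, 0) + (0, y) := by simp
      conv_lhs => rw [e]
      change act (T9 ω) n' _ = _
      rw [hsadd]
      change s _ + s _ = _
      rw [hA1, ht, htlin, ha, hb]
      ext <;> simp
    have hn_eq : n = k⁻¹ * n' * k := by rw [hn']; group
    rw [hσ, hn_eq, act9_mul hω (mul_mem (inv_mem hkN.1) hn'N.1) hkN.1,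
      act9_mul hω (inv_mem hkN.1) hn'N.1]
    change act (T9 ω) k⁻¹ (s _) = _
    rw [hsm, act9_neg hω (inv_mem hkN.1), act9_inv hω hkN.1 rfl]

end Glob

variable {F : Type*} [Field F] {ω : F} {A : Amb ω} {M : Subgroup (GL J9 F)}

/-- The Pauli group lies in the odd core, up to scalars. -/
theorem T9_mem_oddCore [Finite F] (hS : Setup A M) (hinv : ∀ g ∈ M, Commute g tA → g ∈ N9 ω) :
    ∀ v, ∃ x : M, x ∈ Cfsg.oddCore M ∧ ∃ c : F, ((x : GL J9 F) : Matrix J9 J9 F) = c • T9 ω v := by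
  have h3 := hS.root.pow_eq_one
  have hω := hS.root
  haveI : Fact (Nat.Prime 2) := ⟨Nat.prime_two⟩
  set NS : Subgroup M := (N9 ω ⊓ A.G9).subgroupOf M with hNS
  have hmem : ∀ {g : GL J9 F}, g ∈ N9 ω ⊓ A.G9 → g ∈ M := fun {g} h => hS.norm_le h
  set a : M := ⟨tA, hmem (tA_mem A hω)⟩ with ha
  set u : M := ⟨jJ, hmem (jJ_mem A hω)⟩ with hu
  have h8 : (8 : F) ≠ 0 := by
    rw [show (8 : F) = 2 * 2 * 2 by norm_num]
    exact mul_ne_zero (mul_ne_zero hS.two hS.two) hS.two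
  have tr1 : Matrix.trace (1 : Matrix J9 J9 F) = 9 := by simp
  have hne1 : ((1 : F) = -3) = False := eq_false fun h => by
    apply mul_ne_zero hS.two hS.two
    linear_combination h
  have hu1 : (jJ : GL J9 F) ≠ 1 := fun h => h8 (by
    have := Glob.trace_jJ (F := F)
    rw [h, Units.val_one, tr1] at this
    linear_combination this)
  have hcases : ∀ x : M, x ∈ NS → x * x = 1 → x ≠ 1 →
      (Matrix.trace ((x : GL J9 F) : Matrix J9 J9 F) = 1 ∧
        ∃ k ∈ NS, x = k * u * k⁻¹) ∨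
      (Matrix.trace ((x : GL J9 F) : Matrix J9 J9 F) = -3 ∧ ∃ k ∈ NS, x = k * a * k⁻¹) := by
    intro x hx hx2 hx1
    rcases Glob.involution_cases A hω (n := (x : GL J9 F)) hx
        (by rw [← Subgroup.coe_mul, hx2]; rfl) (fun h => hx1 (Subtype.ext h)) with ⟨k, hk, he⟩ | ⟨k, hk, he⟩
    · exact Or.inl ⟨by rw [he, Glob.trace_conj, Glob.trace_jJ],
        ⟨⟨k, hmem hk⟩, hk, Subtype.ext he⟩⟩
    · exact Or.inr ⟨by rw [he, Glob.trace_conj, Glob.trace_tA],
        ⟨⟨k, hmem hk⟩, hk, Subtype.ext he⟩⟩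
  have haN : a ∈ NS := tA_mem A hω
  have huN : u ∈ NS := jJ_mem A hω
  have ha2 : a * a = 1 := Subtype.ext Glob.tA_sq
  have hu2 : u * u = 1 := Subtype.ext Glob.jJ_sq
  have hpg : ∀ g : NS, g * g = 1 → IsPGroup 2 (Subgroup.zpowers g) := by
    intro g hg
    have hd : Nat.card (Subgroup.zpowers g) ∣ 2 ^ 1 := by
      rw [Nat.card_zpowers]; exact orderOf_dvd_of_pow_eq_one (by rw [pow_one, pow_two, hg])
    obtain ⟨m, -, hm⟩ := (Nat.dvd_prime_pow Nat.prime_two).mp hd
    exact IsPGroup.of_card hm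
  -- a Sylow subgroup of the normaliser through the parity, containing a conjugate of `tA`
  obtain ⟨S, hSu⟩ := (hpg ⟨u, huN⟩ (Subtype.ext hu2)).exists_le_sylow
  obtain ⟨S', hS'a⟩ := (hpg ⟨a, haN⟩ (Subtype.ext ha2)).exists_le_sylow
  obtain ⟨q, hq⟩ := MulAction.exists_smul_eq NS S' S
  set T : Subgroup M := (S : Subgroup NS).map NS.subtype with hT
  have hTle : T ≤ NS := Subgroup.map_subtype_le _
  have hTp : IsPGroup 2 T := S.isPGroup'.map _
  have huT : u ∈ T := ⟨⟨u, huN⟩, hSu (Subgroup.mem_zpowers _), rfl⟩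
  have haT : (q : M) * a * (q : M)⁻¹ ∈ T := by
    refine ⟨q * (⟨a, haN⟩ : NS) * q⁻¹, ?_, by simp only [Subgroup.coe_subtype, Subgroup.coe_mul, Subgroup.coe_inv]⟩
    rw [← hq, Sylow.coe_subgroup_smul]
    exact Subgroup.mem_pointwise_smul_iff_inv_smul_mem.mpr (by
      simpa [MulAut.conj, mul_assoc] using hS'a (Subgroup.mem_zpowers _))
  -- the normaliser of `T` lies in the normaliser
  have hNT : Subgroup.normalizer (T : Set M) ≤ NS := by
    intro g hg
    set b : M := (q : M) * a * (q : M)⁻¹ with hb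
    have hgb : g * b * g⁻¹ ∈ T := (Subgroup.mem_normalizer_iff.mp hg b).mp haT
    have hb2 : g * b * g⁻¹ * (g * b * g⁻¹) = 1 := by
      rw [hb]
      calc _ = g * q * (a * a) * ((q : M)⁻¹ * g⁻¹) := by group
        _ = 1 := by rw [ha2]; group
    have htr : Matrix.trace (((g * b * g⁻¹ : M) : GL J9 F) : Matrix J9 J9 F) = -3 := by
      rw [hb, Subgroup.coe_mul, Subgroup.coe_mul, Subgroup.coe_inv, Glob.trace_conj, Subgroup.coe_mul,
        Subgroup.coe_mul, Subgroup.coe_inv, Glob.trace_conj, Glob.trace_tA]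
    have hne : g * b * g⁻¹ ≠ 1 := fun h => by
      rw [h, Subgroup.coe_one, Units.val_one, tr1] at htr
      exact mul_ne_zero (mul_ne_zero hS.two hS.two) hS.three (by linear_combination htr)
    obtain ⟨k, hk, hke⟩ : ∃ k ∈ NS, g * b * g⁻¹ = k * a * k⁻¹ := by
      rcases hcases _ (hTle hgb) hb2 hne with ⟨h1, -⟩ | ⟨-, h⟩
      · rw [htr] at h1
        exact (hne1 ▸ h1.symm : False).elim
      · exact h
    have hcomm : Commute (k⁻¹ * g * (q : M)) a := by
      rw [hb] at hke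
      show k⁻¹ * g * (q : M) * a = a * (k⁻¹ * g * (q : M))
      calc k⁻¹ * g * (q : M) * a
          = k⁻¹ * (g * ((q : M) * a * (q : M)⁻¹) * g⁻¹) * (g * (q : M)) := by group
        _ = k⁻¹ * (k * a * k⁻¹) * (g * (q : M)) := by rw [hke]
        _ = _ := by group
    have hz : k⁻¹ * g * (q : M) ∈ NS :=
      ⟨hinv _ (k⁻¹ * g * (q : M)).2 (hcomm.map M.subtype), hS.le (k⁻¹ * g * (q : M)).2⟩
    exact (NS.mul_mem_cancel_left (inv_mem hk)).mp ((NS.mul_mem_cancel_right q.2).mp hz)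
  -- so `T` is a Sylow subgroup
  obtain ⟨P, hTP⟩ := hTp.exists_le_sylow
  have hPT : (P : Subgroup M) = T := by
    refine le_antisymm (fun y hy => ?_) hTP
    haveI : Group.IsNilpotent (P : Subgroup M) := P.isPGroup'.isNilpotent
    by_contra hne
    set T' := T.subgroupOf (P : Subgroup M)
    have hlt : T' < ⊤ := lt_top_iff_ne_top.mpr fun h => hne
      (Subgroup.mem_subgroupOf.mp (show (⟨y, hy⟩ : (P : Subgroup M)) ∈ T' by rw [h]; trivial))
    obtain ⟨z, hz, hzT⟩ := SetLike.exists_of_lt (Group.normalizerCondition_of_isNilpotent T' hlt)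
    have hzN : (z : M) ∈ Subgroup.normalizer (T : Set M) := by
      rw [Subgroup.mem_normalizer_iff]
      intro x
      constructor
      · intro hx
        exact (Subgroup.mem_normalizer_iff.mp hz ⟨x, hTP hx⟩).mp hx
      · intro hx
        have hxP : x ∈ (P : Subgroup M) := by
          have := mul_mem (mul_mem (inv_mem z.2) (hTP hx)) z.2
          simpa [mul_assoc] using this
        exact (Subgroup.mem_normalizer_iff.mp hz ⟨x, hxP⟩).mpr hx
    refine hzT (Subgroup.mem_subgroupOf.mpr ⟨⟨z, hNT hzN⟩, ?_, rfl⟩)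
    have hU : IsPGroup 2 ((Subgroup.normalizer (T : Set M) ⊓ (P : Subgroup M)).subgroupOf NS) :=
      (P.isPGroup'.to_le inf_le_right).comap_of_injective _ Subtype.val_injective
    have hle : (S : Subgroup NS) ≤ (Subgroup.normalizer (T : Set M) ⊓ (P : Subgroup M)).subgroupOf NS :=
      fun x hx => ⟨Subgroup.le_normalizer ⟨x, hx, rfl⟩, hTP ⟨x, hx, rfl⟩⟩
    rw [← S.is_maximal' hU hle]
    exact ⟨hzN, z.2⟩
  -- the parity is isolated
  have hiso : ∀ g : M, g * u * g⁻¹ ∈ P → g * u * g⁻¹ = u := by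
    intro g hg
    have hg' : g * u * g⁻¹ ∈ T := hPT ▸ hg
    set x := g * u * g⁻¹ with hx
    have hx2 : x * x = 1 := by
      rw [hx]
      calc _ = g * (u * u) * g⁻¹ := by group
        _ = 1 := by rw [hu2]; group
    have htr : Matrix.trace ((x : GL J9 F) : Matrix J9 J9 F) = 1 := by
      rw [hx, Subgroup.coe_mul, Subgroup.coe_mul, Subgroup.coe_inv, Glob.trace_conj, Glob.trace_jJ]
    have hne : x ≠ 1 := fun h => by
      rw [h, Subgroup.coe_one, Units.val_one, tr1] at htr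
      exact h8 (by linear_combination htr)
    obtain ⟨k, hk, hke⟩ : ∃ k ∈ NS, x = k * u * k⁻¹ := by
      rcases hcases _ (hTle hg') hx2 hne with ⟨-, h⟩ | ⟨h1, -⟩
      · exact h
      · rw [htr] at h1
        exact (hne1 ▸ h1 : False).elim
    have hxact : ∀ v, act (T9 ω) (x : GL J9 F) v = -v := by
      intro v
      have hkN : (k : GL J9 F) ∈ N9 ω := hk.1
      rw [hke, Subgroup.coe_mul, Subgroup.coe_mul, Subgroup.coe_inv,
        Glob.act9_mul hω (mul_mem hkN (jJ_mem A hω).1) (inv_mem hkN),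
        Glob.act9_mul hω hkN (jJ_mem A hω).1, Glob.act_jJ A hω, Glob.act9_neg hω hkN,
        ← Glob.act9_mul hω hkN (inv_mem hkN), mul_inv_cancel, Glob.act9_one hω]
    set y : M := x * u with hy
    have hyN : (y : GL J9 F) ∈ N9 ω := (hTle (mul_mem hg' huT)).1
    obtain ⟨c, v, hcv⟩ := Glob.eq_T9_of_act_id hω hyN fun w => by
      rw [hy, Subgroup.coe_mul]
      change act (T9 ω) ((x : GL J9 F) * jJ) w = w
      have hxN : (x : GL J9 F) ∈ N9 ω := (hTle hg').1
      rw [Glob.act9_mul hω hxN (jJ_mem A hω).1, Glob.act_jJ A hω, hxact, neg_neg]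
    have hc9 : c ^ 9 = 1 := by
      have h := mem_specialLinear.mp (hS.le y.2).2
      rw [hcv, Matrix.det_smul, det_T9 hω, mul_one] at h
      simpa using h
    have hy9 : y ^ 9 = 1 := by
      refine Subtype.ext (Units.ext ?_)
      rw [Subgroup.coe_pow, Units.val_pow_eq_pow_val, hcv, smul_pow, hc9, one_smul,
        show 9 = 3 * 3 from rfl, pow_mul, pow_three (T9 ω v), ← mul_assoc, T9_cube h3, one_pow,
        Subgroup.coe_one, Units.val_one]
    have hy1 : y = 1 := by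
      obtain ⟨m, hm⟩ := hTp ⟨y, mul_mem hg' huT⟩
      have hm' : y ^ 2 ^ m = 1 := by
        simpa using congrArg (fun z : T => (z : M)) hm
      have h1 : orderOf y ∣ Nat.gcd 9 (2 ^ m) :=
        Nat.dvd_gcd (orderOf_dvd_of_pow_eq_one hy9) (orderOf_dvd_of_pow_eq_one hm')
      rw [Nat.Coprime.gcd_eq_one (Nat.Coprime.pow_right m (by norm_num))] at h1
      exact orderOf_eq_one_iff.mp (Nat.dvd_one.mp h1)
    rw [hy] at hy1
    rw [eq_inv_of_mul_eq_one_left hy1, inv_eq_of_mul_eq_one_right hu2]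
  have huo : orderOf u = 2 := orderOf_eq_prime (by rw [pow_two, hu2])
    fun h => hu1 (congrArg Subtype.val h)
  intro v
  set w : M := ⟨T9gl h3 v, hmem (T9gl_mem A hω v)⟩
  refine ⟨u * w * u⁻¹ * w⁻¹, CfsgLib.Involutions.zstar_isolated P huo hiso w,
    ph ω ((-v).1.2 * (v + v).1.1 + (-v).2.2 * (v + v).2.1) * ph ω (v.1.2 * v.1.1 + v.2.2 * v.2.1), ?_⟩
  have hui : u⁻¹ = u := inv_eq_of_mul_eq_one_right hu2
  rw [hui, Subgroup.coe_mul, Subgroup.coe_mul, Subgroup.coe_mul, Subgroup.coe_inv, Units.val_mul,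
    Units.val_mul, Units.val_mul]
  change ((jJ : GL J9 F) : Matrix J9 J9 F) * T9 ω v * ((jJ : GL J9 F) : Matrix J9 J9 F) *
    ((T9gl h3 v)⁻¹ : GL J9 F) = _
  have hinv : (((T9gl h3 v)⁻¹ : GL J9 F) : Matrix J9 J9 F) = T9 ω v * T9 ω v := by
    change (P3 ω v.1 * P3 ω v.1) ⊗ₖ (P3 ω v.2 * P3 ω v.2) = _
    rw [T9, ← Matrix.mul_kronecker_mul]
  rw [Glob.coe_jJ_conj hω, mul_assoc (T9 ω (-v)), ← Units.val_mul, Glob.jJ_sq, Units.val_one, mul_one,
    hinv, T9_mul h3, Matrix.mul_smul, T9_mul h3, smul_smul, neg_add_cancel_left, mul_comm]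

end CfsgLib.Geometric.SLNine
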