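import Cfsg.Agent.Lib.Geometric.SLNine.Model
import Cfsg.Agent.Lib.CoprimeAction.Abelian
import Cfsg.Agent.Lib.PGroups.SLTwoThree

/-!
An overgroup of the normaliser of the Pauli group in which every element centralising a Pauli
matrix normalises: then every element centralising the parity `tA` normalises as well.
-/

set_option autoImplicit false
set_option linter.unusedSectionVars false

namespace CfsgLib.Geometric.SLNine

open scoped Kronecker

namespace InvCent

variable {F : Type*} [Field F] {ω : F}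

/-! ### The centraliser of the parity and its three-dimensional action -/

lemma sign_ne_zero (σ : Equiv.Perm J9) : ((Equiv.Perm.sign σ : ℤ) : F) ≠ 0 := by
  rcases Int.units_eq_one_or (Equiv.Perm.sign σ) with h | h <;> simp [h]

lemma mul_pmat_apply (g : Matrix J9 J9 F) (σ : Equiv.Perm J9) (a j : J9) :
    (g * pmat σ : Matrix J9 J9 F) a j = g a (σ j) * ((Equiv.Perm.sign σ : ℤ) : F) := by
  rw [Matrix.mul_apply, Finset.sum_eq_single (σ j)]
  · simp [pmat]
  · intro x _ hx; simp [pmat, hx]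
  · simp

lemma pmat_mul_apply (g : Matrix J9 J9 F) (σ : Equiv.Perm J9) (a j : J9) :
    (pmat σ * g : Matrix J9 J9 F) (σ a) j = ((Equiv.Perm.sign σ : ℤ) : F) * g a j := by
  rw [Matrix.mul_apply, Finset.sum_eq_single a]
  · simp [pmat]
  · intro x _ hx; simp [pmat, Ne.symm hx]
  · simp

lemma commute_apply {g : Matrix J9 J9 F} (h : Commute g (tA : GL J9 F).1) (i j : J9) :
    g (-i.1, i.2) (-j.1, j.2) = g i j := by
  have h' : (g * pmat ((Equiv.neg (ZMod 3)).prodCongr (Equiv.refl (ZMod 3))) :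
        Matrix J9 J9 F) (-i.1, i.2) j =
      (pmat ((Equiv.neg (ZMod 3)).prodCongr (Equiv.refl (ZMod 3))) * g :
        Matrix J9 J9 F) (-i.1, i.2) j := congrFun (congrFun h.eq _) _
  rw [mul_pmat_apply] at h'
  have e := pmat_mul_apply g ((Equiv.neg (ZMod 3)).prodCongr (Equiv.refl (ZMod 3))) i j
  simp only [Equiv.prodCongr_apply, Prod.map, Equiv.neg_apply, Equiv.refl_apply] at h' e
  rw [e, mul_comm] at h'
  exact mul_left_cancel₀ (sign_ne_zero _) h'

lemma cMinus_mul (g : Matrix J9 J9 F) {h : Matrix J9 J9 F} (hh : Commute h (tA : GL J9 F).1) :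
    cMinus (g * h) = cMinus g * cMinus h := by
  ext k l
  simp only [cMinus, Matrix.of_apply, Matrix.mul_apply, Fintype.sum_prod_type,
    ← Finset.sum_sub_distrib]
  rw [sum_zmod, ← Finset.sum_add_distrib, ← Finset.sum_add_distrib]
  refine Finset.sum_congr rfl fun m _ => ?_
  have hn1 : -(1 : ZMod 3) = 2 := by decide
  have hn2 : -(2 : ZMod 3) = 1 := by decide
  have e0 := commute_apply hh (0, m) (1, l)
  have e1 := commute_apply hh (1, m) (2, l)
  have e2 := commute_apply hh (1, m) (1, l)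
  simp only [neg_zero, hn1, hn2] at e0 e1 e2
  rw [e0, e1, e2]
  ring

lemma cMinus_one : cMinus (1 : Matrix J9 J9 F) = 1 := by
  ext k l
  have h12 : (1 : ZMod 3) ≠ 2 := by decide
  simp [cMinus, Matrix.one_apply, h12]

lemma cMinus_smul (c : F) (g : Matrix J9 J9 F) : cMinus (c • g) = c • cMinus g := by
  ext k l
  simp [cMinus, mul_sub]

lemma cMinus_kron (a b : Matrix (ZMod 3) (ZMod 3) F) :
    cMinus (a ⊗ₖ b) = (a 1 1 - a 1 2) • b := by
  ext k l
  simp [cMinus, Matrix.kroneckerMap_apply, sub_mul]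

lemma cMinus_T9 (v : V3) : cMinus (T9 ω (0, v)) = P3 ω v := by
  have h12 : (1 : ZMod 3) ≠ 2 := by decide
  rw [T9, cMinus_kron, P3_zero]
  simp [Matrix.one_apply, h12]

lemma commute_of_mem_centralizer {g : GL J9 F}
    (hg : g ∈ Subgroup.centralizer ({tA} : Set (GL J9 F))) :
    Commute (g : Matrix J9 J9 F) (tA : GL J9 F).1 := by
  have h : Commute g (tA : GL J9 F) := (Subgroup.mem_centralizer_iff.mp hg tA rfl).symm
  exact h.units_val

lemma mem_centralizer_of_commute {g : GL J9 F} (h : Commute g (tA : GL J9 F)) :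
    g ∈ Subgroup.centralizer ({tA} : Set (GL J9 F)) := by
  rw [Subgroup.mem_centralizer_iff]
  rintro x rfl
  exact h.eq.symm

/-- The three-dimensional action of the centraliser of the parity, as matrices. -/
def cMat : Subgroup.centralizer ({tA} : Set (GL J9 F)) →* Matrix (ZMod 3) (ZMod 3) F where
  toFun g := cMinus ((g : GL J9 F) : Matrix J9 J9 F)
  map_one' := cMinus_one
  map_mul' _ h := cMinus_mul _ (commute_of_mem_centralizer h.2)

/-- The three-dimensional action of the centraliser of the parity. -/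
def cHom : Subgroup.centralizer ({tA} : Set (GL J9 F)) →* GL (ZMod 3) F := cMat.toHomUnits

/-- The centraliser of the parity in a group. -/
abbrev cX (M : Subgroup (GL J9 F)) : Subgroup (GL J9 F) :=
  M ⊓ Subgroup.centralizer ({tA} : Set (GL J9 F))

/-- The three-dimensional action on `cX M`. -/
def cPhi (M : Subgroup (GL J9 F)) : cX M →* GL (ZMod 3) F :=
  cHom.comp (Subgroup.inclusion inf_le_right)

@[simp] lemma coe_cPhi {M : Subgroup (GL J9 F)} (x : cX M) :
    ((cPhi M x : GL (ZMod 3) F) : Matrix (ZMod 3) (ZMod 3) F) =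
      cMinus ((x : GL J9 F) : Matrix J9 J9 F) := rfl

lemma cPhi_eq_one_iff {M : Subgroup (GL J9 F)} (x : cX M) :
    cPhi M x = 1 ↔ cMinus ((x : GL J9 F) : Matrix J9 J9 F) = 1 := by
  rw [← Units.val_eq_one, coe_cPhi]

/-! ### Elementary facts -/

lemma conj_eq_of_smul {a b : GL J9 F} {c : F}
    (h : (a : Matrix J9 J9 F) = c • (b : Matrix J9 J9 F)) (k : GL J9 F) :
    a * k * a⁻¹ = b * k * b⁻¹ := by
  have hc : (b⁻¹ * a) * k = k * (b⁻¹ * a) := by
    apply Units.ext
    simp only [Units.val_mul, h, Matrix.mul_smul, Units.inv_mul, Matrix.smul_mul, one_mul, mul_one]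
  calc a * k * a⁻¹ = b * ((b⁻¹ * a) * k) * a⁻¹ := by group
    _ = b * (k * (b⁻¹ * a)) * a⁻¹ := by rw [hc]
    _ = b * k * b⁻¹ := by group

lemma T9_add_smul (hω : IsPrimitiveRoot ω 3) (v w : V9) :
    ∃ c : F, (T9gl hω.pow_eq_one (v + w) : GL J9 F).1 =
      c • (T9gl hω.pow_eq_one v * T9gl hω.pow_eq_one w : GL J9 F).1 := by
  refine ⟨(ph ω (v.1.2 * w.1.1 + v.2.2 * w.2.1))⁻¹, ?_⟩
  simp only [Units.val_mul, coe_T9gl, T9_mul hω.pow_eq_one, smul_smul,
    inv_mul_cancel₀ (ph_ne_zero hω.pow_eq_one _), one_smul]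

lemma T9gl_cube (hω : IsPrimitiveRoot ω 3) (v : V9) : T9gl hω.pow_eq_one v ^ 3 = 1 := by
  apply Units.ext
  simp [pow_succ, T9_cube hω.pow_eq_one]

lemma commute_T9gl_tA (hω : IsPrimitiveRoot ω 3) (v : V3) :
    Commute (T9gl hω.pow_eq_one ((0, v) : V9)) (tA : GL J9 F) := by
  have h := coe_tA_conj hω ((0, v) : V9)
  simp only [neg_zero] at h
  exact Units.ext (by simpa using h.symm)

lemma smul_mul_unit_eq {ι : Type} [Fintype ι] [DecidableEq ι] {a b : Matrix ι ι F} (u : GL ι F)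
    (h : a * (u : Matrix ι ι F) = b * (u : Matrix ι ι F)) : a = b := by
  calc a = a * (u : Matrix ι ι F) * ((u⁻¹ : GL ι F) : Matrix ι ι F) := by simp [mul_assoc]
    _ = b * (u : Matrix ι ι F) * ((u⁻¹ : GL ι F) : Matrix ι ι F) := by rw [h]
    _ = b := by simp [mul_assoc]

/-- Conjugating the defining equation of an element of the normaliser by the parity. -/
lemma mul_T9_parity (hω : IsPrimitiveRoot ω 3) {g : GL J9 F}
    (hc : Commute (g : Matrix J9 J9 F) (tA : GL J9 F).1) {v w : V9} {c : F}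
    (h : (g : Matrix J9 J9 F) * T9 ω v = c • (T9 ω w * (g : Matrix J9 J9 F))) :
    (g : Matrix J9 J9 F) * T9 ω (-v.1, v.2) = c • (T9 ω (-w.1, w.2) * (g : Matrix J9 J9 F)) := by
  apply smul_mul_unit_eq (tA : GL J9 F)
  calc (g : Matrix J9 J9 F) * T9 ω (-v.1, v.2) * (tA : GL J9 F).1
      = (g : Matrix J9 J9 F) * ((tA : GL J9 F).1 * T9 ω v) := by rw [coe_tA_conj hω v, mul_assoc]
    _ = (tA : GL J9 F).1 * ((g : Matrix J9 J9 F) * T9 ω v) := by rw [← mul_assoc, hc.eq, mul_assoc]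
    _ = c • (T9 ω (-w.1, w.2) * ((tA : GL J9 F).1 * (g : Matrix J9 J9 F))) := by
          rw [h, Matrix.mul_smul, ← mul_assoc, coe_tA_conj hω w, mul_assoc]
    _ = _ := by rw [← hc.eq, ← mul_assoc, Matrix.smul_mul]

/-- An element of the normaliser commuting with the parity, on the second factor. -/
lemma exists_snd (hω : IsPrimitiveRoot ω 3) {g : GL J9 F} (hg : g ∈ N9 ω)
    (hc : Commute (g : Matrix J9 J9 F) (tA : GL J9 F).1) (v : V3) :
    ∃ (w : V3) (c : F),
      (g : Matrix J9 J9 F) * T9 ω (0, v) = c • (T9 ω (0, w) * (g : Matrix J9 J9 F)) ∧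
      cMinus (g : Matrix J9 J9 F) * P3 ω v = c • (P3 ω w * cMinus (g : Matrix J9 J9 F)) := by
  obtain ⟨c, hw⟩ := act_spec (show g ∈ monNorm (T9 ω) from hg) ((0, v) : V9)
  have h2 := mul_T9_parity hω hc hw
  simp only [neg_zero] at h2
  have e := act_eq (T9_li hω) (show g ∈ monNorm (T9 ω) from hg) h2
  generalize act (T9 ω) g ((0, v) : V9) = w at hw e
  obtain ⟨w1, w2⟩ := w
  have e1 : w1 = -w1 := congrArg Prod.fst e
  have hz : ∀ x : V3, x = -x → x = 0 := by decide
  obtain rfl := hz w1 e1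
  refine ⟨w2, c, hw, ?_⟩
  have hT : Commute (T9 ω ((0, v) : V9)) (tA : GL J9 F).1 := by
    simpa using (commute_T9gl_tA hω v).units_val
  have h3 := congrArg cMinus hw
  rwa [cMinus_mul _ hT, cMinus_smul, cMinus_mul _ hc, cMinus_T9, cMinus_T9] at h3

lemma cMinus_mem_N3 (hω : IsPrimitiveRoot ω 3) {g : GL J9 F} (hg : g ∈ N9 ω)
    (hc : Commute (g : Matrix J9 J9 F) (tA : GL J9 F).1) {d : GL (ZMod 3) F}
    (hd : (d : Matrix (ZMod 3) (ZMod 3) F) = cMinus (g : Matrix J9 J9 F)) : d ∈ N3 ω := by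
  rw [mem_N3_iff hω]
  intro v
  obtain ⟨w, c, -, h⟩ := exists_snd hω hg hc v
  exact ⟨w, c, by rw [hd]; exact h⟩

lemma commute_snd (hω : IsPrimitiveRoot ω 3) {g : GL J9 F} (hg : g ∈ N9 ω)
    (hc : Commute (g : Matrix J9 J9 F) (tA : GL J9 F).1)
    (h1 : cMinus (g : Matrix J9 J9 F) = 1) (v : V3) :
    Commute g (T9gl hω.pow_eq_one ((0, v) : V9)) := by
  obtain ⟨w, c, hw, hP⟩ := exists_snd hω hg hc v
  rw [h1, one_mul, mul_one] at hP
  have hvw : v = w := by
    by_contra hne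
    exact one_ne_zero (li_pair (P3_li hω) hne (c := (1 : F)) (d := -c)
      (by rw [one_smul, neg_smul, ← hP, add_neg_cancel]))
  subst hvw
  have hc1 : c = 1 := by
    by_contra hne
    have h0 : (1 - c) • P3 ω v = 0 := by rw [sub_smul, one_smul, ← hP, sub_self]
    exact (P3_li hω).ne_zero v ((smul_eq_zero.mp h0).resolve_left (sub_ne_zero.mpr (Ne.symm hne)))
  subst hc1
  rw [one_smul] at hw
  exact Units.ext (by simpa using hw)

/-! ### The index action -/

lemma act_bform (hω : IsPrimitiveRoot ω 3) {g : GL J9 F} (hg : g ∈ monNorm (T9 ω)) (v w : V9) :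
    B9 (act (T9 ω) g v) (act (T9 ω) g w) = B9 v w := by
  have h3 := hω.pow_eq_one
  obtain ⟨c, hc⟩ := act_spec hg v
  obtain ⟨d, hd⟩ := act_spec hg w
  generalize act (T9 ω) g v = a at hc ⊢
  generalize act (T9 ω) g w = b at hd ⊢
  have e1 : (g : Matrix J9 J9 F) * (T9 ω v * T9 ω w) =
      (c * d * ph ω (B9 a b)) • (T9 ω b * T9 ω a * (g : Matrix J9 J9 F)) := by
    rw [← mul_assoc, hc, Matrix.smul_mul, mul_assoc, hd, Matrix.mul_smul, smul_smul, ← mul_assoc,
      T9_comm h3 a b, Matrix.smul_mul, smul_smul]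
  have e2 : (g : Matrix J9 J9 F) * (T9 ω v * T9 ω w) =
      (ph ω (B9 v w) * d * c) • (T9 ω b * T9 ω a * (g : Matrix J9 J9 F)) := by
    rw [T9_comm h3 v w, Matrix.mul_smul, ← mul_assoc, hd, Matrix.smul_mul, mul_assoc, hc,
      Matrix.mul_smul, smul_smul, smul_smul, ← mul_assoc, mul_assoc (ph ω (B9 v w))]
  have hne : c * d ≠ 0 := by
    intro h0
    have hz : (g : Matrix J9 J9 F) * (T9 ω v * T9 ω w) = 0 := by rw [e1, h0, zero_mul, zero_smul]
    exact (g * (T9gl h3 v * T9gl h3 w)).ne_zero (by simpa using hz)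
  have hX : T9 ω b * T9 ω a * (g : Matrix J9 J9 F) ≠ 0 := by
    simpa using (T9gl h3 b * T9gl h3 a * g).ne_zero
  have h4 := smul_left_injective F hX (e1.symm.trans e2)
  exact ph_inj hω (mul_left_cancel₀ hne (h4.trans (by ring)))

lemma act_add (hω : IsPrimitiveRoot ω 3) {g : GL J9 F} (hg : g ∈ monNorm (T9 ω)) (v w : V9) :
    act (T9 ω) g (v + w) = act (T9 ω) g v + act (T9 ω) g w := by
  have h3 := hω.pow_eq_one
  obtain ⟨c, hc⟩ := act_spec hg v
  obtain ⟨d, hd⟩ := act_spec hg w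
  generalize ea : act (T9 ω) g v = a at hc
  generalize eb : act (T9 ω) g w = b at hd
  refine act_eq (T9_li hω) hg (c := (ph ω (v.1.2 * w.1.1 + v.2.2 * w.2.1))⁻¹ *
    (c * d * ph ω (a.1.2 * b.1.1 + a.2.2 * b.2.1))) ?_
  have e : T9 ω (v + w) = (ph ω (v.1.2 * w.1.1 + v.2.2 * w.2.1))⁻¹ • (T9 ω v * T9 ω w) := by
    rw [T9_mul h3, smul_smul, inv_mul_cancel₀ (ph_ne_zero h3 _), one_smul]
  rw [e, Matrix.mul_smul, ← mul_assoc, hc, Matrix.smul_mul, mul_assoc, hd, Matrix.mul_smul,
    ← mul_assoc, T9_mul h3 a b, Matrix.smul_mul, smul_smul, smul_smul, smul_smul]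
  congr 1
  ring

/-! ### The kernel of the three-dimensional action inside the normaliser -/

/-- A normalising element commuting with the parity and trivial on the eigenspace. -/
structure IsKer (ω : F) (g : GL J9 F) : Prop where
  mem : g ∈ N9 ω
  comm : Commute (g : Matrix J9 J9 F) (tA : GL J9 F).1
  triv : cMinus (g : Matrix J9 J9 F) = 1

variable {g : GL J9 F}

lemma IsKer.act_snd (hω : IsPrimitiveRoot ω 3) (hg : IsKer ω g) (v : V3) :
    act (T9 ω) g (0, v) = (0, v) :=
  act_eq (T9_li hω) hg.mem (c := 1) (by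
    rw [one_smul]
    simpa using (commute_snd hω hg.mem hg.comm hg.triv v).units_val.eq)

lemma IsKer.act_fst (hω : IsPrimitiveRoot ω 3) (hg : IsKer ω g) (u : V3) :
    (act (T9 ω) g (u, 0)).2 = 0 := by
  have h : ∀ x : V3, (∀ y, B3 x y = 0) → x = 0 := by decide
  refine h _ fun y => ?_
  have := act_bform hω hg.mem ((u, 0) : V9) (0, y)
  rw [hg.act_snd hω] at this
  simpa [B9, B3] using this

/-- The index action on the first factor. -/
noncomputable def sFst (ω : F) (g : GL J9 F) (u : V3) : V3 := (act (T9 ω) g (u, 0)).1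

lemma IsKer.act_eq_sFst (hω : IsPrimitiveRoot ω 3) (hg : IsKer ω g) (u : V3) :
    act (T9 ω) g (u, 0) = (sFst ω g u, 0) := Prod.ext rfl (hg.act_fst hω u)

lemma IsKer.sFst_add (hω : IsPrimitiveRoot ω 3) (hg : IsKer ω g) (u w : V3) :
    sFst ω g (u + w) = sFst ω g u + sFst ω g w := by
  have h := act_add hω hg.mem ((u, 0) : V9) (w, 0)
  simp only [Prod.mk_add_mk, add_zero] at h
  exact congrArg Prod.fst h

lemma IsKer.sFst_b3 (hω : IsPrimitiveRoot ω 3) (hg : IsKer ω g) (u w : V3) :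
    B3 (sFst ω g u) (sFst ω g w) = B3 u w := by
  have := act_bform hω hg.mem ((u, 0) : V9) (w, 0)
  rw [hg.act_eq_sFst hω, hg.act_eq_sFst hω] at this
  simpa [B9, B3] using this

lemma lin_apply (f : V3 → V3) (hf : ∀ u w, f (u + w) = f u + f w) (x y : ZMod 3) :
    f (x, y) = (x * (f (1, 0)).1 + y * (f (0, 1)).1, x * (f (1, 0)).2 + y * (f (0, 1)).2) := by
  let φ : V3 →+ V3 := AddMonoidHom.mk' f hf
  have e : ((x, y) : V3) = x.val • ((1, 0) : V3) + y.val • ((0, 1) : V3) := by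
    simp [Prod.ext_iff]
  calc f (x, y) = φ (x, y) := rfl
    _ = x.val • f (1, 0) + y.val • f (0, 1) := by rw [e, map_add, map_nsmul, map_nsmul]; rfl
    _ = _ := by simp [Prod.ext_iff]

/-- The matrix of the index action on the first factor. -/
noncomputable def sMat (ω : F) (g : GL J9 F) : Matrix (Fin 2) (Fin 2) (ZMod 3) :=
  !![(sFst ω g (1, 0)).1, (sFst ω g (0, 1)).1; (sFst ω g (1, 0)).2, (sFst ω g (0, 1)).2]

lemma IsKer.det_sMat (hω : IsPrimitiveRoot ω 3) (hg : IsKer ω g) : (sMat ω g).det = 1 := by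
  have h : -B3 (sFst ω g (1, 0)) (sFst ω g (0, 1)) = 1 := by
    rw [hg.sFst_b3 hω]; decide
  rw [B3] at h
  rw [sMat, Matrix.det_fin_two_of]
  linear_combination h

lemma IsKer.mul {h : GL J9 F} (hg : IsKer ω g) (hh : IsKer ω h) : IsKer ω (g * h) :=
  ⟨mul_mem hg.mem hh.mem, hg.comm.mul_left hh.comm, by
    rw [Units.val_mul, cMinus_mul _ hh.comm, hg.triv, hh.triv, one_mul]⟩

lemma IsKer.sMat_mul (hω : IsPrimitiveRoot ω 3) {h : GL J9 F} (hg : IsKer ω g) (hh : IsKer ω h) :
    sMat ω (g * h) = sMat ω g * sMat ω h := by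
  have key : ∀ u, sFst ω (g * h) u = sFst ω g (sFst ω h u) := by
    intro u
    rw [sFst, act_mul (T9_li hω) hg.mem hh.mem, hh.act_eq_sFst hω]
    rfl
  ext i j
  fin_cases i <;> fin_cases j <;>
    simp [sMat, key, Matrix.mul_apply, Fin.sum_univ_two] <;>
    rw [← Prod.mk.eta (p := sFst ω h _), lin_apply _ (hg.sFst_add hω)] <;> ring

lemma IsKer.eq_one_of_sMat (hω : IsPrimitiveRoot ω 3) (hg : IsKer ω g) (h1 : sMat ω g = 1) :
    g = 1 := by
  have h3 := hω.pow_eq_one
  have a : (sFst ω g (1, 0)).1 = 1 := congrFun (congrFun h1 0) 0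
  have b : (sFst ω g (0, 1)).1 = 0 := congrFun (congrFun h1 0) 1
  have c : (sFst ω g (1, 0)).2 = 0 := congrFun (congrFun h1 1) 0
  have d : (sFst ω g (0, 1)).2 = 1 := congrFun (congrFun h1 1) 1
  have hs : ∀ u, sFst ω g u = u := by
    rintro ⟨x, y⟩
    rw [lin_apply _ (hg.sFst_add hω), a, b, c, d]
    simp
  have hfst : ∀ u : V3, (g : Matrix J9 J9 F) * T9 ω (u, 0) = T9 ω (u, 0) * (g : Matrix J9 J9 F) := by
    intro u
    obtain ⟨e, he⟩ := act_spec (show g ∈ monNorm (T9 ω) from hg.mem) ((u, 0) : V9)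
    rw [hg.act_eq_sFst hω, hs] at he
    have he' := mul_T9_parity hω hg.comm he
    have hX : T9 ω ((u, 0) : V9) * (g : Matrix J9 J9 F) ≠ 0 := by
      simpa using (T9gl h3 ((u, 0) : V9) * g).ne_zero
    have hG : (g : Matrix J9 J9 F) ≠ 0 := g.ne_zero
    have t3 := T9_cube h3 ((u, 0) : V9)
    have e3 : (g : Matrix J9 J9 F) = e ^ 3 • (g : Matrix J9 J9 F) := by
      calc (g : Matrix J9 J9 F)
          = (g : Matrix J9 J9 F) * T9 ω (u, 0) * T9 ω (u, 0) * T9 ω (u, 0) := by
            rw [mul_assoc, mul_assoc, ← mul_assoc (T9 ω ((u, 0) : V9)), t3, mul_one]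
        _ = e ^ 3 • (T9 ω (u, 0) * T9 ω (u, 0) * T9 ω (u, 0) * (g : Matrix J9 J9 F)) := by
            simp only [he, Matrix.smul_mul, Matrix.mul_smul, smul_smul, mul_assoc, pow_three]
        _ = _ := by rw [t3, one_mul]
    have he3 : e ^ 3 = 1 := smul_left_injective F hG (by simpa using e3.symm)
    obtain ⟨p, hp, hpp⟩ : ∃ p : F, p ≠ 0 ∧
        T9 ω (u, 0) * T9 ω (-u, 0) = p • (1 : Matrix J9 J9 F) :=
      ⟨_, ph_ne_zero h3 _, by rw [T9_mul h3, Prod.mk_add_mk, add_neg_cancel, add_zero,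
        show ((0, 0) : V9) = 0 from rfl, T9_zero]⟩
    have e2 : p • (g : Matrix J9 J9 F) = (e * e * p) • (g : Matrix J9 J9 F) := by
      calc p • (g : Matrix J9 J9 F)
          = (g : Matrix J9 J9 F) * T9 ω (u, 0) * T9 ω (-u, 0) := by
            rw [mul_assoc, hpp, Matrix.mul_smul, mul_one]
        _ = (e * e) • (T9 ω (u, 0) * T9 ω (-u, 0) * (g : Matrix J9 J9 F)) := by
            simp only [he, he', Matrix.smul_mul, Matrix.mul_smul, smul_smul, mul_assoc]
        _ = _ := by rw [hpp, Matrix.smul_mul, one_mul, smul_smul]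
    have he2 : e * e = 1 := by
      have := smul_left_injective F hG e2
      exact mul_right_cancel₀ hp (by rw [one_mul]; exact this.symm)
    have he1 : e = 1 := by
      calc e = e * (e * e) := by rw [he2, mul_one]
        _ = e ^ 3 := by ring
        _ = 1 := he3
    rw [he, he1, one_smul]
  have hall : ∀ v, (g : Matrix J9 J9 F) * T9 ω v = T9 ω v * (g : Matrix J9 J9 F) := by
    rintro ⟨u, x⟩
    have hx : Commute (g : Matrix J9 J9 F) (T9 ω ((0, x) : V9)) := by
      simpa using (commute_snd hω hg.mem hg.comm hg.triv x).units_val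
    have hu : Commute (g : Matrix J9 J9 F) (T9 ω ((u, 0) : V9)) := hfst u
    have e : T9 ω ((u, x) : V9) = T9 ω ((u, 0) : V9) * T9 ω ((0, x) : V9) := by
      simp [T9, ← Matrix.mul_kronecker_mul]
    rw [e]
    exact (hu.mul_right hx).eq
  obtain ⟨k, hk⟩ := eq_smul_one_of_commute_T9 hω hall
  have h1' := hg.triv
  rw [hk, cMinus_smul, cMinus_one] at h1'
  have : k = 1 := smul_left_injective F (one_ne_zero' (Matrix (ZMod 3) (ZMod 3) F)) (by simpa using h1')
  exact Units.ext (by rw [hk, this, one_smul, Units.val_one])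

/-! ### The element of order three -/

/-- The scaled quadratic element, `diag (ω², 1, 1) ⊗ 1`. -/
def qElt (hω : IsPrimitiveRoot ω 3) : GL J9 F :=
  (T9gl hω.pow_eq_one ((0, 1), 0) * T9gl hω.pow_eq_one ((2, 0), 0) *
    (T9gl hω.pow_eq_one ((0, 1), 0))⁻¹ * (T9gl hω.pow_eq_one ((2, 0), 0))⁻¹) *
    kronHom (quadGL hω, 1)

lemma coe_qElt (hω : IsPrimitiveRoot ω 3) :
    (qElt hω : GL J9 F).1 = (ω ^ 2) • (quadDiag ω ⊗ₖ (1 : Matrix (ZMod 3) (ZMod 3) F)) := by
  have h : (T9gl hω.pow_eq_one ((0, 1), 0) * T9gl hω.pow_eq_one ((2, 0), 0) : GL J9 F).1 =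
      ω ^ 2 • (T9gl hω.pow_eq_one ((2, 0), 0) * T9gl hω.pow_eq_one ((0, 1), 0) : GL J9 F).1 := by
    rw [Units.val_mul, Units.val_mul, coe_T9gl, coe_T9gl, T9_comm hω.pow_eq_one]
    simp [B9, B3, ph_two]
  rw [qElt]
  generalize T9gl hω.pow_eq_one ((0, 1), 0) = a at h ⊢
  generalize T9gl hω.pow_eq_one ((2, 0), 0) = b at h ⊢
  rw [mul_assoc _ a⁻¹ b⁻¹, ← mul_inv_rev, Units.val_mul, Units.val_mul (a * b), h, Matrix.smul_mul,
    ← Units.val_mul (b * a), mul_inv_cancel, Units.val_one, Matrix.smul_mul, one_mul, coe_kronHom,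
    coe_quadGL, Units.val_one]

lemma qElt_cube (hω : IsPrimitiveRoot ω 3) : qElt hω ^ 3 = 1 := by
  apply Units.ext
  have hd : quadDiag ω * quadDiag ω * quadDiag ω = 1 := by
    simp [quadDiag, Matrix.diagonal_mul_diagonal, ← ph_add hω.pow_eq_one,
      show ∀ j : ZMod 3, j * j + j * j + j * j = 0 from by decide]
  simp only [pow_succ, pow_zero, one_mul, Units.val_mul, coe_qElt, Matrix.smul_mul,
    Matrix.mul_smul, smul_smul, ← Matrix.mul_kronecker_mul, hd, Units.val_one,
    Matrix.one_kronecker_one]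
  rw [show ω * ω * (ω * ω * (ω * ω)) = (ω ^ 3) ^ 2 by ring, hω.pow_eq_one, one_pow, one_smul]

lemma trace_qElt (hω : IsPrimitiveRoot ω 3) :
    Matrix.trace (qElt hω : GL J9 F).1 = 3 * (ω ^ 2 + 2) := by
  rw [coe_qElt, Matrix.trace_smul, Matrix.trace_kronecker, Matrix.trace_one, smul_eq_mul,
    quadDiag, Matrix.trace_diagonal, sum_zmod, show (0 : ZMod 3) * 0 = 0 from rfl,
    show (1 : ZMod 3) * 1 = 1 from rfl, show (2 : ZMod 3) * 2 = 1 from rfl, ph_zero, ph_one]
  have h := hω.pow_eq_one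
  simp only [ZMod.card, Nat.cast_ofNat]
  linear_combination 6 * h

lemma trace_qElt_sq (hω : IsPrimitiveRoot ω 3) :
    Matrix.trace (qElt hω * qElt hω : GL J9 F).1 = 3 * (ω + 2) := by
  rw [Units.val_mul, coe_qElt, Matrix.smul_mul, Matrix.mul_smul, smul_smul,
    ← Matrix.mul_kronecker_mul, one_mul, Matrix.trace_smul, Matrix.trace_kronecker,
    Matrix.trace_one, smul_eq_mul, quadDiag, Matrix.diagonal_mul_diagonal, Matrix.trace_diagonal,
    sum_zmod, show (0 : ZMod 3) * 0 = 0 from rfl, show (1 : ZMod 3) * 1 = 1 from rfl,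
    show (2 : ZMod 3) * 2 = 1 from rfl, ph_zero, ph_one]
  have h := hω.pow_eq_one
  simp only [ZMod.card, Nat.cast_ofNat]
  linear_combination (3 * ω + 6 * (ω ^ 3 + 1)) * h

lemma trace_ne (hω : IsPrimitiveRoot ω 3) :
    Matrix.trace (qElt hω : GL J9 F).1 ≠ Matrix.trace (qElt hω * qElt hω : GL J9 F).1 := by
  rw [trace_qElt, trace_qElt_sq]
  intro h
  refine sub_sq_ne_zero hω ?_
  have h3 := three_ne_zero_of_root hω
  have : 3 * (ω - ω ^ 2) = 0 := by linear_combination -h
  exact (mul_eq_zero.mp this).resolve_left h3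

lemma qElt_ne_one (hω : IsPrimitiveRoot ω 3) : (qElt hω : GL J9 F) ≠ 1 := fun h =>
  trace_ne hω (by rw [h, one_mul])

lemma qElt_not_inverted (hω : IsPrimitiveRoot ω 3) (y : GL J9 F) :
    y * qElt hω * y⁻¹ ≠ qElt hω * qElt hω := by
  intro h
  apply trace_ne hω
  rw [← h, Units.val_mul, Units.val_mul, Matrix.trace_mul_comm, ← mul_assoc, Units.inv_mul,
    one_mul]

lemma commute_qElt_tA (hω : IsPrimitiveRoot ω 3) :
    Commute (qElt hω : GL J9 F) (tA : GL J9 F) := by
  apply Units.ext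
  rw [Units.val_mul, Units.val_mul, coe_qElt, Matrix.smul_mul, Matrix.mul_smul]
  congr 1
  change _ * pmat _ = pmat _ * _
  ext i j
  obtain ⟨⟨a, b⟩, rfl⟩ := ((Equiv.neg (ZMod 3)).prodCongr (Equiv.refl (ZMod 3))).surjective i
  rw [mul_pmat_apply, pmat_mul_apply, mul_comm]
  congr 1
  obtain ⟨c, d⟩ := j
  simp [quadDiag, Matrix.kroneckerMap_apply, Matrix.diagonal_apply, Matrix.one_apply, neg_inj]

lemma cMinus_qElt (hω : IsPrimitiveRoot ω 3) : cMinus (qElt hω : GL J9 F).1 = 1 := by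
  have h12 : (1 : ZMod 3) ≠ 2 := by decide
  rw [coe_qElt, cMinus_smul, cMinus_kron, smul_smul, quadDiag, Matrix.diagonal_apply_eq,
    Matrix.diagonal_apply_ne _ h12, show (1 : ZMod 3) * 1 = 1 from rfl, ph_one, sub_zero,
    ← pow_succ, hω.pow_eq_one, one_smul]

/-! ### The symplectic group of the second factor is generated by the two generators -/

/-- The Fourier action on the indices. -/
def fF (v : V3) : V3 := (-v.2, v.1)

/-- The quadratic action on the indices. -/
def fQ (v : V3) : V3 := (v.1, v.2 + 2 * v.1)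

lemma word_exists : ∀ p r : V3, B3 p r = B3 ((1, 0) : V3) (0, 1) →
    ∃ (i : Fin 3) (j : Fin 4) (k : Fin 3),
      (fQ^[i.val] ∘ fF^[j.val] ∘ fQ^[k.val]) (1, 0) = p ∧
      (fQ^[i.val] ∘ fF^[j.val] ∘ fQ^[k.val]) (0, 1) = r := by
  decide +kernel

lemma act_pow {V ι : Type*} [Fintype V] [Fintype ι] [DecidableEq ι] {P : V → Matrix ι ι F}
    (hP : LinearIndependent F P) {g : GL ι F} (hg : g ∈ monNorm P) (n : ℕ) (v : V) :
    act P (g ^ n) v = (act P g)^[n] v := by
  induction n generalizing v with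
  | zero => exact act_eq hP (one_mem _) (c := 1) (by simp)
  | succ n ih => rw [pow_succ, act_mul hP (pow_mem hg n) hg, ih, Function.iterate_succ_apply]

lemma act3_bform (hω : IsPrimitiveRoot ω 3) {g : GL (ZMod 3) F} (hg : g ∈ monNorm (P3 ω))
    (v w : V3) : B3 (act (P3 ω) g v) (act (P3 ω) g w) = B3 v w := by
  have h3 := hω.pow_eq_one
  obtain ⟨c, hc⟩ := act_spec hg v
  obtain ⟨d, hd⟩ := act_spec hg w
  generalize act (P3 ω) g v = a at hc ⊢
  generalize act (P3 ω) g w = b at hd ⊢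
  have e1 : (g : Matrix (ZMod 3) (ZMod 3) F) * (P3 ω v * P3 ω w) =
      (c * d * ph ω (B3 a b)) • (P3 ω b * P3 ω a * (g : Matrix (ZMod 3) (ZMod 3) F)) := by
    rw [← mul_assoc, hc, Matrix.smul_mul, mul_assoc, hd, Matrix.mul_smul, smul_smul, ← mul_assoc,
      P3_comm h3 a b, Matrix.smul_mul, smul_smul]
  have e2 : (g : Matrix (ZMod 3) (ZMod 3) F) * (P3 ω v * P3 ω w) =
      (ph ω (B3 v w) * d * c) • (P3 ω b * P3 ω a * (g : Matrix (ZMod 3) (ZMod 3) F)) := by
    rw [P3_comm h3 v w, Matrix.mul_smul, ← mul_assoc, hd, Matrix.smul_mul, mul_assoc, hc,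
      Matrix.mul_smul, smul_smul, smul_smul, ← mul_assoc, mul_assoc (ph ω (B3 v w))]
  have hne : c * d ≠ 0 := by
    intro h0
    have hz : (g : Matrix (ZMod 3) (ZMod 3) F) * (P3 ω v * P3 ω w) = 0 := by
      rw [e1, h0, zero_mul, zero_smul]
    exact (g * (P3gl h3 v * P3gl h3 w)).ne_zero (by simpa using hz)
  have hX : P3 ω b * P3 ω a * (g : Matrix (ZMod 3) (ZMod 3) F) ≠ 0 := by
    simpa using (P3gl h3 b * P3gl h3 a * g).ne_zero
  have h4 := smul_left_injective F hX (e1.symm.trans e2)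
  exact ph_inj hω (mul_left_cancel₀ hne (h4.trans (by ring)))

/-- Up to the generators, an element of the normaliser commutes with every Pauli matrix. -/
lemma exists_commuting (hω : IsPrimitiveRoot ω 3) {c : GL (ZMod 3) F} (hc : c ∈ N3 ω) :
    ∃ (u : V3) (i j k : ℕ), ∀ v, Commute
      (((quadGL hω ^ i * fourierGL hω ^ j * quadGL hω ^ k * P3gl hω.pow_eq_one u)⁻¹ * c :
        GL (ZMod 3) F) : Matrix (ZMod 3) (ZMod 3) F) (P3 ω v) := by
  have h3 := hω.pow_eq_one
  have hli := P3_li hω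
  obtain ⟨i, j, k, e1, e2⟩ := word_exists (act (P3 ω) c (1, 0)) (act (P3 ω) c (0, 1))
    (act3_bform hω hc _ _)
  have hq := quadGL_mem_N3 hω
  have hf := fourierGL_mem_N3 hω
  set z := quadGL hω ^ (i : ℕ) * fourierGL hω ^ (j : ℕ) * quadGL hω ^ (k : ℕ) with hz
  have hzN : z ∈ N3 ω := mul_mem (mul_mem (pow_mem hq _) (pow_mem hf _)) (pow_mem hq _)
  have hQ : act (P3 ω) (quadGL hω) = fQ :=
    funext fun v => act_eq hli hq (c := ph ω (v.1 * v.1)) (quad_conj hω v)
  have hF : act (P3 ω) (fourierGL hω) = fF :=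
    funext fun v => act_eq hli hf (c := ph ω (-(v.1 * v.2))) (fourier_conj hω v)
  have hzact : ∀ v, act (P3 ω) z v = (fQ^[i.val] ∘ fF^[j.val] ∘ fQ^[k.val]) v := by
    intro v
    rw [hz, act_mul hli (mul_mem (pow_mem hq _) (pow_mem hf _)) (pow_mem hq _),
      act_mul hli (pow_mem hq _) (pow_mem hf _), act_pow hli hq, act_pow hli hf, act_pow hli hq,
      hQ, hF]
    rfl
  set d := z⁻¹ * c with hd
  have hdN : d ∈ N3 ω := mul_mem (inv_mem hzN) hc
  have hfix : ∀ v : V3, act (P3 ω) c v = act (P3 ω) z v →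
      ∃ a : F, a ^ 3 = 1 ∧ (d : Matrix (ZMod 3) (ZMod 3) F) * P3 ω v =
        a • (P3 ω v * (d : Matrix (ZMod 3) (ZMod 3) F)) := by
    intro v hv
    have hd' : act (P3 ω) d v = v := by
      rw [hd, act_mul hli (inv_mem hzN) hc, hv, ← act_mul hli (inv_mem hzN) hzN, inv_mul_cancel]
      exact act_eq hli (one_mem _) (c := 1) (by simp)
    obtain ⟨a, ha⟩ := act_spec (show d ∈ monNorm (P3 ω) from hdN) v
    rw [hd'] at ha
    refine ⟨a, ?_, ha⟩
    have t3 := P3_cube h3 v
    have e3 : (d : Matrix (ZMod 3) (ZMod 3) F) = a ^ 3 • (d : Matrix (ZMod 3) (ZMod 3) F) := by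
      calc (d : Matrix (ZMod 3) (ZMod 3) F)
          = (d : Matrix (ZMod 3) (ZMod 3) F) * P3 ω v * P3 ω v * P3 ω v := by
            rw [mul_assoc, mul_assoc, ← mul_assoc (P3 ω v), t3, mul_one]
        _ = a ^ 3 • (P3 ω v * P3 ω v * P3 ω v * (d : Matrix (ZMod 3) (ZMod 3) F)) := by
            simp only [ha, Matrix.smul_mul, Matrix.mul_smul, smul_smul, mul_assoc, pow_three]
        _ = _ := by rw [t3, one_mul]
    exact smul_left_injective F d.ne_zero (by simpa using e3.symm)
  obtain ⟨a1, ha1, hd1⟩ := hfix (1, 0) (by rw [hzact, e1])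
  obtain ⟨a2, ha2, hd2⟩ := hfix (0, 1) (by rw [hzact, e2])
  obtain ⟨b1, rfl⟩ := exists_ph_eq hω ha1
  obtain ⟨b2, rfl⟩ := exists_ph_eq hω ha2
  refine ⟨(-b2, b1), i, j, k, ?_⟩
  rw [← hz, mul_inv_rev, mul_assoc, ← hd]
  have key : ∀ v : V3, (d : Matrix (ZMod 3) (ZMod 3) F) * P3 ω v =
      ph ω (B3 (-b2, b1) v) • (P3 ω v * (d : Matrix (ZMod 3) (ZMod 3) F)) →
      Commute (((P3gl h3 (-b2, b1))⁻¹ * d : GL (ZMod 3) F) : Matrix (ZMod 3) (ZMod 3) F)
        (P3 ω v) := by
    intro v hv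
    have : Commute ((P3gl h3 (-b2, b1))⁻¹ * d) (P3gl h3 v) := by
      show _ * _ = _ * _
      rw [mul_assoc, inv_mul_eq_iff_eq_mul]
      apply Units.ext
      simp only [Units.val_mul, coe_P3gl, hv]
      rw [← mul_assoc, ← mul_assoc, P3_comm h3, Matrix.smul_mul, Matrix.smul_mul]
      congr 1
      simp only [← coe_P3gl h3 (-b2, b1), mul_assoc, Units.mul_inv_cancel_left]
    simpa using this.units_val
  have c1 := key (1, 0) (by simpa [B3] using hd1)
  have c2 := key (0, 1) (by simpa [B3] using hd2)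
  generalize (((P3gl h3 (-b2, b1))⁻¹ * d : GL (ZMod 3) F) : Matrix (ZMod 3) (ZMod 3) F) = X at c1 c2 ⊢
  have hadd : ∀ v w, Commute X (P3 ω v) → Commute X (P3 ω w) → Commute X (P3 ω (v + w)) := by
    intro v w hv hw
    have h := (hv.mul_right hw).eq
    rw [P3_mul h3, Matrix.mul_smul, Matrix.smul_mul] at h
    exact smul_right_injective _ (ph_ne_zero h3 _) h
  have hn : ∀ (n : ℕ) v, Commute X (P3 ω v) → Commute X (P3 ω (n • v)) := by
    intro n v hv
    induction n with
    | zero => simp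
    | succ n ih => rw [succ_nsmul]; exact hadd _ _ ih hv
  rintro ⟨x, y⟩
  have e : ((x, y) : V3) = x.val • ((1, 0) : V3) + y.val • ((0, 1) : V3) := by
    simp [Prod.ext_iff]
  rw [e]
  exact hadd _ _ (hn _ _ c1) (hn _ _ c2)

lemma v3_cube : ∀ a : Multiplicative V3, a ^ 3 = 1 := by decide

/-! ### The groups inside `M` -/

section Groups

variable [Finite F] {A : Amb ω} {M : Subgroup (GL J9 F)} (hS : Setup A M)
include hS

lemma mem_M {g : GL J9 F} (h : g ∈ N9 ω ⊓ A.G9) : g ∈ M := hS.norm_le h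

/-- The second factor Pauli matrices inside `cX M`. -/
def tEl (v : V3) : cX M :=
  ⟨T9gl hS.root.pow_eq_one (0, v), mem_M hS (T9gl_mem A hS.root _),
    mem_centralizer_of_commute (commute_T9gl_tA hS.root v)⟩

lemma coe_tEl (v : V3) : (tEl hS v : GL J9 F) = T9gl hS.root.pow_eq_one (0, v) := rfl

lemma cPhi_tEl (v : V3) : cPhi M (tEl hS v) = P3gl hS.root.pow_eq_one v :=
  Units.ext (by simp [coe_tEl, cMinus_T9])

lemma coe_tEl_add (v w : V3) : ∃ c : F, ((tEl hS (v + w) : cX M) : GL J9 F).1 =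
    c • (((tEl hS v * tEl hS w : cX M) : GL J9 F)).1 := by
  obtain ⟨c, hc⟩ := T9_add_smul hS.root ((0, v) : V9) (0, w)
  exact ⟨c, by simpa [coe_tEl] using hc⟩

lemma conj_tEl_add (v w : V3) (k : cX M) :
    tEl hS (v + w) * k * (tEl hS (v + w))⁻¹ =
      tEl hS v * tEl hS w * k * (tEl hS v * tEl hS w)⁻¹ := by
  obtain ⟨c, hc⟩ := coe_tEl_add hS v w
  exact Subtype.ext (by simpa using conj_eq_of_smul hc (k : GL J9 F))

/-- The action of the second factor on the kernel. -/
def conjHom : Multiplicative V3 →* MulAut (cPhi M).ker :=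
  MonoidHom.mk' (fun v => MulAut.conjNormal (tEl hS v.toAdd)) fun v w => by
    apply MulEquiv.ext
    intro k
    apply Subtype.ext
    simp only [map_mul, MulAut.mul_apply, MulAut.conjNormal_apply, toAdd_mul, conj_tEl_add]
    group

lemma coe_conjHom (v : Multiplicative V3) (k : (cPhi M).ker) :
    ((conjHom hS v k : (cPhi M).ker) : cX M) = tEl hS v.toAdd * k * (tEl hS v.toAdd)⁻¹ := rfl

/-- The normalising part of the kernel. -/
def fKer (_hS : Setup A M) : Subgroup (cPhi M).ker :=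
  (N9 ω).comap ((cX M).subtype.comp (cPhi M).ker.subtype)

lemma mem_fKer {k : (cPhi M).ker} :
    k ∈ fKer hS ↔ ((k : cX M) : GL J9 F) ∈ N9 ω := Iff.rfl

lemma isKer {k : (cPhi M).ker} (hk : k ∈ fKer hS) : IsKer ω ((k : cX M) : GL J9 F) :=
  ⟨hk, commute_of_mem_centralizer (k : cX M).2.2, (cPhi_eq_one_iff _).mp k.2⟩

lemma conjHom_fixed {k : (cPhi M).ker} (hk : k ∈ fKer hS) (v : Multiplicative V3) :
    conjHom hS v k = k := by
  apply Subtype.ext
  apply Subtype.ext
  have h := commute_snd hS.root hk (isKer hS hk).comm (isKer hS hk).triv v.toAdd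
  rw [coe_conjHom]
  simp only [Subgroup.coe_mul, Subgroup.coe_inv, coe_tEl]
  exact mul_inv_eq_iff_eq_mul.mpr h.eq.symm

lemma card_fKer_dvd : Nat.card (fKer hS) ∣ 24 := by
  have hω := hS.root
  let f : fKer hS →* Matrix.SpecialLinearGroup (Fin 2) (ZMod 3) :=
    MonoidHom.mk' (fun k => ⟨sMat ω _, (isKer hS k.2).det_sMat hω⟩) fun k l =>
      Subtype.ext ((isKer hS k.2).sMat_mul hω (isKer hS l.2))
  have hf : Function.Injective f := by
    rw [injective_iff_map_eq_one]
    intro k hk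
    have h1 := (isKer hS k.2).eq_one_of_sMat hω (congrArg Subtype.val hk)
    exact Subtype.ext (Subtype.ext (Subtype.ext h1))
  exact (Subgroup.card_dvd_of_injective f hf).trans (dvd_of_eq PGroups.card_sl_two_three)

/-- The element of order three in the kernel. -/
def qKer : (cPhi M).ker :=
  ⟨⟨qElt hS.root, mem_M hS (mul_mem (mul_mem (mul_mem (mul_mem (T9gl_mem A hS.root _)
      (T9gl_mem A hS.root _)) (inv_mem (T9gl_mem A hS.root _))) (inv_mem (T9gl_mem A hS.root _)))
      (kron_quad_left_mem A hS.root)), mem_centralizer_of_commute (commute_qElt_tA hS.root)⟩,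
    (cPhi_eq_one_iff _).mpr (cMinus_qElt hS.root)⟩

lemma qKer_mem : qKer hS ∈ fKer hS :=
  (mul_mem (mul_mem (mul_mem (mul_mem (T9gl_mem A hS.root _)
      (T9gl_mem A hS.root _)) (inv_mem (T9gl_mem A hS.root _))) (inv_mem (T9gl_mem A hS.root _)))
      (kron_quad_left_mem A hS.root)).1

lemma orderOf_qKer : orderOf (qKer hS) = 3 := by
  have := Fact.mk Nat.prime_three
  refine orderOf_eq_prime (Subtype.ext (Subtype.ext ?_))
    (fun h => qElt_ne_one hS.root (congrArg (fun x : (cPhi M).ker => ((x : cX M) : GL J9 F)) h))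
  simpa [qKer] using qElt_cube hS.root

variable (hloc : ∀ v, v ≠ 0 → ∀ g ∈ M, Commute (g : Matrix J9 J9 F) (T9 ω v) → g ∈ N9 ω)
include hloc

lemma mem_fKer_of_fixed {k : (cPhi M).ker} {v : Multiplicative V3} (hv : v ≠ 1)
    (h : conjHom hS v k = k) : k ∈ fKer hS := by
  have h' : tEl hS v.toAdd * k * (tEl hS v.toAdd)⁻¹ = (k : cX M) := by
    rw [← coe_conjHom hS v k, h]
  have hc : Commute (k : cX M) (tEl hS v.toAdd) := (mul_inv_eq_iff_eq_mul.mp h').symm
  refine hloc ((0, v.toAdd) : V9) ?_ _ (k : cX M).2.1 ?_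
  · intro h0
    exact hv (congrArg Prod.snd h0)
  · simpa [coe_tEl] using (hc.map (cX M).subtype).units_val

lemma not_nine_dvd : ¬ 9 ∣ Nat.card (cPhi M).ker := by
  intro h9
  let S := {k : (cPhi M).ker // k ∉ fKer hS}
  letI : MulAction (Multiplicative V3) S :=
    { smul := fun v k => ⟨conjHom hS v k.1, fun hk => k.2 (by
        have := conjHom_fixed hS hk v
        rwa [(conjHom hS v).injective this] at hk)⟩
      one_smul := fun k => Subtype.ext (by
        show conjHom hS 1 k.1 = k.1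
        rw [map_one]; rfl)
      mul_smul := fun v w k => Subtype.ext (by
        show conjHom hS (v * w) k.1 = conjHom hS v (conjHom hS w k.1)
        rw [map_mul]; rfl) }
  have hfree : ∀ k : S, MulAction.stabilizer (Multiplicative V3) k = ⊥ := by
    intro k
    rw [Subgroup.eq_bot_iff_forall]
    intro v hv
    by_contra hne
    exact k.2 (mem_fKer_of_fixed hS hloc hne (congrArg Subtype.val hv))
  have hcard := Nat.card_congr (MulAction.selfEquivOrbitsQuotientProd hfree)
  rw [Nat.card_prod, Nat.card_congr (Multiplicative.toAdd (α := V3))] at hcard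
  have h9V : Nat.card V3 = 9 := by simp
  classical
  have hsum := Nat.card_congr (Equiv.sumCompl fun k : (cPhi M).ker => k ∈ fKer hS).symm
  rw [Nat.card_sum] at hsum
  have h9S : 9 ∣ Nat.card S := ⟨_, by rw [hcard, h9V, mul_comm]⟩
  have h9F : 9 ∣ Nat.card (fKer hS) := (Nat.dvd_add_iff_left h9S).mpr (hsum ▸ h9)
  have := h9F.trans (card_fKer_dvd hS)
  norm_num at this

lemma card_zpowers_qKer : Nat.card (Subgroup.zpowers (qKer hS)) =
    3 ^ (Nat.card (cPhi M).ker).factorization 3 := by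
  rw [Nat.card_zpowers, orderOf_qKer]
  have h3 : 3 ∣ Nat.card (cPhi M).ker :=
    (dvd_of_eq (orderOf_qKer hS).symm).trans (orderOf_dvd_natCard _)
  have h1 : 1 ≤ (Nat.card (cPhi M).ker).factorization 3 :=
    Nat.prime_three.factorization_pos_of_dvd Nat.card_pos.ne' h3
  have h2 : ¬ 2 ≤ (Nat.card (cPhi M).ker).factorization 3 := fun h =>
    not_nine_dvd hS hloc ((Nat.prime_three.pow_dvd_iff_le_factorization Nat.card_pos.ne').mpr h)
  rw [show (Nat.card (cPhi M).ker).factorization 3 = 1 by omega, pow_one]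

lemma not_inverted (y : GL J9 F) (r : (cPhi M).ker) (hr : r ^ 3 = 1)
    (h : y * ((r : cX M) : GL J9 F) * y⁻¹ = (((r : cX M) : GL J9 F))⁻¹) : r = 1 := by
  by_contra hne
  have := Fact.mk Nat.prime_three
  have hor : orderOf r = 3 := orderOf_eq_prime hr hne
  let P : Sylow 3 (cPhi M).ker := Sylow.ofCard _ (card_zpowers_qKer hS hloc)
  let R : Sylow 3 (cPhi M).ker := Sylow.ofCard (Subgroup.zpowers r) (by
    rw [← card_zpowers_qKer hS hloc, Nat.card_zpowers, Nat.card_zpowers, hor, orderOf_qKer])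
  obtain ⟨k, hk⟩ := MulAction.exists_smul_eq (cPhi M).ker P R
  have hrR : r ∈ k • P := hk ▸ (Subgroup.mem_zpowers r)
  obtain ⟨a, ha, har⟩ : ∃ a ∈ Subgroup.zpowers (qKer hS), k * a * k⁻¹ = r := by
    refine ⟨k⁻¹ * r * k, ?_, by group⟩
    have := Sylow.smul_def (g := k) (P := P)
    rw [this] at hrR
    obtain ⟨b, hb, hbr⟩ := hrR
    have e : k * b * k⁻¹ = r := hbr
    rw [← e]
    have e2 : k⁻¹ * (k * b * k⁻¹) * k = b := by group
    rw [e2]
    exact hb
  set q : GL J9 F := qElt hS.root with hq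
  set x : GL J9 F := ((k : cX M) : GL J9 F)⁻¹ * y * ((k : cX M) : GL J9 F) with hx
  have har' : ((r : cX M) : GL J9 F) =
      ((k : cX M) : GL J9 F) * ((a : cX M) : GL J9 F) * ((k : cX M) : GL J9 F)⁻¹ := by
    rw [← har]; rfl
  have hinv : x * ((a : cX M) : GL J9 F) * x⁻¹ = ((a : cX M) : GL J9 F)⁻¹ := by
    rw [har'] at h
    have h' := congrArg (fun t => ((k : cX M) : GL J9 F)⁻¹ * t * ((k : cX M) : GL J9 F)) h
    simp only [hx] at h' ⊢
    convert h' using 1 <;> group
  have hq3 : q ^ 3 = 1 := qElt_cube hS.root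
  have hq2 : q⁻¹ = q * q := inv_eq_of_mul_eq_one_right (by rw [← pow_three, hq3])
  obtain ⟨n, rfl⟩ := (isOfFinOrder_of_finite _).mem_powers_iff_mem_zpowers.mpr ha
  have hn : (qKer hS) ^ n = (qKer hS) ^ (n % 3) := by
    rw [← pow_mod_orderOf, orderOf_qKer hS]
  have hlt : n % 3 < 3 := Nat.mod_lt _ (by norm_num)
  simp only [hn] at hinv har
  have hv : (((qKer hS ^ (n % 3) : (cPhi M).ker) : cX M) : GL J9 F) = q ^ (n % 3) := rfl
  rw [hv] at hinv
  interval_cases hm : n % 3
  · exact hne (by rw [← har]; simp)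
  · rw [pow_one, hq2] at hinv
    exact qElt_not_inverted hS.root x hinv
  · rw [pow_two, ← hq2, inv_inv] at hinv
    refine qElt_not_inverted hS.root x ?_
    rw [← hq, ← hq2]
    calc x * q * x⁻¹ = (x * q⁻¹ * x⁻¹)⁻¹ := by group
      _ = q⁻¹ := by rw [hinv]

lemma ker_le : fKer hS = ⊤ := by
  have := Fact.mk Nat.prime_three
  let P : Sylow 3 (cPhi M).ker := Sylow.ofCard _ (card_zpowers_qKer hS hloc)
  have hPeq : (P : Subgroup (cPhi M).ker) = Subgroup.zpowers (qKer hS) := rfl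
  have hN : Subgroup.normalizer (P : Set (cPhi M).ker) ≤
      Subgroup.centralizer (P : Set (cPhi M).ker) := by
    intro y hy
    have h0 : y * qKer hS * y⁻¹ ∈ Subgroup.zpowers (qKer hS) :=
      (Subgroup.mem_normalizer_iff.mp hy _).mp (Subgroup.mem_zpowers (qKer hS))
    obtain ⟨n, hn⟩ := (isOfFinOrder_of_finite _).mem_powers_iff_mem_zpowers.mpr h0
    simp only at hn
    rw [← pow_mod_orderOf, orderOf_qKer hS] at hn
    have hlt : n % 3 < 3 := Nat.mod_lt _ (by norm_num)
    have hcomm : y * qKer hS * y⁻¹ = qKer hS := by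
      interval_cases hm : n % 3
      · exfalso
        rw [pow_zero, eq_comm, conj_eq_one_iff] at hn
        have := orderOf_qKer hS
        rw [hn, orderOf_one] at this
        omega
      · rw [← hn, pow_one]
      · exfalso
        refine qElt_not_inverted hS.root ((y : cX M) : GL J9 F) ?_
        rw [pow_two] at hn
        exact (congrArg (fun x : (cPhi M).ker => ((x : cX M) : GL J9 F)) hn).symm
    rw [Subgroup.mem_centralizer_iff]
    intro x hx
    obtain ⟨m, rfl⟩ := hx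
    exact ((Commute.zpow_right (mul_inv_eq_iff_eq_mul.mp hcomm) m)).symm.eq
  set W := (MonoidHom.transferSylow P hN).ker with hW
  have hcop : ¬ 3 ∣ Nat.card W := MonoidHom.not_dvd_card_ker_transferSylow P hN
  have hinv : ∀ v : Multiplicative V3, ∀ w ∈ W, conjHom hS v w ∈ W := by
    intro v w hw
    rw [hW, MonoidHom.mem_ker, ← orderOf_eq_one_iff]
    refine Nat.eq_one_of_dvd_coprimes (a := 3) (b := orderOf w) ?_ ?_ ?_
    · refine Nat.prime_three.coprime_iff_not_dvd.mpr fun h => hcop (h.trans ?_)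
      rw [← Subgroup.orderOf_mk w hw]
      exact orderOf_dvd_natCard _
    · have hP3 : Nat.card P = 3 := by rw [hPeq, Nat.card_zpowers, orderOf_qKer]
      exact (orderOf_dvd_natCard _).trans (dvd_of_eq hP3)
    · refine (orderOf_map_dvd _ _).trans (dvd_of_eq ?_)
      exact orderOf_injective (conjHom hS v).toMonoidHom (conjHom hS v).injective w
  haveI : Finite (SemidirectProduct (cPhi M).ker (Multiplicative V3) (conjHom hS)) :=
    Finite.of_equiv _ SemidirectProduct.equivProd.symm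
  let G' := SemidirectProduct (cPhi M).ker (Multiplicative V3) (conjHom hS)
  let A' : Subgroup G' := (SemidirectProduct.inr (φ := conjHom hS)).range
  haveI : IsMulCommutative A' := IsMulCommutative.of_comm (by
    rintro ⟨_, a, rfl⟩ ⟨_, b, rfl⟩
    apply Subtype.ext
    show SemidirectProduct.inr a * SemidirectProduct.inr b =
      SemidirectProduct.inr b * SemidirectProduct.inr a
    rw [← map_mul, ← map_mul, mul_comm])
  have hcardA : Nat.card A' = 9 := by
    rw [← Nat.card_congr (MonoidHom.ofInjective (SemidirectProduct.inr_injective (φ := conjHom hS))).toEquiv]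
    simp
  have hA : ¬ IsCyclic A' := by
    intro hcyc
    obtain ⟨g, hg⟩ := IsCyclic.exists_generator (α := A')
    have h9 := orderOf_eq_card_of_forall_mem_zpowers hg
    have h3 : g ^ 3 = 1 := by
      obtain ⟨_, a, rfl⟩ := g
      apply Subtype.ext
      show SemidirectProduct.inr a ^ 3 = 1
      rw [← map_pow]
      have : a ^ 3 = 1 := v3_cube a
      rw [this, map_one]
    have := orderOf_dvd_of_pow_eq_one h3
    rw [h9, hcardA] at this
    norm_num at this
  let inlW : Subgroup G' := W.map SemidirectProduct.inl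
  have hnorm : A' ≤ Subgroup.normalizer (inlW : Set G') := by
    rintro _ ⟨v, rfl⟩
    rw [Subgroup.mem_normalizer_iff]
    intro g
    constructor
    · rintro ⟨w, hw, rfl⟩
      exact ⟨_, hinv v w hw, by rw [SemidirectProduct.inl_aut, map_inv]⟩
    · rintro ⟨w, hw, e⟩
      refine ⟨_, hinv v⁻¹ w hw, ?_⟩
      rw [SemidirectProduct.inl_aut, e, map_inv, inv_inv]
      group
  have hcopA : (Nat.card A').Coprime (Nat.card inlW) := by
    rw [hcardA, Subgroup.card_map_of_injective SemidirectProduct.inl_injective]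
    exact Nat.Coprime.pow_left 2 (Nat.prime_three.coprime_iff_not_dvd.mpr hcop)
  have hle := CoprimeAction.le_of_centralizers hA hnorm hcopA
    (H := (fKer hS).map SemidirectProduct.inl) (by
      rintro _ ⟨v, rfl⟩ hv _ ⟨⟨w, -, rfl⟩, hcz⟩
      refine ⟨w, mem_fKer_of_fixed hS hloc (v := v) (fun h => hv (by rw [h, map_one])) ?_, rfl⟩
      have hc := Subgroup.mem_centralizer_iff.mp hcz _ rfl
      apply SemidirectProduct.inl_injective (φ := conjHom hS)
      rw [SemidirectProduct.inl_aut, hc, map_inv, mul_inv_cancel_right])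
  rw [eq_top_iff]
  have hWF : W ≤ fKer hS := (Subgroup.map_le_map_iff_of_injective
    (SemidirectProduct.inl_injective (φ := conjHom hS))).mp hle
  intro x _
  obtain ⟨⟨w, p⟩, hwp⟩ := (MonoidHom.ker_transferSylow_isComplement' P hN).2 x
  rw [← hwp]
  have hp : (p : (cPhi M).ker) ∈ fKer hS :=
    (Subgroup.zpowers_le.mpr (qKer_mem hS)) p.2
  exact mul_mem (hWF w.2) hp

lemma commute_ker (k : (cPhi M).ker) (v : V3) :
    Commute (k : cX M) (tEl hS v) := by
  have hk : k ∈ fKer hS := by rw [ker_le hS hloc]; trivial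
  exact Subtype.ext (commute_snd hS.root hk (isKer hS hk).comm (isKer hS hk).triv v).eq

lemma mem_of_ker {x : cX M} (hx : cPhi M x = 1) : (x : GL J9 F) ∈ N9 ω :=
  (mem_fKer hS (k := ⟨x, hx⟩)).mp (by rw [ker_le hS hloc]; trivial)

/-- If the action on the eigenspace centralises the Pauli matrices, the element normalises. -/
lemma mem_of_commute {y : cX M}
    (hy : ∀ v, Commute (cPhi M y) (P3gl hS.root.pow_eq_one v)) : (y : GL J9 F) ∈ N9 ω := by
  let r : V3 → (cPhi M).ker := fun v => ⟨y * tEl hS v * y⁻¹ * (tEl hS v)⁻¹, by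
    rw [MonoidHom.mem_ker, map_mul, map_mul, map_mul, map_inv, map_inv, cPhi_tEl, (hy v).eq]
    group⟩
  have hr : ∀ v, y * tEl hS v * y⁻¹ = (r v : cX M) * tEl hS v := fun v => by simp [r]
  have hadd : ∀ v w, r (v + w) = r v * r w := by
    intro v w
    apply Subtype.ext
    show y * tEl hS (v + w) * y⁻¹ * (tEl hS (v + w))⁻¹ = (r v : cX M) * (r w : cX M)
    calc y * tEl hS (v + w) * y⁻¹ * (tEl hS (v + w))⁻¹
        = y * (tEl hS (v + w) * y⁻¹ * (tEl hS (v + w))⁻¹) := by group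
      _ = (y * tEl hS v * y⁻¹) * (y * tEl hS w * y⁻¹) * (tEl hS w)⁻¹ * (tEl hS v)⁻¹ := by
          rw [conj_tEl_add hS v w y⁻¹]; group
      _ = (r v : cX M) * (tEl hS v * (r w : cX M)) * (tEl hS v)⁻¹ := by rw [hr, hr]; group
      _ = _ := by rw [← (commute_ker hS hloc (r w) v).eq]; group
  let f : Multiplicative V3 →* (cPhi M).ker :=
    MonoidHom.mk' (fun v => r v.toAdd) fun v w => hadd _ _
  by_cases hf : Function.Injective f
  · exfalso
    refine not_nine_dvd hS hloc ?_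
    have := Subgroup.card_dvd_of_injective f hf
    simpa using this
  · rw [injective_iff_map_eq_one] at hf
    push Not at hf
    obtain ⟨v, hv, hv1⟩ := hf
    refine hloc ((0, v.toAdd) : V9) (fun h0 => hv1 (congrArg Prod.snd h0)) _ y.2.1 ?_
    have h : y * tEl hS v.toAdd * y⁻¹ = tEl hS v.toAdd := by
      rw [hr, show r v.toAdd = 1 from hv]; simp
    have hc : Commute y (tEl hS v.toAdd) := mul_inv_eq_iff_eq_mul.mp h
    simpa [coe_tEl] using (hc.map (cX M).subtype).units_val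

/-- The generators of the normaliser on the second factor, inside `cX M`. -/
lemma exists_gen {a : GL (ZMod 3) F} (ha : kronHom ((1 : GL (ZMod 3) F), a) ∈ N9 ω ⊓ A.G9) :
    ∃ x : cX M, (x : GL J9 F) ∈ N9 ω ∧ cPhi M x = a := by
  have hc : Commute (kronHom ((1 : GL (ZMod 3) F), a)) (tA : GL J9 F) := by
    apply Units.ext
    rw [Units.val_mul, Units.val_mul]
    change _ * pmat _ = pmat _ * _
    ext i j
    obtain ⟨⟨p, b⟩, rfl⟩ := ((Equiv.neg (ZMod 3)).prodCongr (Equiv.refl (ZMod 3))).surjective i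
    rw [mul_pmat_apply, pmat_mul_apply, mul_comm]
    congr 1
    obtain ⟨c, d⟩ := j
    simp [Matrix.kroneckerMap_apply, Matrix.one_apply, neg_inj]
  refine ⟨⟨_, mem_M hS ha, mem_centralizer_of_commute hc⟩, ha.1, Units.ext ?_⟩
  have h12 : (1 : ZMod 3) ≠ 2 := by decide
  simp [cMinus_kron, Matrix.one_apply, h12]

lemma range_le : (cPhi M).range ≤ A.U3 := by
  rintro _ ⟨x, rfl⟩
  exact A.minus_mem _ (hS.le x.2.1).1
    (Subgroup.mem_centralizer_iff.mp x.2.2 tA rfl).symm _ rfl

/-- The transposition pair giving `diag (-1, -1, 1)` on the eigenspace. -/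
def dPerm : Equiv.Perm J9 :=
  Equiv.swap ((1, 0) : J9) (2, 0) * Equiv.swap ((1, 1) : J9) (2, 1)

lemma range_le_N3 : (cPhi M).range ≤ N3 ω := by
  have hω := hS.root
  have hmem : ∀ a : GL (ZMod 3) F, kronHom ((1 : GL (ZMod 3) F), a) ∈ N9 ω ⊓ A.G9 →
      a ∈ (cPhi M).range := fun a ha => by
    obtain ⟨x, -, hx⟩ := exists_gen hS hloc ha
    exact ⟨x, hx⟩
  refine (A.dich (cPhi M).range (range_le hS hloc) ?_ ?_ ?_).resolve_right ?_
  · rintro g ⟨v, hv⟩
    exact ⟨tEl hS v, (cPhi_tEl hS v).trans (Units.ext hv.symm)⟩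
  · intro g hg
    rw [show g = fourierGL hω from Units.ext hg]
    exact hmem _ (kron_fourier_right_mem A hω)
  · intro g hg
    rw [show g = quadGL hω from Units.ext hg]
    exact hmem _ (kron_quad_right_mem A hω)
  intro hbig
  let σ : Equiv.Perm J9 := dPerm
  have hσ : Commute (pmHom σ) (tA : GL J9 F) := by
    show pmHom σ * pmHom _ = pmHom _ * pmHom σ
    rw [← map_mul, ← map_mul]
    congr 1
    show dPerm * _ = _ * dPerm
    decide +kernel
  have hc := mem_centralizer_of_commute hσ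
  set D : GL (ZMod 3) F := cHom ⟨pmHom σ, hc⟩ with hD
  have hDcoe : (D : Matrix (ZMod 3) (ZMod 3) F) =
      Matrix.diagonal fun j => if j = 2 then 1 else -1 := by
    have hs : Equiv.Perm.sign dPerm = 1 := by decide +kernel
    show cMinus (pmat σ) = _
    ext k l
    simp only [cMinus, pmat, σ, Matrix.of_apply, hs]
    rcases zmod_cases k with rfl | rfl | rfl <;> rcases zmod_cases l with rfl | rfl | rfl <;>
      simp +decide [σ, dPerm, Equiv.swap_apply_def]
  have hDdet : (D : Matrix (ZMod 3) (ZMod 3) F).det = 1 := by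
    rw [hDcoe, Matrix.det_diagonal]
    simp only [show (Finset.univ : Finset (ZMod 3)) = {0, 1, 2} by decide]
    simp +decide
  obtain ⟨y, hy⟩ : D ∈ (cPhi M).range :=
    hbig ⟨A.minus_mem _ (A.pm_mem σ) hσ _ rfl, mem_specialLinear.mpr hDdet⟩
  have hDD : D * D = 1 := Units.ext (by
    rw [Units.val_mul, hDcoe, Matrix.diagonal_mul_diagonal, Units.val_one, ← Matrix.diagonal_one]
    congr 1
    funext j
    split_ifs <;> norm_num)
  have hDZ : Commute D (P3gl hω.pow_eq_one (0, 1)) := by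
    have e : P3 ω ((0, 1) : V3) = Matrix.diagonal fun j => ph ω (1 * j) := by
      ext a b
      by_cases h : a = b
      · subst h; simp [P3_apply]
      · simp [P3_apply, h]
    apply Units.ext
    rw [Units.val_mul, Units.val_mul, hDcoe, coe_P3gl, e, Matrix.diagonal_mul_diagonal,
      Matrix.diagonal_mul_diagonal]
    congr 1
    funext j
    exact mul_comm _ _
  set Z := tEl hS ((0, 1) : V3) with hZ
  let r : (cPhi M).ker := ⟨y * Z * y⁻¹ * Z⁻¹, by
    rw [MonoidHom.mem_ker, map_mul, map_mul, map_mul, map_inv, map_inv, hy, hZ, cPhi_tEl,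
      hDZ.eq]
    group⟩
  have hrZ : y * Z * y⁻¹ = (r : cX M) * Z := by simp [r]
  have hrc : Commute (r : cX M) Z := commute_ker hS hloc r _
  have hZ3 : Z ^ 3 = 1 := Subtype.ext (T9gl_cube hω _)
  have hr3 : r ^ 3 = 1 := by
    apply Subtype.ext
    have h := congrArg (· ^ 3) hrZ
    simp only [conj_pow, hrc.mul_pow, hZ3, mul_one, mul_inv_cancel] at h
    exact h.symm
  have hy2 : cPhi M (y * y) = 1 := by rw [map_mul, hy, hDD]
  have hc2 : Commute (y * y) Z := commute_ker hS hloc ⟨y * y, hy2⟩ _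
  have hyr : y * (r : cX M) * y⁻¹ = ((r : cX M))⁻¹ := by
    apply eq_inv_of_mul_eq_one_left
    have h : (y * (r : cX M) * y⁻¹) * ((r : cX M) * Z) = Z := by
      rw [← hrZ]
      calc y * (r : cX M) * y⁻¹ * (y * Z * y⁻¹) = y * ((r : cX M) * Z) * y⁻¹ := by group
        _ = y * (y * Z * y⁻¹) * y⁻¹ := by rw [hrZ]
        _ = (y * y) * Z * (y * y)⁻¹ := by group
        _ = Z := by rw [hc2.eq, mul_inv_cancel_right]
    rw [← mul_assoc] at h
    exact mul_eq_right.mp h
  have hr1 : r = 1 := not_inverted hS hloc (y : GL J9 F) r hr3 (by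
    simpa using congrArg Subtype.val hyr)
  have hyZ : Commute y Z := mul_inv_eq_iff_eq_mul.mp (by rw [hrZ, hr1]; simp)
  have hyN : (y : GL J9 F) ∈ N9 ω :=
    hloc ((0, (0, 1)) : V9) (by decide) _ y.2.1
      (by simpa [hZ, coe_tEl] using (hyZ.map (cX M).subtype).units_val)
  have hDN : D ∈ N3 ω :=
    cMinus_mem_N3 hω hyN (commute_of_mem_centralizer y.2.2) (by rw [← hy, coe_cPhi])
  obtain ⟨⟨a, b⟩, c, hw⟩ := (mem_N3_iff hω).mp hDN (1, 0)
  rw [hDcoe] at hw
  have h01 := congrFun (congrFun hw 1) 0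
  have h12 := congrFun (congrFun hw 2) 1
  have h20 := congrFun (congrFun hw 0) 2
  simp +decide [P3_apply, Matrix.diagonal_mul, Matrix.mul_diagonal] at h01 h12 h20
  by_cases ha : a = 1
  · subst ha
    simp +decide at h01 h12 h20
    have hb : ph ω b = -1 := by linear_combination h12 + ph ω b * h01
    have hb3 := ph_pow_three hω.pow_eq_one b
    rw [hb] at hb3
    exact hS.two (by linear_combination -hb3)
  · have h1a : ¬ (1 : ZMod 3) = a := fun e => ha e.symm
    simp +decide [h1a] at h01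

theorem mem_N9 (y : cX M) : (y : GL J9 F) ∈ N9 ω := by
  have hω := hS.root
  obtain ⟨u, i, j, k, h⟩ := exists_commuting hω (range_le_N3 hS hloc ⟨y, rfl⟩ : cPhi M y ∈ N3 ω)
  obtain ⟨xf, hxfN, hxf⟩ := exists_gen hS hloc (kron_fourier_right_mem A hω)
  obtain ⟨xq, hxqN, hxq⟩ := exists_gen hS hloc (kron_quad_right_mem A hω)
  set x := xq ^ i * xf ^ j * xq ^ k * tEl hS u with hx
  have hxN : (x : GL J9 F) ∈ N9 ω := by
    rw [hx]
    simp only [Subgroup.coe_mul, SubmonoidClass.coe_pow, coe_tEl]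
    exact mul_mem (mul_mem (mul_mem (pow_mem hxqN _) (pow_mem hxfN _)) (pow_mem hxqN _))
      (T9gl_mem A hω _).1
  have hm := mem_of_commute hS hloc (y := x⁻¹ * y) fun v => by
    rw [map_mul, map_inv, hx, map_mul, map_mul, map_mul, map_pow, map_pow, map_pow, hxq, hxf,
      cPhi_tEl]
    exact Units.ext (h v).eq
  have := mul_mem hxN hm
  simpa using this

end Groups

end InvCent

open InvCent in
/-- Every element of `M` centralising the parity of the first factor normalises. -/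
theorem commute_tA_mem {F : Type*} [Field F] [Finite F] {w : F} {A : Amb w}
    {M : Subgroup (GL J9 F)} (hS : Setup A M)
    (hloc : ∀ v, v ≠ 0 → ∀ g ∈ M, Commute (g : Matrix J9 J9 F) (T9 w v) → g ∈ N9 w)
    {g : GL J9 F} (hg : g ∈ M) (hc : Commute g tA) : g ∈ N9 w :=
  mem_N9 hS hloc ⟨g, hg, mem_centralizer_of_commute hc⟩

end CfsgLib.Geometric.SLNine
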