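import Cfsg.Agent.Lib.Geometric.SLNine.Excess
import Cfsg.Agent.Lib.Geometric.SLNine.InvCentralizer
import Cfsg.Agent.Lib.Geometric.SLNine.Global
import Cfsg.Agent.Lib.Geometric.SLNine.Clifford

/-!
An overgroup of the Pauli normaliser in dimension nine, inside the ambient group and not all of it,
normalises the Pauli group.
-/

set_option autoImplicit false

namespace CfsgLib.Geometric.SLNine

/-- A proper overgroup of the Pauli normaliser in dimension nine is the normaliser. -/
theorem le_norm {F : Type*} [Field F] [Finite F] {ω : F} {A : Amb ω} {M : Subgroup (GL J9 F)}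
    (hS : Setup A M) : M ≤ N9 ω :=
  le_N9_of_core hS <| T9_mem_oddCore hS fun _ hg hc =>
    commute_tA_mem hS (fun _ hv _ hg hc => centralizer_T9_le hS hv hg hc) hg hc

end CfsgLib.Geometric.SLNine
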