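import Cfsg.Agent.Lib.Geometric.SLNine.Defs

/-!
The Pauli matrices of dimensions three and nine and their normalisers: the multiplication rule,
linear independence, the standard generators of the normaliser and their transitivity.
-/

set_option autoImplicit false
set_option linter.unusedSectionVars false

namespace CfsgLib.Geometric.SLNine

open scoped Kronecker

variable {F : Type*} [Field F] {ω : F}

/-! ### Powers of a cube root of unity -/

@[simp] lemma ph_zero : ph ω 0 = 1 := by simp [ph]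

lemma ph_add (hω : ω ^ 3 = 1) (a b : ZMod 3) : ph ω (a + b) = ph ω a * ph ω b := by
  simp only [ph, ← pow_add, ZMod.val_add]
  exact (pow_eq_pow_mod _ hω).symm

lemma ph_one : ph ω 1 = ω := pow_one ω

lemma ph_two : ph ω 2 = ω ^ 2 := rfl

lemma ph_mul_neg (hω : ω ^ 3 = 1) (a : ZMod 3) : ph ω a * ph ω (-a) = 1 := by
  rw [← ph_add hω, add_neg_cancel, ph_zero]

lemma ph_neg (hω : ω ^ 3 = 1) (a : ZMod 3) : ph ω (-a) = (ph ω a)⁻¹ :=
  eq_inv_of_mul_eq_one_left (by rw [mul_comm, ph_mul_neg hω])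

lemma ph_ne_zero (hω : ω ^ 3 = 1) (a : ZMod 3) : ph ω a ≠ 0 :=
  left_ne_zero_of_mul_eq_one (ph_mul_neg hω a)

lemma ph_pow_three (hω : ω ^ 3 = 1) (a : ZMod 3) : ph ω a ^ 3 = 1 := by
  rw [ph, ← pow_mul, mul_comm, pow_mul, hω, one_pow]

lemma ph_inj (hω : IsPrimitiveRoot ω 3) {a b : ZMod 3} (h : ph ω a = ph ω b) : a = b :=
  ZMod.val_injective 3 (hω.pow_inj a.val_lt b.val_lt h)

lemma ph_eq_one_iff (hω : IsPrimitiveRoot ω 3) {a : ZMod 3} : ph ω a = 1 ↔ a = 0 :=
  ⟨fun h => ph_inj hω (h.trans ph_zero.symm), fun h => by rw [h, ph_zero]⟩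

/-- A cube root of unity is a phase. -/
lemma exists_ph_eq (hω : IsPrimitiveRoot ω 3) {c : F} (hc : c ^ 3 = 1) : ∃ a : ZMod 3, c = ph ω a := by
  obtain ⟨i, hi, rfl⟩ := hω.eq_pow_of_pow_eq_one hc
  exact ⟨(i : ZMod 3), by rw [ph, ZMod.val_natCast, Nat.mod_eq_of_lt hi]⟩

lemma root_sum (hω : IsPrimitiveRoot ω 3) : ω ^ 2 + ω + 1 = 0 := by
  have h := hω.geom_sum_eq_zero (by norm_num)
  simp [Finset.sum_range_succ] at h
  linear_combination h

lemma three_ne_zero_of_root (hω : IsPrimitiveRoot ω 3) : (3 : F) ≠ 0 := by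
  intro h
  refine hω.ne_one (by norm_num) (sub_eq_zero.mp (mul_self_eq_zero.mp ?_))
  linear_combination root_sum hω - ω * h

lemma zmod_cases (x : ZMod 3) : x = 0 ∨ x = 1 ∨ x = 2 := by revert x; decide

lemma sum_zmod {A : Type*} [AddCommMonoid A] (f : ZMod 3 → A) : ∑ x, f x = f 0 + f 1 + f 2 :=
  Fin.sum_univ_three f

lemma sum_ph (hω : IsPrimitiveRoot ω 3) (a : ZMod 3) :
    ∑ j, ph ω (a * j) = if a = 0 then 3 else 0 := by
  rw [sum_zmod]
  rcases zmod_cases a with rfl | rfl | rfl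
  · simp; norm_num
  · rw [if_neg (by decide)]
    simp only [one_mul, ph_zero, ph_one, ph_two]
    linear_combination root_sum hω
  · rw [if_neg (by decide), show (2 : ZMod 3) * 0 = 0 from rfl, show (2 : ZMod 3) * 1 = 2 from rfl,
      show (2 : ZMod 3) * 2 = 1 from rfl, ph_zero, ph_one, ph_two]
    linear_combination root_sum hω

/-! ### Pauli matrices in dimension three -/

lemma P3_apply (ω : F) (v : V3) (i j : ZMod 3) :
    P3 ω v i j = if i = j + v.1 then ph ω (v.2 * j) else 0 := rfl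

@[simp] lemma P3_zero : P3 ω 0 = 1 := by
  ext i j
  simp [P3_apply, Matrix.one_apply]

lemma P3_mul (hω : ω ^ 3 = 1) (v w : V3) :
    P3 ω v * P3 ω w = ph ω (v.2 * w.1) • P3 ω (v + w) := by
  ext i j
  rw [Matrix.mul_apply, Finset.sum_eq_single (j + w.1)]
  · simp only [P3_apply, Matrix.smul_apply, smul_eq_mul, Prod.fst_add, Prod.snd_add, if_pos rfl]
    by_cases h : i = j + w.1 + v.1
    · have h' : i = j + (v.1 + w.1) := by rw [h]; ring
      simp only [if_pos h, if_pos h', if_true, ← ph_add hω]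
      congr 1; ring
    · have h' : ¬ i = j + (v.1 + w.1) := fun e => h (by rw [e]; ring)
      simp only [if_neg h, if_neg h']; simp
  · intro x _ hx
    simp [P3_apply, hx]
  · simp

lemma P3_comm (hω : ω ^ 3 = 1) (v w : V3) :
    P3 ω v * P3 ω w = ph ω (B3 v w) • (P3 ω w * P3 ω v) := by
  rw [P3_mul hω, P3_mul hω, smul_smul, ← ph_add hω, add_comm w v]
  congr 2
  unfold B3; ring

lemma P3_mul_neg (hω : ω ^ 3 = 1) (v : V3) : P3 ω v * P3 ω (-v) = ph ω (-(v.2 * v.1)) • (1 : Matrix (ZMod 3) (ZMod 3) F) := by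
  rw [P3_mul hω, add_neg_cancel, P3_zero]
  simp

lemma P3_cube (hω : ω ^ 3 = 1) (v : V3) : P3 ω v * P3 ω v * P3 ω v = 1 := by
  have h3 : ∀ x : ZMod 3, x + x + x = 0 := by decide
  rw [P3_mul hω, Matrix.smul_mul, P3_mul hω, smul_smul, ← ph_add hω,
    show v + v + v = (0 : V3) from Prod.ext (h3 _) (h3 _), P3_zero]
  have : v.2 * v.1 + (v + v).2 * v.1 = 0 := by
    rw [Prod.snd_add, ← h3 (v.2 * v.1)]; ring
  rw [this, ph_zero, one_smul]

lemma trace_P3 (hω : IsPrimitiveRoot ω 3) {v : V3} (hv : v ≠ 0) : Matrix.trace (P3 ω v) = 0 := by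
  obtain ⟨a, b⟩ := v
  simp only [Matrix.trace, Matrix.diag_apply, P3_apply]
  by_cases ha : a = 0
  · subst ha
    have hb : b ≠ 0 := fun h => hv (by rw [h]; rfl)
    simpa [hb] using sum_ph hω b
  · simp [ha]

lemma trace_P3_zero : Matrix.trace (P3 ω (0 : V3)) = 3 := by
  rw [P3_zero, Matrix.trace_one]; simp

/-- The Pauli matrices as invertible matrices. -/
def P3gl (hω : ω ^ 3 = 1) (v : V3) : GL (ZMod 3) F where
  val := P3 ω v
  inv := P3 ω v * P3 ω v
  val_inv := by rw [← mul_assoc, P3_cube hω]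
  inv_val := P3_cube hω v

@[simp] lemma coe_P3gl (hω : ω ^ 3 = 1) (v : V3) :
    ((P3gl hω v : GL (ZMod 3) F) : Matrix (ZMod 3) (ZMod 3) F) = P3 ω v := rfl

lemma det_P3 (hω : IsPrimitiveRoot ω 3) (v : V3) : (P3 ω v).det = 1 := by
  obtain ⟨a, b⟩ := v
  have h3 := hω.pow_eq_one
  have e : P3 ω (a, b) = P3 ω (a, 0) * P3 ω (0, b) := by simp [P3_mul h3]
  rw [e, Matrix.det_mul]
  have hd : P3 ω (0, b) = Matrix.diagonal fun j => ph ω (b * j) := by
    ext i j
    by_cases h : i = j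
    · subst h; simp [P3_apply]
    · simp [P3_apply, h]
  rw [hd, Matrix.det_diagonal]
  have h2 : ∏ j : ZMod 3, ph ω (b * j) = 1 := by
    rw [show (∏ j : ZMod 3, ph ω (b * j)) = ph ω (b * 0) * ph ω (b * 1) * ph ω (b * 2) from
      Fin.prod_univ_three _, ← ph_add h3, ← ph_add h3]
    have : ∀ b : ZMod 3, b * 0 + b * 1 + b * 2 = 0 := by decide
    rw [this, ph_zero]
  rw [h2, mul_one]
  have hm : P3 ω (a, 0) = (Equiv.addRight (-a)).permMatrix F := by
    ext i j
    simp only [P3_apply, zero_mul, ph_zero, Equiv.Perm.permMatrix, PEquiv.toMatrix_apply,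
      Equiv.toPEquiv_apply, Option.mem_def, Option.some.injEq, Equiv.coe_addRight, ← sub_eq_add_neg,
      sub_eq_iff_eq_add]
  have hs : ∀ c : ZMod 3, Equiv.Perm.sign (Equiv.addRight c) = 1 := by decide
  rw [hm, Matrix.det_permutation, hs]
  simp

/-! ### Pauli matrices in dimension nine -/

@[simp] lemma T9_zero : T9 ω 0 = 1 := by simp [T9]

lemma T9_apply (hω : ω ^ 3 = 1) (v : V9) (i j : J9) :
    T9 ω v i j = if i = j + (v.1.1, v.2.1) then ph ω (v.1.2 * j.1 + v.2.2 * j.2) else 0 := by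
  obtain ⟨i1, i2⟩ := i
  obtain ⟨j1, j2⟩ := j
  simp only [T9, Matrix.kroneckerMap_apply, P3_apply, Prod.mk_add_mk, Prod.mk.injEq]
  by_cases h : i1 = j1 + v.1.1 <;> by_cases h' : i2 = j2 + v.2.1 <;>
    simp [h, h', ph_add hω]

lemma T9_mul (hω : ω ^ 3 = 1) (v w : V9) :
    T9 ω v * T9 ω w = ph ω (v.1.2 * w.1.1 + v.2.2 * w.2.1) • T9 ω (v + w) := by
  simp only [T9, ← Matrix.mul_kronecker_mul, P3_mul hω, Matrix.smul_kronecker,
    Matrix.kronecker_smul, smul_smul, ← ph_add hω, Prod.fst_add, Prod.snd_add]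
  rw [add_comm]

lemma T9_comm (hω : ω ^ 3 = 1) (v w : V9) :
    T9 ω v * T9 ω w = ph ω (B9 v w) • (T9 ω w * T9 ω v) := by
  rw [T9_mul hω, T9_mul hω, smul_smul, ← ph_add hω, add_comm w v]
  congr 2
  unfold B9 B3; ring

lemma T9_cube (hω : ω ^ 3 = 1) (v : V9) : T9 ω v * T9 ω v * T9 ω v = 1 := by
  simp [T9, ← Matrix.mul_kronecker_mul, P3_cube hω]

/-- The Pauli matrices of dimension nine as invertible matrices. -/
def T9gl (hω : ω ^ 3 = 1) (v : V9) : GL J9 F := kronHom (P3gl hω v.1, P3gl hω v.2)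

@[simp] lemma coe_T9gl (hω : ω ^ 3 = 1) (v : V9) :
    ((T9gl hω v : GL J9 F) : Matrix J9 J9 F) = T9 ω v := rfl

lemma trace_T9 (hω : IsPrimitiveRoot ω 3) {v : V9} (hv : v ≠ 0) : Matrix.trace (T9 ω v) = 0 := by
  rw [T9, Matrix.trace_kronecker]
  by_cases h : v.1 = 0
  · rw [trace_P3 hω (v := v.2) fun h' => hv (Prod.ext h h'), mul_zero]
  · rw [trace_P3 hω h, zero_mul]

lemma trace_T9_zero : Matrix.trace (T9 ω (0 : V9)) = 9 := by
  rw [T9_zero, Matrix.trace_one]; simp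

/-- A family with scalar multiplication rule and trace concentrated at zero is independent. -/
lemma li_of_trace {V ι : Type*} [AddCommGroup V] [Fintype V] [Fintype ι] (P : V → Matrix ι ι F)
    (hmul : ∀ v w, ∃ c : F, c ≠ 0 ∧ P v * P w = c • P (v + w))
    (h0 : ∀ v, v ≠ 0 → Matrix.trace (P v) = 0) (h1 : Matrix.trace (P 0) ≠ 0) :
    LinearIndependent F P := by
  classical
  rw [Fintype.linearIndependent_iff]
  intro g hg w
  have h := congrArg (fun A => Matrix.trace (A * P (-w))) hg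
  simp only [Finset.sum_mul, Matrix.trace_sum, Matrix.smul_mul, Matrix.trace_smul, zero_mul,
    Matrix.trace_zero] at h
  rw [Finset.sum_eq_single w] at h
  · obtain ⟨c, hc, hc'⟩ := hmul w (-w)
    rw [hc', add_neg_cancel, Matrix.trace_smul] at h
    simpa [hc, h1] using h
  · intro v _ hv
    obtain ⟨c, -, hc'⟩ := hmul v (-w)
    rw [hc', Matrix.trace_smul, h0 (v + -w) (by rwa [← sub_eq_add_neg, sub_ne_zero]), smul_zero,
      smul_zero]
  · simp

lemma P3_li (hω : IsPrimitiveRoot ω 3) : LinearIndependent F (P3 ω) :=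
  li_of_trace _ (fun v w => ⟨_, ph_ne_zero hω.pow_eq_one _, P3_mul hω.pow_eq_one v w⟩)
    (fun _ => trace_P3 hω) (by rw [trace_P3_zero]; exact three_ne_zero_of_root hω)

lemma T9_li (hω : IsPrimitiveRoot ω 3) : LinearIndependent F (T9 ω) :=
  li_of_trace _ (fun v w => ⟨_, ph_ne_zero hω.pow_eq_one _, T9_mul hω.pow_eq_one v w⟩)
    (fun _ => trace_T9 hω)
    (by rw [trace_T9_zero, show (9 : F) = 3 * 3 by norm_num]
        exact mul_ne_zero (three_ne_zero_of_root hω) (three_ne_zero_of_root hω))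

lemma P3_span (hω : IsPrimitiveRoot ω 3) : Submodule.span F (Set.range (P3 ω)) = ⊤ :=
  (P3_li hω).span_eq_top_of_card_eq_finrank' (by
    rw [Module.finrank_matrix, Module.finrank_self]; simp)

lemma T9_span (hω : IsPrimitiveRoot ω 3) : Submodule.span F (Set.range (T9 ω)) = ⊤ :=
  (T9_li hω).span_eq_top_of_card_eq_finrank' (by
    rw [Module.finrank_matrix, Module.finrank_self]; simp)

/-- Matrices commuting with every Pauli matrix are scalar. -/
lemma eq_smul_one_of_commute_T9 (hω : IsPrimitiveRoot ω 3) {A : Matrix J9 J9 F}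
    (h : ∀ v, A * T9 ω v = T9 ω v * A) : ∃ c : F, A = c • 1 := by
  obtain ⟨g, rfl⟩ := (Submodule.mem_span_range_iff_exists_fun F).mp
    (show A ∈ Submodule.span F (Set.range (T9 ω)) by rw [T9_span hω]; trivial)
  refine ⟨g 0, ?_⟩
  have key : ∀ v, v ≠ 0 → g v = 0 := by
    intro v hv
    obtain ⟨u, hu⟩ : ∃ u, B9 u v ≠ 0 := by
      have e : ∀ u : V3, u ≠ 0 → ∃ x, B3 x u ≠ 0 := by decide
      by_cases h1 : v.1 = 0
      · obtain ⟨x, hx⟩ := e v.2 fun h' => hv (Prod.ext h1 h')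
        exact ⟨(0, x), by simpa [B9, B3] using hx⟩
      · obtain ⟨x, hx⟩ := e v.1 h1
        exact ⟨(x, 0), by simpa [B9, B3] using hx⟩
    have h' := h u
    simp only [Finset.sum_mul, Finset.mul_sum, Matrix.smul_mul, Matrix.mul_smul] at h'
    simp only [T9_comm hω.pow_eq_one u _, T9_mul hω.pow_eq_one _ u, smul_smul] at h'
    rw [← sub_eq_zero, ← Finset.sum_sub_distrib] at h'
    simp only [← sub_smul] at h'
    have hz := Fintype.linearIndependent_iff.mp
      ((T9_li hω).comp (fun x => x + u) (add_left_injective u)) _ h' v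
    rw [sub_eq_zero] at hz
    by_contra hgv
    have := mul_left_cancel₀ hgv hz
    nth_rewrite 1 [← one_mul (ph ω (v.1.2 * u.1.1 + v.2.2 * u.2.1))] at this
    exact hu ((ph_eq_one_iff hω).mp (mul_right_cancel₀ (ph_ne_zero hω.pow_eq_one _) this).symm)
  rw [Finset.sum_eq_single 0 (fun v _ hv => by rw [key v hv, zero_smul]) (by simp), T9_zero]

/-! ### Membership of the normalisers, and the action on the indices -/

section Mon

variable {V ι : Type*} [Fintype V] [Fintype ι] [DecidableEq ι] {P : V → Matrix ι ι F}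

lemma li_pair (hP : LinearIndependent F P) {a b : V} (hne : a ≠ b) {c d : F}
    (h : c • P a + d • P b = 0) : c = 0 := by
  classical
  have h' := Fintype.linearIndependent_iff.mp hP (Pi.single a c + Pi.single b d) (by
    simpa [Pi.single_apply, add_smul, Finset.sum_add_distrib, ite_smul] using h) a
  simpa [hne, Ne.symm hne] using h'

/-- For independent families the forward condition suffices. -/
lemma mem_monNorm_of_forward (hP : LinearIndependent F P) {g : GL ι F}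
    (h : ∀ v, ∃ (w : V) (c : F), (g : Matrix ι ι F) * P v = c • (P w * (g : Matrix ι ι F))) :
    g ∈ monNorm P := by
  choose w c hw using h
  have hc : ∀ v, c v ≠ 0 := fun v h0 => hP.ne_zero v (by
    have := hw v
    rw [h0, zero_smul] at this
    calc P v = ((g⁻¹ : GL ι F) : Matrix ι ι F) * ((g : Matrix ι ι F) * P v) := by
          rw [← mul_assoc, Units.inv_mul, one_mul]
      _ = 0 := by rw [this, mul_zero])
  have hinj : Function.Injective w := by
    intro v v' hvv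
    by_contra hne
    have e : (g : Matrix ι ι F) * (c v' • P v - c v • P v') = 0 := by
      rw [mul_sub, Matrix.mul_smul, Matrix.mul_smul, hw, hw, hvv, smul_smul, smul_smul,
        mul_comm (c v) (c v'), sub_self]
    have e' : c v' • P v + (-(c v)) • P v' = 0 := by
      rw [neg_smul, ← sub_eq_add_neg]
      calc c v' • P v - c v • P v' = ((g⁻¹ : GL ι F) : Matrix ι ι F) * ((g : Matrix ι ι F) * (c v' • P v - c v • P v')) := by
            rw [← mul_assoc, Units.inv_mul, one_mul]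
        _ = 0 := by rw [e, mul_zero]
    exact hc v' (li_pair hP hne e')
  refine ⟨fun v => ⟨w v, c v, hw v⟩, fun u => ?_⟩
  obtain ⟨v, rfl⟩ := (Finite.injective_iff_surjective.mp hinj) u
  refine ⟨v, (c v)⁻¹, ?_⟩
  have h2 := congrArg (fun A => ((g⁻¹ : GL ι F) : Matrix ι ι F) * A * ((g⁻¹ : GL ι F) : Matrix ι ι F)) (hw v)
  simp only [Matrix.mul_smul, Matrix.smul_mul, mul_assoc, Units.mul_inv, mul_one] at h2
  rw [← mul_assoc, Units.inv_mul, one_mul] at h2
  rw [h2, smul_smul, inv_mul_cancel₀ (hc v), one_smul]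

/-- The index to which an element of the normaliser sends an index (arbitrary off the normaliser). -/
noncomputable def act (P : V → Matrix ι ι F) (g : GL ι F) (v : V) : V :=
  @dite V (g ∈ monNorm P) (Classical.propDecidable _) (fun h => (h.1 v).choose) (fun _ => v)

lemma act_spec {g : GL ι F} (hg : g ∈ monNorm P) (v : V) :
    ∃ c : F, (g : Matrix ι ι F) * P v = c • (P (act P g v) * (g : Matrix ι ι F)) := by
  rw [act, dif_pos hg]
  exact (hg.1 v).choose_spec

lemma act_eq (hP : LinearIndependent F P) {g : GL ι F} (hg : g ∈ monNorm P) {v w : V} {c : F}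
    (h : (g : Matrix ι ι F) * P v = c • (P w * (g : Matrix ι ι F))) : act P g v = w := by
  obtain ⟨d, hd⟩ := act_spec hg v
  by_contra hne
  have e : d • P (act P g v) + (-c) • P w = 0 := by
    have h' := congrArg (fun A => A * ((g⁻¹ : GL ι F) : Matrix ι ι F)) (hd.symm.trans h)
    simp only [Matrix.smul_mul, mul_assoc, Units.mul_inv, mul_one] at h'
    rw [h', neg_smul, add_neg_cancel]
  have hd0 := li_pair hP hne e
  rw [hd0, zero_smul] at hd
  exact hP.ne_zero v (by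
    calc P v = ((g⁻¹ : GL ι F) : Matrix ι ι F) * ((g : Matrix ι ι F) * P v) := by
          rw [← mul_assoc, Units.inv_mul, one_mul]
      _ = 0 := by rw [hd, mul_zero])

lemma act_mul (hP : LinearIndependent F P) {g h : GL ι F} (hg : g ∈ monNorm P) (hh : h ∈ monNorm P) (v : V) :
    act P (g * h) v = act P g (act P h v) := by
  obtain ⟨c, hc⟩ := act_spec hh v
  obtain ⟨d, hd⟩ := act_spec hg (act P h v)
  refine act_eq hP (mul_mem hg hh) (c := c * d) ?_
  rw [Units.val_mul, mul_assoc, hc, mul_smul_comm, ← mul_assoc, hd, smul_mul_assoc, smul_smul, mul_assoc]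

end Mon

lemma mem_N3_iff (hω : IsPrimitiveRoot ω 3) {g : GL (ZMod 3) F} :
    g ∈ N3 ω ↔ ∀ v, ∃ (w : V3) (c : F), (g : Matrix (ZMod 3) (ZMod 3) F) * P3 ω v =
      c • (P3 ω w * (g : Matrix (ZMod 3) (ZMod 3) F)) :=
  ⟨fun h => h.1, mem_monNorm_of_forward (P3_li hω)⟩

lemma mem_N9_iff (hω : IsPrimitiveRoot ω 3) {g : GL J9 F} :
    g ∈ N9 ω ↔ ∀ v, ∃ (w : V9) (c : F), (g : Matrix J9 J9 F) * T9 ω v =
      c • (T9 ω w * (g : Matrix J9 J9 F)) :=
  ⟨fun h => h.1, mem_monNorm_of_forward (T9_li hω)⟩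

lemma kron_mem_N9 (hω : IsPrimitiveRoot ω 3) {a b : GL (ZMod 3) F} (ha : a ∈ N3 ω) (hb : b ∈ N3 ω) :
    kronHom (a, b) ∈ N9 ω := by
  rw [mem_N9_iff hω]
  intro v
  obtain ⟨w1, c1, h1⟩ := ha.1 v.1
  obtain ⟨w2, c2, h2⟩ := hb.1 v.2
  refine ⟨(w1, w2), c2 * c1, ?_⟩
  simp only [coe_kronHom, T9, ← Matrix.mul_kronecker_mul, h1, h2, Matrix.smul_kronecker,
    Matrix.kronecker_smul, smul_smul]

lemma P3gl_mem_N3 (hω : IsPrimitiveRoot ω 3) (u : V3) : P3gl hω.pow_eq_one u ∈ N3 ω :=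
  (mem_N3_iff hω).mpr fun v => ⟨v, _, P3_comm hω.pow_eq_one u v⟩

lemma mem_scalars_N9 (hω : IsPrimitiveRoot ω 3) {g : GL J9 F} {c : F}
    (hg : (g : Matrix J9 J9 F) = c • 1) : g ∈ N9 ω :=
  (mem_N9_iff hω).mpr fun v => ⟨v, 1, by simp [hg]⟩

/-! ### Generators in dimension three -/

lemma fourier_apply (ω : F) (i j : ZMod 3) : fourier ω i j = (ω - ω ^ 2)⁻¹ * ph ω (i * j) := rfl

lemma sub_sq_ne_zero (hω : IsPrimitiveRoot ω 3) : ω - ω ^ 2 ≠ 0 := by
  intro h
  have h0 : ω * (1 - ω) = 0 := by linear_combination h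
  rcases mul_eq_zero.mp h0 with h1 | h1
  · exact hω.ne_zero (by norm_num) h1
  · exact hω.ne_one (by norm_num) (sub_eq_zero.mp h1).symm

lemma sub_sq_sq (hω : IsPrimitiveRoot ω 3) : (ω - ω ^ 2) * (ω - ω ^ 2) = -3 := by
  linear_combination (ω ^ 2 - 3 * ω + 3) * root_sum hω

/-- The scaled Fourier matrix as an invertible matrix. -/
def fourierGL (hω : IsPrimitiveRoot ω 3) : GL (ZMod 3) F where
  val := fourier ω
  inv := ((ω - ω ^ 2) / 3) • Matrix.of fun i j => ph ω (-(i * j))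
  val_inv := by
    ext i j
    rw [fourier, Matrix.mul_smul, Matrix.smul_mul, smul_smul, Matrix.smul_apply, Matrix.mul_apply]
    simp only [Matrix.of_apply, ← ph_add hω.pow_eq_one, smul_eq_mul]
    rw [show (∑ x, ph ω (i * x + -(x * j))) = ∑ x, ph ω ((i - j) * x) from
      Finset.sum_congr rfl fun x _ => by congr 1; ring, sum_ph hω]
    have h := sub_sq_ne_zero hω
    have h3 := three_ne_zero_of_root hω
    by_cases hij : i = j
    · subst hij; simp only [sub_self, Matrix.one_apply_eq, if_true]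
      generalize ω - ω ^ 2 = d at h ⊢
      field_simp
    · simp [sub_ne_zero.mpr hij, hij]
  inv_val := by
    ext i j
    rw [fourier, Matrix.mul_smul, Matrix.smul_mul, smul_smul, Matrix.smul_apply, Matrix.mul_apply]
    simp only [Matrix.of_apply, ← ph_add hω.pow_eq_one, smul_eq_mul]
    rw [show (∑ x, ph ω (-(i * x) + x * j)) = ∑ x, ph ω ((j - i) * x) from
      Finset.sum_congr rfl fun x _ => by congr 1; ring, sum_ph hω]
    have h := sub_sq_ne_zero hω
    have h3 := three_ne_zero_of_root hω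
    by_cases hij : i = j
    · subst hij; simp only [sub_self, Matrix.one_apply_eq, if_true]
      generalize ω - ω ^ 2 = d at h ⊢
      field_simp
    · simp [sub_ne_zero.mpr (Ne.symm hij), hij]

@[simp] lemma coe_fourierGL (hω : IsPrimitiveRoot ω 3) :
    ((fourierGL hω : GL (ZMod 3) F) : Matrix (ZMod 3) (ZMod 3) F) = fourier ω := rfl

/-- The quadratic diagonal matrix as an invertible matrix. -/
def quadGL (hω : IsPrimitiveRoot ω 3) : GL (ZMod 3) F where
  val := quadDiag ω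
  inv := Matrix.diagonal fun j => ph ω (-(j * j))
  val_inv := by simp [quadDiag, ph_mul_neg hω.pow_eq_one]
  inv_val := by simp [quadDiag, mul_comm (ph ω (-_)), ph_mul_neg hω.pow_eq_one]

@[simp] lemma coe_quadGL (hω : IsPrimitiveRoot ω 3) :
    ((quadGL hω : GL (ZMod 3) F) : Matrix (ZMod 3) (ZMod 3) F) = quadDiag ω := rfl

lemma fourier_conj (hω : IsPrimitiveRoot ω 3) (v : V3) :
    fourier ω * P3 ω v = ph ω (-(v.1 * v.2)) • (P3 ω (-v.2, v.1) * fourier ω) := by
  have h3 := hω.pow_eq_one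
  ext i j
  rw [Matrix.smul_apply, Matrix.mul_apply, Matrix.mul_apply, Finset.sum_eq_single (j + v.1),
    Finset.sum_eq_single (i + v.2)]
  · simp only [P3_apply, fourier_apply, if_true, add_neg_cancel_right, smul_eq_mul]
    have : i * (j + v.1) + v.2 * j = -(v.1 * v.2) + (v.1 * (i + v.2) + (i + v.2) * j) := by ring
    calc (ω - ω ^ 2)⁻¹ * ph ω (i * (j + v.1)) * ph ω (v.2 * j)
        = (ω - ω ^ 2)⁻¹ * ph ω (i * (j + v.1) + v.2 * j) := by rw [ph_add h3]; ring
      _ = _ := by rw [this, ph_add h3, ph_add h3]; ring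
  · intro x _ hx
    have : ¬ i = x + -v.2 := fun e => hx (by rw [e]; ring)
    simp [P3_apply, this]
  · simp
  · intro x _ hx
    simp [P3_apply, hx]
  · simp

lemma quad_conj (hω : IsPrimitiveRoot ω 3) (v : V3) :
    quadDiag ω * P3 ω v = ph ω (v.1 * v.1) • (P3 ω (v.1, v.2 + 2 * v.1) * quadDiag ω) := by
  have h3 := hω.pow_eq_one
  ext i j
  simp only [quadDiag, Matrix.smul_apply, Matrix.diagonal_mul, Matrix.mul_diagonal, P3_apply,
    smul_eq_mul]
  by_cases h : i = j + v.1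
  · subst h
    simp only [if_pos]
    rw [← ph_add h3, ← ph_add h3, ← ph_add h3]
    congr 1; ring
  · simp [h]

lemma fourierGL_mem_N3 (hω : IsPrimitiveRoot ω 3) : fourierGL hω ∈ N3 ω :=
  (mem_N3_iff hω).mpr fun v => ⟨_, _, fourier_conj hω v⟩

lemma quadGL_mem_N3 (hω : IsPrimitiveRoot ω 3) : quadGL hω ∈ N3 ω :=
  (mem_N3_iff hω).mpr fun v => ⟨_, _, quad_conj hω v⟩

lemma det_fourier (hω : IsPrimitiveRoot ω 3) : (fourier ω).det = 1 := by
  rw [fourier, Matrix.det_smul]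
  erw [Matrix.det_fin_three]
  simp only [ZMod.card]
  have hc : (ω - ω ^ 2) ^ 3 = 3 * (ω ^ 2 - ω) := by
    linear_combination (ω - ω ^ 2) * sub_sq_sq hω
  have e : ph ω ((0:ZMod 3) * 0) * ph ω ((1:ZMod 3) * 1) * ph ω ((2:ZMod 3) * 2) - ph ω ((0:ZMod 3) * 0) * ph ω ((1:ZMod 3) * 2) * ph ω ((2:ZMod 3) * 1) - ph ω ((0:ZMod 3) * 1) * ph ω ((1:ZMod 3) * 0) * ph ω ((2:ZMod 3) * 2) + ph ω ((0:ZMod 3) * 1) * ph ω ((1:ZMod 3) * 2) * ph ω ((2:ZMod 3) * 0) + ph ω ((0:ZMod 3) * 2) * ph ω ((1:ZMod 3) * 0) * ph ω ((2:ZMod 3) * 1) - ph ω ((0:ZMod 3) * 2) * ph ω ((1:ZMod 3) * 1) * ph ω ((2:ZMod 3) * 0) = 3 * (ω ^ 2 - ω) := by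
    rw [show (0:ZMod 3) * 0 = 0 from rfl, show (1:ZMod 3) * 1 = 1 from rfl, show (2:ZMod 3) * 2 = 1 from rfl,
      show (1:ZMod 3) * 2 = 2 from rfl, show (2:ZMod 3) * 1 = 2 from rfl, show (0:ZMod 3) * 1 = 0 from rfl,
      show (1:ZMod 3) * 0 = 0 from rfl, show (2:ZMod 3) * 0 = 0 from rfl, show (0:ZMod 3) * 2 = 0 from rfl,
      ph_zero, ph_one, ph_two]
    linear_combination (-ω) * hω.pow_eq_one
  erw [e]
  rw [← hc, ← mul_pow, inv_mul_cancel₀ (sub_sq_ne_zero hω), one_pow]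

lemma det_quad (hω : IsPrimitiveRoot ω 3) : (quadDiag ω).det = ω ^ 2 := by
  rw [quadDiag, Matrix.det_diagonal, show (∏ j : ZMod 3, ph ω (j * j)) = ph ω (0 * 0) * ph ω (1 * 1) * ph ω (2 * 2) from Fin.prod_univ_three _]
  rw [show (0:ZMod 3) * 0 = 0 from rfl, show (1:ZMod 3) * 1 = 1 from rfl, show (2:ZMod 3) * 2 = 1 from rfl, ph_zero, ph_one]
  ring

/-! ### Generators in dimension nine -/

lemma det_kronHom (a b : GL (ZMod 3) F) : ((kronHom (a, b) : GL J9 F) : Matrix J9 J9 F).det =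
    (a : Matrix (ZMod 3) (ZMod 3) F).det ^ 3 * (b : Matrix (ZMod 3) (ZMod 3) F).det ^ 3 := by
  simp [Matrix.det_kronecker]

lemma det_bd (a : ZMod 3 → Matrix (ZMod 3) (ZMod 3) F) : (bd a).det = ∏ i, (a i).det := by
  have e : bd a = (Matrix.blockDiagonal a).submatrix (Equiv.prodComm _ _) (Equiv.prodComm _ _) := by
    ext ⟨i, k⟩ ⟨j, l⟩
    by_cases h : i = j <;> simp [bd_apply, Matrix.blockDiagonal_apply, h]
  rw [e, Matrix.det_submatrix_equiv_self, Matrix.det_blockDiagonal]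

lemma det_pmat (σ : Equiv.Perm J9) : (pmat (F := F) σ).det = 1 := by
  have e : pmat (F := F) σ = ((Equiv.Perm.sign σ : ℤ) : F) • (σ⁻¹).permMatrix F := by
    ext i j
    simp [pmat, Equiv.Perm.permMatrix, PEquiv.toMatrix_apply, Equiv.eq_symm_apply, eq_comm]
  rw [e, Matrix.det_smul, Matrix.det_permutation]
  rcases Int.units_eq_one_or (Equiv.Perm.sign σ) with h | h <;> norm_num [h]

lemma mem_specialLinear {ι : Type} [Fintype ι] [DecidableEq ι] {g : GL ι F} :
    g ∈ Cfsg.Geo.specialLinear ι F ↔ (g : Matrix ι ι F).det = 1 := by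
  rw [Cfsg.Geo.specialLinear, MonoidHom.mem_ker, ← Units.val_eq_one]
  rfl

lemma det_T9 (hω : IsPrimitiveRoot ω 3) (v : V9) : (T9 ω v).det = 1 := by
  simp [T9, Matrix.det_kronecker, det_P3 hω]

/-- Linear permutations of the coordinates normalise the Pauli group. -/
lemma pm_mem_N9 (hω : IsPrimitiveRoot ω 3) (σ : Equiv.Perm J9) (w : V9 → V9)
    (hpos : ∀ v j, σ (j + (v.1.1, v.2.1)) = σ j + ((w v).1.1, (w v).2.1))
    (hph : ∀ v j, (w v).1.2 * (σ j).1 + (w v).2.2 * (σ j).2 = v.1.2 * j.1 + v.2.2 * j.2) :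
    pmHom σ ∈ N9 ω := by
  rw [mem_N9_iff hω]
  intro v
  refine ⟨w v, 1, ?_⟩
  rw [one_smul]
  change pmat σ * T9 ω v = T9 ω (w v) * pmat σ
  ext i j
  rw [Matrix.mul_apply, Matrix.mul_apply, Finset.sum_eq_single (j + (v.1.1, v.2.1)),
    Finset.sum_eq_single (σ j)]
  · simp only [pmat, Matrix.of_apply, T9_apply hω.pow_eq_one, if_pos rfl, if_true, hpos, hph]
    by_cases h : i = σ j + ((w v).1.1, (w v).2.1) <;> simp [h, mul_comm]
  · intro x _ hx; simp [pmat, hx]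
  · simp
  · intro x _ hx; simp [T9_apply hω.pow_eq_one, hx]
  · simp

/-- The permutation exchanging the factors. -/
def swapPerm : Equiv.Perm J9 := Equiv.prodComm (ZMod 3) (ZMod 3)

/-- The permutation `(i, k) ↦ (i, k + i)`. -/
def shearPerm : Equiv.Perm J9 where
  toFun p := (p.1, p.2 + p.1)
  invFun p := (p.1, p.2 - p.1)
  left_inv p := by simp
  right_inv p := by simp

/-- Block diagonal element with blocks `P3 (i • b)`. -/
def hShear (hω : ω ^ 3 = 1) (b : V3) : GL J9 F := bdHom fun i => P3gl hω (i * b.1, i * b.2)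

lemma coe_hShear (hω : ω ^ 3 = 1) (b : V3) :
    ((hShear hω b : GL J9 F) : Matrix J9 J9 F) = bd fun i => P3 ω (i * b.1, i * b.2) := rfl

lemma hShear_mem_N9 (hω : IsPrimitiveRoot ω 3) (b : V3) : hShear hω.pow_eq_one b ∈ N9 ω := by
  have h3 := hω.pow_eq_one
  rw [mem_N9_iff hω]
  rintro ⟨⟨a1, b1⟩, ⟨u1, u2⟩⟩
  refine ⟨((a1, b1 + b.2 * u1 - (u2 + a1 * b.2) * b.1), (u1 + a1 * b.1, u2 + a1 * b.2)),
    ph ω (a1 * b.2 * u1), ?_⟩
  rw [coe_hShear]
  ext ⟨i, k⟩ ⟨j, l⟩
  rw [Matrix.smul_apply, Matrix.mul_apply, Matrix.mul_apply,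
    Finset.sum_eq_single (j + a1, l + u1), Finset.sum_eq_single (j, l + j * b.1)]
  · simp only [bd_apply, P3_apply, T9_apply h3, Prod.mk_add_mk, Prod.mk.injEq, 
      if_true, smul_eq_mul]
    by_cases hi : i = j + a1
    · subst hi
      by_cases hk : k = l + u1 + (j + a1) * b.1
      · rw [if_pos rfl, if_pos hk, if_pos ⟨rfl, by rw [hk]; ring⟩, ← ph_add h3, ← ph_add h3, ← ph_add h3]
        congr 1; ring
      · rw [if_pos rfl, if_neg hk, if_neg (fun e => hk (by rw [e.2]; ring))]; simp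
    · simp [hi]
  · rintro ⟨x, y⟩ - hx
    simp only [bd_apply, P3_apply]
    by_cases h : x = j
    · subst h
      have : ¬ y = l + x * b.1 := fun e => hx (by rw [e])
      simp [this]
    · simp [h]
  · simp
  · rintro x - hx
    simp [T9_apply h3, hx]
  · simp

section Amb

variable (A : Amb ω)

lemma one_mem_U3 : (1 : GL (ZMod 3) F) ∈ A.U3 := one_mem _

lemma P3gl_mem_U3 (hω : ω ^ 3 = 1) (v : V3) : P3gl hω v ∈ A.U3 := A.P3_mem v _ rfl

lemma fourierGL_mem_U3 (hω : IsPrimitiveRoot ω 3) : fourierGL hω ∈ A.U3 := A.fourier_mem _ rfl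

lemma quadGL_mem_U3 (hω : IsPrimitiveRoot ω 3) : quadGL hω ∈ A.U3 := A.quad_mem _ rfl

/-! ### Transitivity -/

/-- Conjugate indices. -/
def Conj (v w : V9) : Prop :=
  ∃ n ∈ N9 ω ⊓ A.G9, ∃ c : F, c ≠ 0 ∧ (n : Matrix J9 J9 F) * T9 ω v = c • (T9 ω w * (n : Matrix J9 J9 F))

lemma Conj.refl (v : V9) : Conj A v v := ⟨1, one_mem _, 1, one_ne_zero, by simp⟩

lemma Conj.trans {u v w : V9} (h : Conj A u v) (h' : Conj A v w) : Conj A u w := by
  obtain ⟨n, hn, c, hc, hnc⟩ := h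
  obtain ⟨m, hm, d, hd, hmd⟩ := h'
  refine ⟨m * n, mul_mem hm hn, c * d, mul_ne_zero hc hd, ?_⟩
  rw [Units.val_mul, mul_assoc, hnc, mul_smul_comm, ← mul_assoc, hmd, smul_mul_assoc, smul_smul, mul_assoc]

lemma Conj.symm {v w : V9} (h : Conj A v w) : Conj A w v := by
  obtain ⟨n, hn, c, hc, hnc⟩ := h
  refine ⟨n⁻¹, inv_mem hn, c⁻¹, inv_ne_zero hc, ?_⟩
  have h2 := congrArg (fun X => ((n⁻¹ : GL J9 F) : Matrix J9 J9 F) * X * ((n⁻¹ : GL J9 F) : Matrix J9 J9 F)) hnc
  simp only [Matrix.mul_smul, Matrix.smul_mul, mul_assoc, Units.mul_inv, mul_one] at h2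
  rw [← mul_assoc, Units.inv_mul, one_mul] at h2
  rw [h2, smul_smul, inv_mul_cancel₀ hc, one_smul]

variable (hω : IsPrimitiveRoot ω 3)
include hω

lemma T9gl_mem (v : V9) : T9gl hω.pow_eq_one v ∈ N9 ω ⊓ A.G9 :=
  ⟨kron_mem_N9 hω (P3gl_mem_N3 hω _) (P3gl_mem_N3 hω _),
    A.kron_mem _ (P3gl_mem_U3 A _ _) _ (P3gl_mem_U3 A _ _), mem_specialLinear.mpr (det_T9 hω v)⟩

lemma kron_fourier_left_mem : kronHom (fourierGL hω, 1) ∈ N9 ω ⊓ A.G9 :=
  ⟨kron_mem_N9 hω (fourierGL_mem_N3 hω) (one_mem _),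
    A.kron_mem _ (fourierGL_mem_U3 A hω) _ (one_mem _),
    mem_specialLinear.mpr (by rw [det_kronHom]; simp [det_fourier hω])⟩

lemma kron_fourier_right_mem : kronHom (1, fourierGL hω) ∈ N9 ω ⊓ A.G9 :=
  ⟨kron_mem_N9 hω (one_mem _) (fourierGL_mem_N3 hω),
    A.kron_mem _ (one_mem _) _ (fourierGL_mem_U3 A hω),
    mem_specialLinear.mpr (by rw [det_kronHom]; simp [det_fourier hω])⟩

lemma kron_quad_left_mem : kronHom (quadGL hω, 1) ∈ N9 ω ⊓ A.G9 :=
  ⟨kron_mem_N9 hω (quadGL_mem_N3 hω) (one_mem _),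
    A.kron_mem _ (quadGL_mem_U3 A hω) _ (one_mem _),
    mem_specialLinear.mpr (by
      rw [det_kronHom]; simp [det_quad hω, ← pow_mul, show ω ^ 6 = (ω ^ 3) ^ 2 by ring, hω.pow_eq_one])⟩

lemma kron_quad_right_mem : kronHom (1, quadGL hω) ∈ N9 ω ⊓ A.G9 :=
  ⟨kron_mem_N9 hω (one_mem _) (quadGL_mem_N3 hω),
    A.kron_mem _ (one_mem _) _ (quadGL_mem_U3 A hω),
    mem_specialLinear.mpr (by
      rw [det_kronHom]; simp [det_quad hω, ← pow_mul, show ω ^ 6 = (ω ^ 3) ^ 2 by ring, hω.pow_eq_one])⟩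

lemma pm_mem_of (σ : Equiv.Perm J9) (h : pmHom σ ∈ N9 ω) : pmHom σ ∈ N9 ω ⊓ A.G9 :=
  ⟨h, A.pm_mem σ, mem_specialLinear.mpr (det_pmat σ)⟩

lemma pm_swap_mem : pmHom swapPerm ∈ N9 ω ⊓ A.G9 :=
  pm_mem_of A hω _ (pm_mem_N9 hω _ (fun v => (v.2, v.1))
    (fun v j => by simp [swapPerm]) (fun v j => by simp [swapPerm]; ring))

lemma pm_shear_mem : pmHom shearPerm ∈ N9 ω ⊓ A.G9 :=
  pm_mem_of A hω _ (pm_mem_N9 hω _
    (fun v => ((v.1.1, v.1.2 - v.2.2), (v.2.1 + v.1.1, v.2.2)))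
    (fun v j => by simp [shearPerm]; ring) (fun v j => by simp [shearPerm]; ring))

lemma tA_mem : (tA : GL J9 F) ∈ N9 ω ⊓ A.G9 :=
  pm_mem_of A hω _ (pm_mem_N9 hω _ (fun v => ((-v.1.1, -v.1.2), v.2))
    (fun v j => by simp [Prod.map]; ring) (fun v j => by simp [Prod.map]))

lemma jJ_mem : (jJ : GL J9 F) ∈ N9 ω ⊓ A.G9 :=
  pm_mem_of A hω _ (pm_mem_N9 hω _ (fun v => -v)
    (fun v j => by simp [Prod.ext_iff, add_comm]) (fun v j => by simp))

lemma hShear_mem (b : V3) : hShear hω.pow_eq_one b ∈ N9 ω ⊓ A.G9 :=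
  ⟨hShear_mem_N9 hω b, A.bd_mem _ fun _ => P3gl_mem_U3 A _ _,
    mem_specialLinear.mpr (by rw [coe_hShear, det_bd]; simp [det_P3 hω])⟩

lemma coe_tA_conj (v : V9) : (tA : GL J9 F).1 * T9 ω v = T9 ω (-v.1, v.2) * (tA : GL J9 F).1 := by
  have h3 := hω.pow_eq_one
  change pmat _ * T9 ω v = T9 ω (-v.1, v.2) * pmat _
  ext i j
  rw [Matrix.mul_apply, Matrix.mul_apply, Finset.sum_eq_single (j + (v.1.1, v.2.1)),
    Finset.sum_eq_single ((-j.1, j.2) : J9)]
  · simp [pmat, T9_apply h3, Prod.map, add_comm, mul_comm]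
  · intro x _ hx; simp [pmat, Prod.map, hx]
  · simp
  · intro x _ hx; simp [T9_apply h3, hx]
  · simp

lemma conj_swap (v : V9) : Conj A v (v.2, v.1) :=
  ⟨_, pm_swap_mem A hω, 1, one_ne_zero, by
    have h3 := hω.pow_eq_one
    rw [one_smul]
    change pmat _ * T9 ω v = T9 ω (v.2, v.1) * pmat _
    ext i j
    rw [Matrix.mul_apply, Matrix.mul_apply, Finset.sum_eq_single (j + (v.1.1, v.2.1)),
      Finset.sum_eq_single (j.2, j.1)]
    · obtain ⟨j1, j2⟩ := j
      simp [pmat, T9_apply h3, swapPerm, add_comm, mul_comm]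
      by_cases h : i = (j2 + v.2.1, j1 + v.1.1) <;> simp [h]
    · intro x _ hx
      have hx' : x ≠ j.swap := hx
      simp [pmat, swapPerm, hx']
    · simp
    · intro x _ hx; simp [T9_apply h3, hx]
    · simp⟩

lemma conj_shear (v : V9) : Conj A v ((v.1.1, v.1.2 - v.2.2), (v.2.1 + v.1.1, v.2.2)) :=
  ⟨_, pm_shear_mem A hω, 1, one_ne_zero, by
    have h3 := hω.pow_eq_one
    rw [one_smul]
    change pmat _ * T9 ω v = T9 ω _ * pmat _
    ext i j
    rw [Matrix.mul_apply, Matrix.mul_apply, Finset.sum_eq_single (j + (v.1.1, v.2.1)),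
      Finset.sum_eq_single (j.1, j.2 + j.1)]
    · obtain ⟨j1, j2⟩ := j
      obtain ⟨i1, i2⟩ := i
      have e1 : (v.1.2 - v.2.2) * j1 + v.2.2 * (j2 + j1) = v.1.2 * j1 + v.2.2 * j2 := by ring
      have e2 : j2 + v.2.1 + (j1 + v.1.1) = j2 + j1 + (v.2.1 + v.1.1) := by ring
      simp [pmat, T9_apply h3, shearPerm, e1, e2]
      split_ifs <;> ring
    · intro x _ hx; simp [pmat, shearPerm, hx]
    · simp
    · intro x _ hx; simp [T9_apply h3, hx]
    · simp⟩

lemma conj_fourier_left (v : V9) : Conj A v ((-v.1.2, v.1.1), v.2) :=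
  ⟨_, kron_fourier_left_mem A hω, ph ω (-(v.1.1 * v.1.2)), ph_ne_zero hω.pow_eq_one _, by
    simp only [coe_kronHom, coe_fourierGL, T9, ← Matrix.mul_kronecker_mul, fourier_conj hω,
      Matrix.smul_kronecker, Units.val_one, one_mul, mul_one]⟩

lemma conj_quad_left (v : V9) : Conj A v ((v.1.1, v.1.2 + 2 * v.1.1), v.2) :=
  ⟨_, kron_quad_left_mem A hω, ph ω (v.1.1 * v.1.1), ph_ne_zero hω.pow_eq_one _, by
    simp only [coe_kronHom, coe_quadGL, T9, ← Matrix.mul_kronecker_mul, quad_conj hω,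
      Matrix.smul_kronecker, Units.val_one, one_mul, mul_one]⟩

/-- One factor: `SL(2,3)` is transitive on the non-zero vectors. -/
lemma conj_left {u : V3} (hu : u ≠ 0) (x : V3) : Conj A ((1, 0), x) (u, x) := by
  have hq : ∀ a b, Conj A ((a, b), x) ((a, b + 2 * a), x) := fun a b => conj_quad_left A hω ((a, b), x)
  have hf : ∀ a b, Conj A ((a, b), x) ((-b, a), x) := fun a b => conj_fourier_left A hω ((a, b), x)
  have c1 : Conj A ((1, 0), x) ((1, 2), x) := hq 1 0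
  have c2 : Conj A ((1, 0), x) ((1, 1), x) := Conj.trans A c1 (hq 1 2)
  have c3 : Conj A ((1, 0), x) ((0, 1), x) := hf 1 0
  have c4 : Conj A ((1, 0), x) ((2, 0), x) := Conj.trans A c3 (hf 0 1)
  have c5 : Conj A ((1, 0), x) ((0, 2), x) := Conj.trans A c4 (hf 2 0)
  have c6 : Conj A ((1, 0), x) ((2, 1), x) := Conj.trans A c4 (hq 2 0)
  have c7 : Conj A ((1, 0), x) ((2, 2), x) := Conj.trans A c6 (hq 2 1)
  obtain ⟨a, b⟩ := u
  rcases zmod_cases a with rfl | rfl | rfl <;> rcases zmod_cases b with rfl | rfl | rfl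
  all_goals first | exact (hu rfl).elim | exact Conj.refl A _ | assumption

lemma conj_base {v : V9} (hv : v ≠ 0) : Conj A v ((1, 0), (0, 0)) := by
  have step : ∀ u : V3, u ≠ 0 → ∀ x, Conj A (u, x) ((1, 0), x) := fun u hu x => (conj_left A hω hu x).symm A
  obtain ⟨u, x⟩ := v
  by_cases hu : u = 0
  · subst hu
    have hx : x ≠ 0 := fun h => hv (by rw [h]; rfl)
    exact Conj.trans A (conj_swap A hω _) (step x hx _)
  · refine Conj.trans A (step u hu x) ?_
    by_cases hx : x = 0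
    · subst hx; exact Conj.refl A _
    · refine Conj.trans A (Conj.trans A (conj_swap A hω _) (Conj.trans A (step x hx _) (conj_swap A hω _))) ?_
      exact Conj.trans A (conj_shear A hω ((1, 0), (1, 0))) (conj_shear A hω ((1, 0), (2, 0)))

/-- The normaliser is transitive on the non-zero indices. -/
theorem exists_conj {v w : V9} (hv : v ≠ 0) (hw : w ≠ 0) :
    ∃ n ∈ N9 ω ⊓ A.G9, ∃ c : F, c ≠ 0 ∧
      (n : Matrix J9 J9 F) * T9 ω v = c • (T9 ω w * (n : Matrix J9 J9 F)) :=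
  Conj.trans A (conj_base A hω hv) ((conj_base A hω hw).symm A)

end Amb

end CfsgLib.Geometric.SLNine
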